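import Cfsg.Agent.UCase.Tv
import Cfsg.Agent.AschCases.ProperC6
import Cfsg.Agent.Uni.Simple
import Cfsg.Agent.Uni.Stab
import Cfsg.Prelude.Def_GeometricClasses

/-!
# `SU_n(q)` as a subgroup of `GL_n` and the members of the geometric classes: proper containment
-/

set_option autoImplicit false
set_option linter.unusedSectionVars false

namespace Cfsg.Agent.UCase

open scoped Matrix Kronecker commutatorElement
open Cfsg.Geo Cfsg.Agent.AschCases Cfsg.Agent.Uni Module

variable {F : Type*} [Field F] [Fintype F] {q n : ℕ}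

/-- `SU_n(q)` inside `GL_n(F)` -/
abbrev SG (n : ℕ) (F : Type*) [Field F] (q : ℕ) : Subgroup (GL (Fin n) F) :=
  GU n F q ⊓ specialLinear (Fin n) F

/-- the embedding -/
def suHom (n : ℕ) (F : Type*) [Field F] (q : ℕ) : SU n F q →* GL (Fin n) F :=
  (Matrix.SpecialLinearGroup.toGL).comp (SU n F q).subtype

theorem suHom_coe (g : SU n F q) : ((suHom n F q g : GL (Fin n) F) : Matrix (Fin n) (Fin n) F) =
    ((g : Matrix.SpecialLinearGroup (Fin n) F) : Matrix (Fin n) (Fin n) F) := rfl

theorem suHom_mulVec (g : SU n F q) (x : Fin n → F) :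
    ((suHom n F q g : GL (Fin n) F) : Matrix (Fin n) (Fin n) F) *ᵥ x = act g x := rfl

theorem suHom_injective : Function.Injective (suHom n F q) := by
  intro g h hgh
  apply SU_ext
  rw [← suHom_coe, hgh, suHom_coe]

theorem suHom_mem (g : SU n F q) : suHom n F q g ∈ SG n F q := by
  exact ⟨fun u v => SU_pres g u v, mem_specialLinear.2 (Matrix.SpecialLinearGroup.det_coe _)⟩

theorem suHom_range : (suHom n F q).range = SG n F q := by
  apply le_antisymm
  · rintro _ ⟨g, rfl⟩
    exact suHom_mem g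
  · rintro x ⟨hx1, hx2⟩
    exact ⟨mkSU (x : Matrix (Fin n) (Fin n) F) hx1 (mem_specialLinear.1 hx2), Units.ext rfl⟩

theorem exists_suHom {x : GL (Fin n) F} (hx : x ∈ SG n F q) : ∃ g, suHom n F q g = x := by
  rw [← suHom_range] at hx
  exact hx

theorem dot_pow (x u : Fin n → F) : (fun j => u j ^ q) ⬝ᵥ x = hermForm n F q x u := by
  rw [hermForm_def, dotProduct]
  exact Finset.sum_congr rfl fun i _ => mul_comm _ _

/-- transvections as elements `tv` -/
theorem tv_mem_SG (hF : Fintype.card F = q ^ 2) {u : Fin n → F} {c : F}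
    (hu : hermForm n F q u u = 0) (hc : c ^ q = -c)
    (h : (fun j => u j ^ q) ⬝ᵥ (c • u) = 0) : tv (c • u) (fun j => u j ^ q) h ∈ SG n F q := by
  obtain ⟨g, -, hg⟩ := exists_transv hF hu hc
  have : tv (c • u) (fun j => u j ^ q) h = suHom n F q g := by
    apply gl_ext
    intro x
    rw [tv_mulVec, suHom_mulVec, hg, dot_pow, smul_smul, mul_comm]
  rw [this]
  exact suHom_mem g

/-- There is a transvection in `SG`. -/
theorem exists_tv_mem_SG (hF : Fintype.card F = q ^ 2) (hn : 2 ≤ n) :
    ∃ (v φ : Fin n → F) (h : φ ⬝ᵥ v = 0), v ≠ 0 ∧ φ ≠ 0 ∧ tv v φ h ∈ SG n F q := by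
  obtain ⟨u, hu0, hu⟩ := exists_isotropic (F := F) (n := n) hF hn
  obtain ⟨c, hc0, hc⟩ := exists_skew hF
  have h : (fun j => u j ^ q) ⬝ᵥ (c • u) = 0 := by
    rw [dot_pow, hermForm_smul_left, hu, mul_zero]
  refine ⟨c • u, fun j => u j ^ q, h, smul_ne_zero hc0 hu0, ?_, tv_mem_SG hF hu hc h⟩
  intro h0
  apply hu0
  funext j
  exact (pow_q_eq_zero hF).1 (congrFun h0 j)

/-- A subspace invariant under all unitary transvections is trivial. -/
theorem eq_bot_or_top_of_transv (hF : Fintype.card F = q ^ 2) (hn : 2 ≤ n)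
    (W : Submodule F (Fin n → F))
    (hW : ∀ u, hermForm n F q u u = 0 → ∀ c : F, c ^ q = -c → ∀ w ∈ W,
      w + (c * hermForm n F q w u) • u ∈ W) : W = ⊥ ∨ W = ⊤ := by
  by_cases h0 : W = ⊥
  · exact Or.inl h0
  right
  obtain ⟨w, hw, hw0⟩ := (Submodule.ne_bot_iff _).1 h0
  obtain ⟨c, hc0, hc⟩ := exists_skew hF
  have key : ∀ w ∈ W, ∀ u, hermForm n F q u u = 0 → hermForm n F q w u ≠ 0 → u ∈ W := by
    intro w hw u hu hwu
    have h1 := W.sub_mem (hW u hu c hc w hw) hw
    rw [add_sub_cancel_left] at h1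
    exact (W.smul_mem_iff (mul_ne_zero hc0 hwu)).1 h1
  obtain ⟨u, hu, hwu⟩ := exists_isotropic_form_ne hF hn hw0
  have huW := key w hw u hu hwu
  have hu0 : u ≠ 0 := by
    rintro rfl
    exact hwu (hermForm_zero_right hF _)
  have hall : ∀ z, hermForm n F q z z = 0 → z ∈ W := by
    intro z hz
    by_cases hz0 : z = 0
    · rw [hz0]; exact W.zero_mem
    obtain ⟨y, hy, huy, hzy⟩ := exists_isotropic_form_ne_two hF hn hu0 hz0
    have hyW := key u huW y hy huy
    exact key y hyW z hz (fun h => hzy ((hermForm_eq_zero_comm hF).1 h))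
  have hperp : perp q W = ⊥ := by
    by_contra hne
    obtain ⟨x, hx, hx0⟩ := (Submodule.ne_bot_iff _).1 hne
    obtain ⟨y, hy, hxy⟩ := exists_isotropic_form_ne hF hn hx0
    exact hxy (hx y (hall y hy))
  have := finrank_perp (q := q) hF W
  rw [hperp, finrank_bot, zero_add] at this
  apply Submodule.eq_top_of_finrank_eq
  rw [this, Module.finrank_fin_fun]

theorem exists_transv_SG (hF : Fintype.card F = q ^ 2) {u : Fin n → F} {c : F}
    (hu : hermForm n F q u u = 0) (hc : c ^ q = -c) : ∃ g ∈ SG n F q,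
      ∀ x, (g : Matrix (Fin n) (Fin n) F) *ᵥ x = x + (c * hermForm n F q x u) • u := by
  obtain ⟨g, -, hg⟩ := exists_transv hF hu hc
  exact ⟨suHom n F q g, suHom_mem g, fun x => by rw [suHom_mulVec, hg]⟩

/-- Class 1. -/
theorem not_le_subspaceStabilizer (hF : Fintype.card F = q ^ 2) (hn : 2 ≤ n)
    (W : Submodule F (Fin n → F)) (h0 : W ≠ ⊥) (h1 : W ≠ ⊤) :
    ¬ SG n F q ≤ subspaceStabilizer W := by
  intro hle
  rcases eq_bot_or_top_of_transv hF hn W (by
    intro u hu c hc w hw
    obtain ⟨g, hg, hgx⟩ := exists_transv_SG hF hu hc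
    have := (mem_subspaceStabilizer.1 (hle hg) w).1 hw
    rwa [hgx] at this) with h | h
  · exact h0 h
  · exact h1 h

/-- Class 3. -/
theorem not_le_subalgebraNormalizer (hF : Fintype.card F = q ^ 2) (hn : 3 ≤ n) {r : ℕ}
    (hr : 2 ≤ r) (K : Subalgebra F (Matrix (Fin n) (Fin n) F)) (hK : IsFieldSubalgebra r K) :
    ¬ SG n F q ≤ subalgebraNormalizer K := by
  intro hle
  obtain ⟨v, φ, h, hv, hφ, hm⟩ := exists_tv_mem_SG (F := F) (n := n) hF (by omega)
  exact tv_not_mem_subalgebraNormalizer (by rw [Fintype.card_fin]; exact hn) hr K hK v φ h hv hφ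
    (hle hm)

/-- Class 4. -/
theorem not_le_tensorProductSubgroup (hF : Fintype.card F = q ^ 2) (hn : 2 ≤ n) {n₁ n₂ : ℕ}
    (h₁ : 2 ≤ n₁) (h₂ : 2 ≤ n₂) (e : Fin n ≃ Fin n₁ × Fin n₂) (P : GL (Fin n) F) :
    ¬ SG n F q ≤ tensorProductSubgroup n₁ n₂ e P := by
  intro hle
  obtain ⟨v, φ, h, hv, hφ, hm⟩ := exists_tv_mem_SG (F := F) (n := n) hF hn
  exact tv_not_mem_tensorProductSubgroup h₁ h₂ e P v φ h hv hφ (hle hm)

/-- Class 7. -/
theorem not_le_tensorWreathSubgroup (hF : Fintype.card F = q ^ 2) (hn : 2 ≤ n) {m t : ℕ}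
    (hm : 3 ≤ m) (ht : 2 ≤ t) (e : Fin n ≃ (Fin t → Fin m)) (P : GL (Fin n) F) :
    ¬ SG n F q ≤ tensorWreathSubgroup m t e P := by
  intro hle
  obtain ⟨v, φ, h, hv, hφ, hmem⟩ := exists_tv_mem_SG (F := F) (n := n) hF hn
  exact tv_not_mem_tensorWreathSubgroup hm ht e P v φ h hv hφ (hle hmem)

/-! ### Class 2 -/

section ClassTwo

variable {t k : ℕ} {D : Fin t → Submodule F (Fin n → F)}

theorem disjoint_of_indep (hD : IsMDecomposition k D) {i j : Fin t} (hij : i ≠ j)
    {x : Fin n → F} (hi : x ∈ D i) (hj : x ∈ D j) : x = 0 := by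
  have := hD.indep.pairwiseDisjoint hij
  exact Submodule.disjoint_def.1 this x hi hj

theorem class_two_large (hF : Fintype.card F = q ^ 2) (hn : 2 ≤ n) (hD : IsMDecomposition k D)
    (hk : 2 ≤ k) : ¬ SG n F q ≤ decompositionStabilizer D := by
  intro hle
  have ht := hD.two_le
  let i0 : Fin t := ⟨0, by omega⟩
  let i1 : Fin t := ⟨1, by omega⟩
  have hD0 : ∀ i, D i ≠ ⊥ := by
    intro i h
    have := hD.finrank_eq i
    rw [h, finrank_bot] at this
    omega
  have hinv : ∀ u, hermForm n F q u u = 0 → ∀ c : F, c ^ q = -c → ∀ w ∈ D i0,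
      w + (c * hermForm n F q w u) • u ∈ D i0 := by
    intro u hu c hc w hw
    obtain ⟨g, hg, hgx⟩ := exists_transv_SG hF hu hc
    obtain ⟨σ, hσ⟩ := hle hg
    have h1 : σ i0 = i0 := by
      by_contra hne
      -- a vector of `D i0` orthogonal to `u`
      let f : D i0 →ₗ[F] F :=
        { toFun := fun x => hermForm n F q (x : Fin n → F) u
          map_add' := fun x y => hermForm_add_left _ _ _
          map_smul' := fun c x => hermForm_smul_left c _ _ }
      have hker : LinearMap.ker f ≠ ⊥ := by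
        apply LinearMap.ker_ne_bot_of_finrank_lt
        rw [Module.finrank_self, hD.finrank_eq]
        omega
      obtain ⟨x, hx, hx0⟩ := (Submodule.ne_bot_iff _).1 hker
      have hxu : hermForm n F q (x : Fin n → F) u = 0 := hx
      apply hx0
      apply Subtype.ext
      have h2 : (g : Matrix (Fin n) (Fin n) F) *ᵥ (x : Fin n → F) ∈ D (σ i0) := by
        rw [← hσ]
        exact ⟨x, x.2, rfl⟩
      rw [hgx, hxu, mul_zero, zero_smul, add_zero] at h2
      exact disjoint_of_indep hD (Ne.symm hne) x.2 h2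
    have h2 : (g : Matrix (Fin n) (Fin n) F) *ᵥ w ∈ D (σ i0) := by
      rw [← hσ]
      exact ⟨w, hw, rfl⟩
    rwa [hgx, h1] at h2
  rcases eq_bot_or_top_of_transv hF hn (D i0) hinv with h | h
  · exact hD0 i0 h
  · obtain ⟨x, hx, hx0⟩ := (Submodule.ne_bot_iff _).1 (hD0 i1)
    exact hx0 (disjoint_of_indep hD (show i0 ≠ i1 by simp [i0, i1, Fin.ext_iff])
      (by rw [h]; exact Submodule.mem_top) hx)

/-- coordinates with respect to a decomposition into lines -/
theorem exists_line_basis (hD : IsMDecomposition 1 D) :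
    ∃ b : Basis (Fin t) F (Fin n → F), ∀ i, D i = Submodule.span F {b i} := by
  choose x hx0 hx using fun i => finrank_eq_one_iff'.1 (hD.finrank_eq i)
  have hspan : ∀ i, D i = Submodule.span F {(x i : Fin n → F)} := by
    intro i
    apply le_antisymm
    · intro w hw
      obtain ⟨c, hc⟩ := hx i ⟨w, hw⟩
      exact Submodule.mem_span_singleton.2 ⟨c, congrArg Subtype.val hc⟩
    · rw [Submodule.span_le]; simp
  have hx0' : ∀ i, (x i : Fin n → F) ≠ 0 := fun i h => hx0 i (Subtype.ext h)
  have hli : LinearIndependent F (fun i => (x i : Fin n → F)) := by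
    apply iSupIndep.linearIndependent D hD.indep (fun i => (x i).2) hx0'
  have htop : ⊤ ≤ Submodule.span F (Set.range fun i => (x i : Fin n → F)) := by
    rw [← hD.iSup_eq_top]
    apply iSup_le
    intro i
    rw [hspan i, Submodule.span_le]
    intro y hy
    rw [Set.mem_singleton_iff] at hy
    rw [hy]
    exact Submodule.subset_span ⟨i, rfl⟩
  exact ⟨Basis.mk hli htop, fun i => by rw [hspan i, Basis.mk_apply]⟩

/-- how transvections move the lines -/
theorem move_line (hF : Fintype.card F = q ^ 2) {b : Basis (Fin t) F (Fin n → F)}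
    (hb : ∀ i, D i = Submodule.span F {b i}) (hle : SG n F q ≤ decompositionStabilizer D)
    {u : Fin n → F} (hu : hermForm n F q u u = 0) {c : F} (hc0 : c ≠ 0) (hc : c ^ q = -c)
    {i : Fin t} (hi : hermForm n F q (b i) u ≠ 0) :
    ∃ (j : Fin t) (μ : F), j ≠ i ∧ μ ≠ 0 ∧ b i + (c * hermForm n F q (b i) u) • u = μ • b j := by
  obtain ⟨g, hg, hgx⟩ := exists_transv_SG hF hu hc
  obtain ⟨σ, hσ⟩ := hle hg
  have hcf : c * hermForm n F q (b i) u ≠ 0 := mul_ne_zero hc0 hi
  have h1 : (g : Matrix (Fin n) (Fin n) F) *ᵥ (b i) ∈ D (σ i) := by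
    rw [← hσ]
    exact ⟨b i, by rw [hb]; exact Submodule.mem_span_singleton_self _, rfl⟩
  rw [hgx, hb, Submodule.mem_span_singleton] at h1
  obtain ⟨μ, hμ⟩ := h1
  have hnot : ∀ ν : F, u ≠ ν • b i := by
    intro ν hν
    have h2 : ν * hermForm n F q (b i) u = 0 := by
      rw [← hermForm_smul_left, ← hν, hu]
    rcases mul_eq_zero.1 h2 with h | h
    · rw [h, zero_smul] at hν
      rw [hν, hermForm_zero_right hF] at hi
      exact hi rfl
    · exact hi h
  have hne : ∀ ν : F, b i + (c * hermForm n F q (b i) u) • u ≠ ν • b i := by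
    intro ν hν
    apply hnot ((c * hermForm n F q (b i) u)⁻¹ * (ν - 1))
    rw [mul_smul, sub_smul, ← hν, one_smul, add_sub_cancel_left, smul_smul, inv_mul_cancel₀ hcf,
      one_smul]
  refine ⟨σ i, μ, ?_, ?_, hμ.symm⟩
  · intro h
    rw [h] at hμ
    exact hne μ hμ.symm
  · rintro rfl
    apply hne 0
    rw [← hμ, zero_smul, zero_smul]

theorem exists_form_basis_ne (hF : Fintype.card F = q ^ 2) (b : Basis (Fin t) F (Fin n → F))
    {u : Fin n → F} (hu0 : u ≠ 0) : ∃ i, hermForm n F q (b i) u ≠ 0 := by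
  by_contra hcon
  push Not at hcon
  apply hu0
  apply hermForm_nondeg' hF
  intro x
  rw [← b.sum_repr x, hermForm_sum_left]
  exact Finset.sum_eq_zero fun i _ => by rw [hermForm_smul_left, hcon, mul_zero]

theorem class_two_line_q (hF : Fintype.card F = q ^ 2) (hn : 2 ≤ n) (hq : 3 ≤ q)
    (hD : IsMDecomposition 1 D) : ¬ SG n F q ≤ decompositionStabilizer D := by
  classical
  intro hle
  obtain ⟨b, hb⟩ := exists_line_basis hD
  obtain ⟨u, hu0, hu⟩ := exists_isotropic (F := F) (n := n) hF hn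
  obtain ⟨i, hi⟩ := exists_form_basis_ne (q := q) hF b hu0
  obtain ⟨c, hc0, hc⟩ := exists_skew hF
  have hex : ∃ d : F, d ^ q = d ∧ d ≠ 0 ∧ d ≠ 1 := by
    by_contra hcon
    push Not at hcon
    have h1 := card_fixed_ne_zero hF
    have h2 : Nat.card {c : F // c ^ q = c ∧ c ≠ 0} ≤ 1 := by
      rw [Finite.card_le_one_iff_subsingleton]
      exact ⟨fun x y => Subtype.ext ((hcon _ x.2.1 x.2.2).trans (hcon _ y.2.1 y.2.2).symm)⟩
    omega
  obtain ⟨d, hd, hd0, hd1⟩ := hex
  obtain ⟨j, μ, hj, -, h1⟩ := move_line hF hb hle hu hc0 hc hi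
  obtain ⟨j', μ', hj', -, h2⟩ := move_line hF hb hle hu (mul_ne_zero hd0 hc0)
    (by rw [mul_pow, hd, hc]; ring) hi
  have e1 := congrArg (fun x => b.repr x i) h1
  have e2 := congrArg (fun x => b.repr x i) h2
  simp only [map_add, map_smul, Finsupp.add_apply, Finsupp.smul_apply, Basis.repr_self,
    Finsupp.single_eq_same, smul_eq_mul, Finsupp.single_apply, if_neg hj, if_neg hj',
    mul_zero] at e1 e2
  have e3 : (d - 1) * (c * hermForm n F q (b i) u * b.repr u i) = 0 := by
    linear_combination e2 - e1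
  rcases mul_eq_zero.1 e3 with h | h
  · exact hd1 (sub_eq_zero.1 h)
  · rw [h] at e1
    simp at e1

/-- support of isotropic vectors -/
theorem support_card (hF : Fintype.card F = q ^ 2) {b : Basis (Fin t) F (Fin n → F)}
    (hb : ∀ i, D i = Submodule.span F {b i}) (hle : SG n F q ≤ decompositionStabilizer D)
    {u : Fin n → F} (hu0 : u ≠ 0) (hu : hermForm n F q u u = 0) : (b.repr u).support.card = 2 := by
  obtain ⟨i, hi⟩ := exists_form_basis_ne (q := q) hF b hu0
  obtain ⟨c, hc0, hc⟩ := exists_skew hF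
  obtain ⟨j, μ, hj, hμ, h1⟩ := move_line hF hb hle hu hc0 hc hi
  have hcf : c * hermForm n F q (b i) u ≠ 0 := mul_ne_zero hc0 hi
  have hu' : u = (c * hermForm n F q (b i) u)⁻¹ • (μ • b j - b i) := by
    rw [← h1, add_sub_cancel_left, smul_smul, inv_mul_cancel₀ hcf, one_smul]
  have hs : (b.repr u).support = {i, j} := by
    ext l
    rw [Finsupp.mem_support_iff]
    have hl : b.repr u l = (c * hermForm n F q (b i) u)⁻¹ *
        (μ * (if j = l then 1 else 0) - if i = l then 1 else 0) := by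
      conv_lhs => rw [hu']
      simp [Finsupp.single_apply]
    rw [hl]
    simp only [Finset.mem_insert, Finset.mem_singleton]
    by_cases h2 : l = i
    · subst h2
      simp [hj, hc0, hi]
    · by_cases h3 : l = j
      · subst h3
        simp [Ne.symm hj, hμ, hc0, hi]
      · simp [h2, h3, Ne.symm h2, Ne.symm h3]
  rw [hs, Finset.card_pair (Ne.symm hj)]

theorem class_two_line_n (hF : Fintype.card F = q ^ 2) (hn : 4 ≤ n)
    (hD : IsMDecomposition 1 D) : ¬ SG n F q ≤ decompositionStabilizer D := by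
  classical
  intro hle
  obtain ⟨b, hb⟩ := exists_line_basis hD
  obtain ⟨u, hu0, hu⟩ := exists_isotropic (F := F) (n := n) hF (by omega)
  obtain ⟨v, hv⟩ := exists_hyp' hF hu0 hu
  have hfr := finrank_perp (q := q) hF (Submodule.span F {u, v})
  rw [hv.finrank hF] at hfr
  obtain ⟨z, hz, hz0, hzz⟩ := ((hv.nd hF).perp hF).exists_isotropic hF (by omega)
  rw [Hyp.mem_perp_iff hF] at hz
  have huz : hermForm n F q u z = 0 := (hermForm_eq_zero_comm hF).1 hz.1
  have hiso : ∀ μ : F, (b.repr (u + μ • z)).support.card = 2 := by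
    intro μ
    apply support_card hF hb hle
    · intro h0
      have h1 : hermForm n F q (u + μ • z) v = 0 := by rw [h0, hermForm_zero_left]
      rw [hermForm_add_left, hermForm_smul_left, hz.2, mul_zero, add_zero, hv.2.2] at h1
      exact one_ne_zero h1
    · rw [hermForm_add_left, hermForm_add_right hF, hermForm_add_right hF, hermForm_smul_left,
        hermForm_smul_left, hermForm_smul_right, hermForm_smul_right, hu, hz.1, huz, hzz]
      ring
  have hS : (b.repr u).support.card = 2 := by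
    have := hiso 0
    rwa [zero_smul, add_zero] at this
  have hT := support_card hF hb hle hz0 hzz
  have hcoord : ∀ (μ : F) (l : Fin t), b.repr (u + μ • z) l = b.repr u l + μ * b.repr z l := by
    intro μ l
    rw [map_add, map_smul, Finsupp.add_apply, Finsupp.smul_apply, smul_eq_mul]
  by_cases hST : (b.repr u).support = (b.repr z).support
  · -- equal supports
    obtain ⟨i, j, hij, hij'⟩ := Finset.card_eq_two.1 hS
    have hi : b.repr z i ≠ 0 := by
      rw [← Finsupp.mem_support_iff, ← hST, hij']; simp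
    have hsub : (b.repr (u + (-(b.repr u i) / b.repr z i) • z)).support ⊆ {j} := by
      intro l hl
      rw [Finsupp.mem_support_iff, hcoord] at hl
      rw [Finset.mem_singleton]
      by_contra hlj
      apply hl
      by_cases hli : l = i
      · subst hli
        field_simp
        ring
      · have h1 : l ∉ (b.repr u).support := by rw [hij']; simp [hli, hlj]
        have h2 : l ∉ (b.repr z).support := by rw [← hST]; exact h1
        rw [Finsupp.notMem_support_iff.1 h1, Finsupp.notMem_support_iff.1 h2]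
        ring
    have := Finset.card_le_card hsub
    rw [hiso, Finset.card_singleton] at this
    omega
  · -- different supports
    have hinter : ((b.repr u).support ∩ (b.repr z).support).card ≤ 1 := by
      by_contra hlt
      push Not at hlt
      have h1 : (b.repr u).support ∩ (b.repr z).support = (b.repr u).support :=
        Finset.eq_of_subset_of_card_le Finset.inter_subset_left (by omega)
      have h2 : (b.repr u).support ∩ (b.repr z).support = (b.repr z).support :=
        Finset.eq_of_subset_of_card_le Finset.inter_subset_right (by omega)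
      exact hST (h1.symm.trans h2)
    have hunion : 3 ≤ ((b.repr u).support ∪ (b.repr z).support).card := by
      have := Finset.card_union_add_card_inter (b.repr u).support (b.repr z).support
      omega
    obtain ⟨μ, hμ0, hμ⟩ : ∃ μ : F, μ ≠ 0 ∧
        ∀ l ∈ (b.repr u).support ∩ (b.repr z).support, b.repr u l + μ * b.repr z l ≠ 0 := by
      by_contra hcon
      push Not at hcon
      have hsub : (Finset.univ : Finset F) ⊆ insert 0
          (((b.repr u).support ∩ (b.repr z).support).image fun l => -(b.repr u l) / b.repr z l) := by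
        intro μ _
        rw [Finset.mem_insert, Finset.mem_image]
        by_cases hμ : μ = 0
        · exact Or.inl hμ
        · right
          obtain ⟨l, hl, hl2⟩ := hcon μ hμ
          refine ⟨l, hl, ?_⟩
          have h3 : b.repr z l ≠ 0 :=
            Finsupp.mem_support_iff.1 (Finset.mem_inter.1 hl).2
          field_simp
          linear_combination -hl2
      have h1 := Finset.card_le_card hsub
      have h2 := (Finset.card_insert_le (0 : F)
        (((b.repr u).support ∩ (b.repr z).support).image fun l => -(b.repr u l) / b.repr z l))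
      have h3 := (Finset.card_image_le (s := (b.repr u).support ∩ (b.repr z).support)
        (f := fun l => -(b.repr u l) / b.repr z l))
      rw [Finset.card_univ, hF] at h1
      have hq := two_le_q hF
      nlinarith
    have hsub : (b.repr u).support ∪ (b.repr z).support ⊆ (b.repr (u + μ • z)).support := by
      intro l hl
      rw [Finsupp.mem_support_iff, hcoord]
      by_cases h1 : l ∈ (b.repr u).support
      · by_cases h2 : l ∈ (b.repr z).support
        · exact hμ l (Finset.mem_inter.2 ⟨h1, h2⟩)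
        · rw [Finsupp.notMem_support_iff.1 h2, mul_zero, add_zero]
          exact Finsupp.mem_support_iff.1 h1
      · have h2 : l ∈ (b.repr z).support := (Finset.mem_union.1 hl).resolve_left h1
        rw [Finsupp.notMem_support_iff.1 h1, zero_add]
        exact mul_ne_zero hμ0 (Finsupp.mem_support_iff.1 h2)
    have := Finset.card_le_card hsub
    rw [hiso] at this
    omega

end ClassTwo

/-- Class 2. -/
theorem not_le_decompositionStabilizer (hF : Fintype.card F = q ^ 2) (hn : 3 ≤ n)
    (h32 : ¬ (n = 3 ∧ q = 2)) {t k : ℕ} (D : Fin t → Submodule F (Fin n → F))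
    (hD : IsMDecomposition k D) : ¬ SG n F q ≤ decompositionStabilizer D := by
  have hq := two_le_q hF
  by_cases hk : 2 ≤ k
  · exact class_two_large hF (by omega) hD hk
  · have hk1 : k = 1 := by have := hD.pos; omega
    subst hk1
    by_cases h : 3 ≤ q
    · exact class_two_line_q hF (by omega) h hD
    · exact class_two_line_n hF (by omega) hD

/-! ### Class 5 -/

theorem SG_eq_commutator (hF : Fintype.card F = q ^ 2) (hn : 3 ≤ n) (h32 : ¬ (n = 3 ∧ q = 2)) :
    ⁅SG n F q, SG n F q⁆ = SG n F q := by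
  have h := SU_perfect (F := F) hF hn h32
  rw [← suHom_range, MonoidHom.range_eq_map, ← Subgroup.map_commutator]
  congr 1

/-- If `SG` lies in a subfield group, all traces lie in the subfield. -/
theorem trace_mem_of_le (hF : Fintype.card F = q ^ 2) (hn : 3 ≤ n) (h32 : ¬ (n = 3 ∧ q = 2))
    {F₀ : Subfield F} {P : GL (Fin n) F} (hle : SG n F q ≤ subfieldSubgroup F₀ P)
    {g : GL (Fin n) F} (hg : g ∈ SG n F q) : (g : Matrix (Fin n) (Fin n) F).trace ∈ F₀ := by
  have h1 : SG n F q ≤ ((Matrix.GeneralLinearGroup.map (n := Fin n)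
      (F₀.subtype : F₀ →+* F)).range).map (MulAut.conj P).toMonoidHom := by
    rw [← SG_eq_commutator hF hn h32]
    refine (Subgroup.commutator_mono hle hle).trans ?_
    unfold subfieldSubgroup
    rw [← Subgroup.map_commutator]
    apply Subgroup.map_mono
    rw [Subgroup.commutator_le]
    have key : ∀ x ∈ (Matrix.GeneralLinearGroup.map (n := Fin n) (F₀.subtype : F₀ →+* F)).range ⊔
        scalars (Fin n) F, ∃ a ∈ (Matrix.GeneralLinearGroup.map (n := Fin n)
        (F₀.subtype : F₀ →+* F)).range, ∃ z : GL (Fin n) F,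
        (∀ y : GL (Fin n) F, z * y = y * z) ∧ x = a * z := by
      intro x hx
      rw [← SetLike.mem_coe, Subgroup.mul_normal] at hx
      obtain ⟨a, ha, z, hz, rfl⟩ := hx
      refine ⟨a, ha, z, fun y => ?_, rfl⟩
      obtain ⟨c, hc⟩ := (mem_scalars_iff z).1 hz
      apply Units.ext
      rw [Units.val_mul, Units.val_mul, hc, Matrix.smul_mul, Matrix.mul_smul, Matrix.one_mul,
        Matrix.mul_one]
    intro x hx y hy
    obtain ⟨a, ha, z, hz, rfl⟩ := key x hx
    obtain ⟨b, hb, w, hw, rfl⟩ := key y hy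
    have hcomm : ⁅a * z, b * w⁆ = ⁅a, b⁆ := by
      rw [commutatorElement_def, commutatorElement_def, mul_inv_rev, mul_inv_rev]
      have e1 : ∀ y, z⁻¹ * y = y * z⁻¹ := fun y => by
        rw [inv_mul_eq_iff_eq_mul, ← mul_assoc, hz, mul_assoc, mul_inv_cancel, mul_one]
      calc a * z * (b * w) * (z⁻¹ * a⁻¹) * (w⁻¹ * b⁻¹)
          = a * (z * (b * w)) * (z⁻¹ * a⁻¹) * (w⁻¹ * b⁻¹) := by group
        _ = a * ((b * w) * z) * (z⁻¹ * a⁻¹) * (w⁻¹ * b⁻¹) := by rw [hz]
        _ = a * b * (w * a⁻¹) * (w⁻¹ * b⁻¹) := by group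
        _ = a * b * (a⁻¹ * w) * (w⁻¹ * b⁻¹) := by rw [hw]
        _ = a * b * a⁻¹ * b⁻¹ := by group
    rw [hcomm]
    exact Subgroup.mul_mem _ (Subgroup.mul_mem _ (Subgroup.mul_mem _ ha hb)
      (Subgroup.inv_mem _ ha)) (Subgroup.inv_mem _ hb)
  obtain ⟨x, ⟨y, rfl⟩, hx⟩ := h1 hg
  have h2 : (g : Matrix (Fin n) (Fin n) F).trace =
      ((Matrix.GeneralLinearGroup.map (F₀.subtype : F₀ →+* F) y : GL (Fin n) F) :
        Matrix (Fin n) (Fin n) F).trace := by
    rw [← hx]
    change ((P : Matrix (Fin n) (Fin n) F) * _ * ((P⁻¹ : GL (Fin n) F) :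
      Matrix (Fin n) (Fin n) F)).trace = _
    rw [Matrix.trace_mul_comm, ← Matrix.mul_assoc, ← Units.val_mul, inv_mul_cancel, Units.val_one,
      Matrix.one_mul]
  rw [h2, Matrix.trace]
  refine F₀.sum_mem fun i _ => ?_
  exact (y.1 i i).2

/-- an element of `SU` with trace outside the subfield of order `q` -/
theorem exists_trace_ne (hF : Fintype.card F = q ^ 2) (hn : 3 ≤ n) :
    ∃ g ∈ SG n F q, (g : Matrix (Fin n) (Fin n) F).trace ^ q ≠
      (g : Matrix (Fin n) (Fin n) F).trace := by
  classical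
  obtain ⟨a, ha, ha2⟩ := exists_norm_one_sq_ne hF
  have ha0 : a ≠ 0 := by
    rintro rfl
    rw [zero_pow (by omega)] at ha
    exact zero_ne_one ha
  obtain ⟨m, rfl⟩ : ∃ m, n = m + 3 := ⟨n - 3, by omega⟩
  let d : Fin (m + 3) → F := Fin.cons a (Fin.cons a (Fin.cons ((a ^ 2)⁻¹) (fun _ => 1)))
  have hd : ∀ i, d i ^ (q + 1) = 1 := by
    intro i
    refine Fin.cases ?_ (fun i => ?_) i
    · exact ha
    · refine Fin.cases ?_ (fun i => ?_) i
      · exact ha
      · refine Fin.cases ?_ (fun i => ?_) i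
        · change ((a ^ 2)⁻¹) ^ (q + 1) = 1
          rw [inv_pow, ← pow_mul, mul_comm, pow_mul, ha, one_pow, inv_one]
        · exact one_pow _
  have hdet : (Matrix.diagonal d).det = 1 := by
    rw [Matrix.det_diagonal, Fin.prod_univ_succ, Fin.prod_univ_succ, Fin.prod_univ_succ]
    simp only [d, Fin.cons_zero, Fin.cons_succ, Finset.prod_const_one, mul_one]
    field_simp
  have htr : (Matrix.diagonal d).trace = 2 * a + (a ^ 2)⁻¹ + m := by
    rw [Matrix.trace_diagonal, Fin.sum_univ_succ, Fin.sum_univ_succ, Fin.sum_univ_succ]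
    simp only [d, Fin.cons_zero, Fin.cons_succ, Finset.sum_const, Finset.card_univ,
      Fintype.card_fin, nsmul_eq_mul, mul_one]
    ring
  refine ⟨suHom _ F q (mkSU (Matrix.diagonal d) (pres_diagonal d hd) hdet), suHom_mem _, ?_⟩
  change (Matrix.diagonal d).trace ^ q ≠ (Matrix.diagonal d).trace
  rw [htr]
  intro h
  have haq : a ^ q = a⁻¹ := by
    rw [pow_succ] at ha
    exact eq_inv_of_mul_eq_one_left ha
  have hmq : ((m : F)) ^ q = m := map_natCast (conjHom hF) m
  have h2q : (2 : F) ^ q = 2 := by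
    have : ((2 : ℕ) : F) ^ q = (2 : ℕ) := map_natCast (conjHom hF) 2
    exact_mod_cast this
  rw [add_pow_q hF, add_pow_q hF, mul_pow, h2q, hmq, inv_pow, ← pow_mul, mul_comm 2 q, pow_mul,
    haq] at h
  have h3 : (a - 1) ^ 3 * (a + 1) = 0 := by
    field_simp at h
    linear_combination h
  rcases mul_eq_zero.1 h3 with h4 | h4
  · have : a = 1 := sub_eq_zero.1 (pow_eq_zero_iff three_ne_zero |>.1 h4)
    exact ha2 (by rw [this, one_pow])
  · have : a = -1 := eq_neg_of_add_eq_zero_left h4
    exact ha2 (by rw [this]; ring)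

/-- Class 5, index two. -/
theorem not_le_subfieldSubgroup_two (hF : Fintype.card F = q ^ 2) (hn : 3 ≤ n)
    (h32 : ¬ (n = 3 ∧ q = 2)) (F₀ : Subfield F) (P : GL (Fin n) F)
    (hcard : Fintype.card F = Nat.card F₀ ^ 2) : ¬ SG n F q ≤ subfieldSubgroup F₀ P := by
  intro hle
  obtain ⟨g, hg, hne⟩ := exists_trace_ne (n := n) hF hn
  have h1 := trace_mem_of_le hF hn h32 hle hg
  apply hne
  have h2 : Nat.card F₀ = q := by
    have h3 : Nat.card F₀ ^ 2 = q ^ 2 := by rw [← hcard, hF]
    exact Nat.pow_left_injective (n := 2) (by norm_num) h3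
  have := Fintype.ofFinite F₀
  have h4 := FiniteField.pow_card (⟨_, h1⟩ : F₀)
  rw [← Nat.card_eq_fintype_card, h2] at h4
  exact congrArg Subtype.val h4

/-- Class 5, odd index. -/
theorem not_le_subfieldSubgroup_odd (hF : Fintype.card F = q ^ 2) (hn : 3 ≤ n)
    (h32 : ¬ (n = 3 ∧ q = 2)) (F₀ : Subfield F) (P : GL (Fin n) F) {r : ℕ} (hr : 3 ≤ r)
    (hcard : Fintype.card F = Nat.card F₀ ^ r) : ¬ SG n F q ≤ subfieldSubgroup F₀ P := by
  classical
  intro hle
  obtain ⟨u, hu0, hu⟩ := exists_isotropic (F := F) (n := n) hF (by omega)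
  obtain ⟨v, hv⟩ := exists_hyp' hF hu0 hu
  obtain ⟨c, hc0, hc⟩ := exists_skew hF
  have hvu : hermForm n F q v u = 1 := (hv.symm hF).2.2
  -- the product of two transvections
  have htr : ∀ y : F, y ^ q = y → y ∈ F₀ := by
    intro y hy
    have hd : (y * c⁻¹) ^ q = -(y * c⁻¹) := by
      rw [mul_pow, inv_pow, hc, hy, inv_neg]; ring
    have h1 : (fun j => u j ^ q) ⬝ᵥ (c • u) = 0 := by
      rw [dot_pow, hermForm_smul_left, hu, mul_zero]
    have h2 : (fun j => v j ^ q) ⬝ᵥ ((y * c⁻¹) • v) = 0 := by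
      rw [dot_pow, hermForm_smul_left, hv.2.1, mul_zero]
    have hmem := Subgroup.mul_mem _ (tv_mem_SG hF hu hc h1) (tv_mem_SG hF hv.2.1 hd h2)
    have h3 := trace_mem_of_le hF hn h32 hle hmem
    have h4 : ((tv (c • u) (fun j => u j ^ q) h1 * tv ((y * c⁻¹) • v) (fun j => v j ^ q) h2 :
        GL (Fin n) F) : Matrix (Fin n) (Fin n) F).trace = n + y := by
      rw [Units.val_mul, coe_tv, coe_tv, tvM, tvM, Matrix.add_mul, Matrix.mul_add, Matrix.mul_add,
        Matrix.one_mul, Matrix.mul_one, Matrix.one_mul, Matrix.vecMulVec_mul_vecMulVec,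
        Matrix.trace_add, Matrix.trace_add, Matrix.trace_add, Matrix.trace_one,
        Matrix.trace_vecMulVec, Matrix.trace_vecMulVec, Matrix.trace_vecMulVec, Fintype.card_fin,
        dotProduct_smul, dotProduct_comm (c • u) (fun j => u j ^ q), h1,
        dotProduct_comm _ (fun j => v j ^ q), h2, dotProduct_comm _ (fun j => v j ^ q), dot_pow,
        dot_pow, hermForm_smul_left, hermForm_smul_left, hvu, hv.2.2, smul_eq_mul]
      field_simp
      ring
    rw [h4] at h3
    have h5 : (n : F) ∈ F₀ := natCast_mem F₀ n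
    have := F₀.sub_mem h3 h5
    rwa [add_sub_cancel_left] at this
  have hcardle : q ≤ Nat.card F₀ := by
    rw [← card_fixed hF]
    exact Nat.card_le_card_of_injective (fun y : {y : F // y ^ q = y} =>
      (⟨y.1, htr y.1 y.2⟩ : F₀)) (fun a b h => Subtype.ext (congrArg (fun z : F₀ => (z : F)) h))
  have hq := two_le_q hF
  rw [hF] at hcard
  have h1 : Nat.card F₀ ^ 3 ≤ Nat.card F₀ ^ r := Nat.pow_le_pow_right (by omega) hr
  rw [← hcard] at h1
  have h2 : q ^ 3 ≤ Nat.card F₀ ^ 3 := Nat.pow_le_pow_left hcardle 3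
  have h3 : q ^ 2 < q ^ 3 := Nat.pow_lt_pow_right (by omega) (by norm_num)
  omega

/-! ### Class 6 -/

theorem similarity_conj_SG {x g : GL (Fin n) F}
    (hx : x ∈ similarityGroup (hermForm n F q)) (hg : g ∈ SG n F q) : x * g * x⁻¹ ∈ SG n F q := by
  refine ⟨?_, mem_specialLinear.2 ?_⟩
  · obtain ⟨c, hc⟩ := hx
    intro u v
    change hermForm n F q ((x * g * x⁻¹ : GL (Fin n) F).1 *ᵥ u) ((x * g * x⁻¹ : GL (Fin n) F).1 *ᵥ v) = _
    rw [gl_mul_mulVec, gl_mul_mulVec, gl_mul_mulVec, gl_mul_mulVec, hc]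
    have h1 : ∀ a b, hermForm n F q ((g : Matrix (Fin n) (Fin n) F) *ᵥ a)
        ((g : Matrix (Fin n) (Fin n) F) *ᵥ b) = hermForm n F q a b := hg.1
    rw [h1, ← hc, gl_mulVec_inv, gl_mulVec_inv]
  · rw [Units.val_mul, Units.val_mul, Matrix.det_mul, Matrix.det_mul, mem_specialLinear.1 hg.2,
      mul_one, ← Matrix.det_mul, ← Units.val_mul, mul_inv_cancel, Units.val_one, Matrix.det_one]

/-- A perfect group acting trivially modulo the centre acts trivially. -/
theorem commute_of_perfect {S G : Type*} [Group S] [Group G] (φ : S →* G)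
    (hφ : Function.Injective φ) (hS : commutator S = ⊤) (x : G)
    (h : ∀ g, ∃ z ∈ Subgroup.center S, φ z = φ g * (x * (φ g)⁻¹ * x⁻¹))
    (h' : ∀ g, ∃ w, φ w = x * (φ g)⁻¹ * x⁻¹) : ∀ g, φ g * x = x * φ g := by
  choose z hzc hz using h
  have hmul : ∀ a b, z (a * b) = z a * z b := by
    intro a b
    apply hφ
    obtain ⟨w, hw⟩ := h' a
    have h2 : φ (z b) * (x * (φ a)⁻¹ * x⁻¹) = (x * (φ a)⁻¹ * x⁻¹) * φ (z b) := by
      rw [← hw, ← map_mul, ← map_mul, (Subgroup.mem_center_iff.1 (hzc b)) w]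
    rw [hz (a * b), map_mul φ (z a), map_mul φ a]
    have e1 : φ a * φ b * (x * (φ a * φ b)⁻¹ * x⁻¹) =
        φ a * ((φ b * (x * (φ b)⁻¹ * x⁻¹)) * (x * (φ a)⁻¹ * x⁻¹)) := by
      simp only [mul_inv_rev, mul_assoc, inv_mul_cancel_left]
    rw [e1, ← hz b, h2, ← mul_assoc, ← hz a]
  let ζ : S →* S := MonoidHom.mk' z hmul
  have hker : commutator S ≤ ζ.ker := by
    rw [commutator_def, Subgroup.commutator_le]
    intro a _ b _
    rw [MonoidHom.mem_ker, commutatorElement_def, map_mul, map_mul, map_mul, map_inv, map_inv]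
    have hc : ζ a * ζ b = ζ b * ζ a := ((Subgroup.mem_center_iff.1 (hzc b)) (z a))
    rw [hc, mul_assoc, mul_assoc, mul_inv_cancel_left, mul_inv_cancel]
  intro a
  have h1 : z a = 1 := MonoidHom.mem_ker.1 (hker (hS.symm ▸ Subgroup.mem_top a))
  have h2 := hz a
  rw [h1, map_one] at h2
  have h3 : x * (φ a)⁻¹ * x⁻¹ = (φ a)⁻¹ := (inv_eq_of_mul_eq_one_right h2.symm).symm
  have h4 : x * (φ a)⁻¹ = (φ a)⁻¹ * x := by
    rw [mul_inv_eq_iff_eq_mul] at h3
    exact h3
  rw [mul_inv_eq_iff_eq_mul, mul_assoc, eq_inv_mul_iff_mul_eq] at h4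
  exact h4

/-- An `r`-subgroup of the similarity group normalised by `SU` consists of scalars. -/
theorem scalar_of_normalized (hF : Fintype.card F = q ^ 2) (hn : 3 ≤ n)
    (h32 : ¬ (n = 3 ∧ q = 2)) {r : ℕ} (hr : r.Prime) {R : Subgroup (GL (Fin n) F)}
    (hR : IsPGroup r R) (hRs : R ≤ similarityGroup (hermForm n F q))
    (hle : SG n F q ≤ subgroupNormalizer R) {x : GL (Fin n) F} (hx : x ∈ R) :
    ∃ c : F, (x : Matrix (Fin n) (Fin n) F) = Matrix.diagonal (fun _ => c) := by
  have : Fact r.Prime := ⟨hr⟩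
  let N : Subgroup (SU n F q) := R.comap (suHom n F q)
  have hnorm : ∀ g : SU n F q, ∀ y ∈ R, suHom n F q g * y * (suHom n F q g)⁻¹ ∈ R := by
    intro g y hy
    exact (Subgroup.mem_normalizer_iff.1 (hle (suHom_mem g)) y).1 hy
  have hN : N.Normal := ⟨fun y hy g => by
    change suHom n F q (g * y * g⁻¹) ∈ R
    rw [map_mul, map_mul, map_inv]
    exact hnorm g _ hy⟩
  -- commutators lie in `N`
  have hcomm : ∀ g : SU n F q, ∀ y ∈ R, ∃ z ∈ N,
      suHom n F q z = suHom n F q g * (y * (suHom n F q g)⁻¹ * y⁻¹) := by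
    intro g y hy
    have h1 : y * (suHom n F q g)⁻¹ * y⁻¹ ∈ SG n F q :=
      similarity_conj_SG (hRs hy) (Subgroup.inv_mem _ (suHom_mem g))
    obtain ⟨z, hz⟩ := exists_suHom (Subgroup.mul_mem _ (suHom_mem g) h1)
    refine ⟨z, ?_, hz⟩
    change suHom n F q z ∈ R
    rw [hz]
    have : suHom n F q g * (y * (suHom n F q g)⁻¹ * y⁻¹) =
        (suHom n F q g * y * (suHom n F q g)⁻¹) * y⁻¹ := by group
    rw [this]
    exact Subgroup.mul_mem _ (hnorm g y hy) (Subgroup.inv_mem _ hy)
  rcases normal_le_center_or_top hF hn h32 N with hc | htop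
  · -- all commutators are central
    have hcen : ∀ g : SU n F q, suHom n F q g * x = x * suHom n F q g := by
      refine commute_of_perfect (suHom n F q) suHom_injective (SU_perfect hF hn h32) x ?_ ?_
      · intro g
        obtain ⟨z, hz, hz'⟩ := hcomm g x hx
        exact ⟨z, hc hz, hz'⟩
      · intro g
        obtain ⟨w, hw⟩ := exists_suHom (similarity_conj_SG (hRs hx)
          (Subgroup.inv_mem _ (suHom_mem g)))
        exact ⟨w, hw⟩
    exact eq_scalar_of_commute hF (by omega) _ fun g =>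
      congrArg (fun y : GL (Fin n) F => (y : Matrix (Fin n) (Fin n) F)) (hcen g)
  · -- `SU` is an `r`-group, contradiction with perfectness
    exfalso
    have hSU : IsPGroup r (SU n F q) := by
      have hle' : (suHom n F q).range ≤ R := by
        rintro _ ⟨g, rfl⟩
        have : g ∈ N := htop ▸ Subgroup.mem_top g
        exact this
      have h1 : IsPGroup r (suHom n F q).range := hR.to_le hle'
      exact h1.of_equiv (MonoidHom.ofInjective suHom_injective).symm
    have hsolv : Group.IsSolvable (SU n F q) := by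
      have := hSU.isNilpotent
      infer_instance
    have hperf := SU_perfect (F := F) hF hn h32
    have hne := SU_ne_center (F := F) (n := n) hF (by omega)
    have hnt : Nontrivial (SU n F q) := by
      rw [← not_subsingleton_iff_nontrivial]
      intro hs
      exact hne (Subsingleton.elim _ _)
    exact (Group.IsSolvable.commutator_lt_top_of_nontrivial (SU n F q)).ne hperf

/-- Class 6. -/
theorem not_le_subgroupNormalizer (hF : Fintype.card F = q ^ 2) (hn : 3 ≤ n)
    (h32 : ¬ (n = 3 ∧ q = 2)) {r : ℕ} {R : Subgroup (GL (Fin n) F)}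
    (hR : IsSymplecticTypeGroup r R) (hirr : ActsAbsolutelyIrreducibly (matrixSet R))
    (hRs : R ≤ similarityGroup (hermForm n F q)) : ¬ SG n F q ≤ subgroupNormalizer R := by
  intro hle
  have hsc := fun x (hx : x ∈ R) => scalar_of_normalized hF hn h32 hR.prime hR.pGroup hRs hle hx
  let i0 : Fin n := ⟨0, by omega⟩
  let i1 : Fin n := ⟨1, by omega⟩
  rcases hirr.1 (Submodule.span F {(Pi.single i0 1 : Fin n → F)}) (by
    rintro _ ⟨x, hx, rfl⟩
    obtain ⟨c, hc⟩ := hsc x hx
    rintro _ ⟨y, hy, rfl⟩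
    rw [Matrix.toLin'_apply]
    have : (x : Matrix (Fin n) (Fin n) F) *ᵥ y = c • y := by
      rw [hc]
      funext i
      rw [Matrix.mulVec_diagonal]; rfl
    change (x : Matrix (Fin n) (Fin n) F) *ᵥ y ∈ _
    rw [this]
    exact Submodule.smul_mem _ _ hy) with h | h
  · rw [Submodule.span_singleton_eq_bot] at h
    have := congrFun h i0
    simp at this
  · have h1 : (Pi.single i1 1 : Fin n → F) ∈ Submodule.span F {(Pi.single i0 1 : Fin n → F)} := by
      rw [h]; exact Submodule.mem_top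
    obtain ⟨c, hc⟩ := Submodule.mem_span_singleton.1 h1
    have := congrFun hc i1
    simp [i0, i1] at this

end Cfsg.Agent.UCase
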