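import Mathlib
import Cfsg.Agent.UCase.Proper
import Cfsg.Agent.Asch.Members
import Cfsg.Agent.AschCases.ArithSix
import Cfsg.Agent.AschCases.FieldSub
import Cfsg.Agent.AschCases.SmallQ

set_option autoImplicit false
set_option linter.unusedSectionVars false
set_option linter.unusedVariables false

/-!
From containment in a member of the geometric classes to equality, for maximal subgroups of
`SU_n(q)`, with the numerical information.
-/

namespace Cfsg.Agent.UCase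

open scoped Matrix
open Cfsg.Geo Cfsg.Agent.Uni Cfsg.Agent.AschCases
open Matrix (GeneralLinearGroup)

variable {F : Type*} [Field F] [Fintype F] {q n : ℕ}

/-- The containment statement given by the structure theorem. -/
def UContain (n : ℕ) (F : Type*) [Field F] [Fintype F] (q : ℕ)
    (H : Subgroup (Matrix.GeneralLinearGroup (Fin n) F)) : Prop :=
  (∃ M, Asch.UniMember q (hermForm n F q) M ∧ H ≤ M) ∨ InUnitaryResidualClass H

/-- The equality form. -/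
def UEq (n : ℕ) (F : Type*) [Field F] [Fintype F] (q : ℕ)
    (H : Subgroup (Matrix.GeneralLinearGroup (Fin n) F)) : Prop :=
  (∃ W : Submodule F (Fin n → F), W ≠ ⊥ ∧ IsTotallySingularFor (hermForm n F q) W ∧
      H = subspaceStabilizer W ⊓ SG n F q) ∨
  (∃ W : Submodule F (Fin n → F), W ≠ ⊥ ∧ IsNondegenerateOn (hermForm n F q) W ∧
      2 * Module.finrank F W < n ∧ H = subspaceStabilizer W ⊓ SG n F q) ∨
  (∃ (t k : ℕ) (D : Fin t → Submodule F (Fin n → F)), t * k = n ∧ 2 ≤ t ∧ 0 < k ∧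
      IsNondegenerateMDecomposition (hermForm n F q) k D ∧ H = decompositionStabilizer D ⊓ SG n F q) ∨
  (∃ (k : ℕ) (D : Fin 2 → Submodule F (Fin n → F)), 2 * k = n ∧ IsMDecomposition k D ∧
      (∀ i, IsTotallySingularFor (hermForm n F q) (D i)) ∧ H = decompositionStabilizer D ⊓ SG n F q) ∨
  (∃ (r : ℕ) (K : Subalgebra F (Matrix (Fin n) (Fin n) F)), r.Prime ∧ Odd r ∧ r ∣ n ∧
      IsFieldSubalgebra r K ∧ IsAdjointClosedFor (hermForm n F q) K ∧
      H = subalgebraNormalizer K ⊓ SG n F q) ∨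
  (∃ (n₁ n₂ : ℕ) (e : Fin n ≃ Fin n₁ × Fin n₂) (P : GL (Fin n) F)
      (f₁ : (Fin n₁ → F) → (Fin n₁ → F) → F) (f₂ : (Fin n₂ → F) → (Fin n₂ → F) → F),
      n₁ * n₂ = n ∧ 2 ≤ n₁ ∧ n₁ < n₂ ∧ IsUnitaryFormPow q f₁ ∧ IsUnitaryFormPow q f₂ ∧
      IsTensorFormStructure (fun x : F => x ^ q) (hermForm n F q) f₁ f₂ e P ∧
      H = tensorProductSubgroup n₁ n₂ e P ⊓ SG n F q) ∨
  (∃ (F₀ : Subfield F) (r : ℕ) (P : GL (Fin n) F), r.Prime ∧ Odd r ∧
      Fintype.card F = Nat.card F₀ ^ r ∧ IsFormRationalStructure (hermForm n F q) F₀ 1 P ∧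
      H = subfieldSubgroup F₀ P ⊓ SG n F q) ∨
  (∃ (F₀ : Subfield F) (P : GL (Fin n) F), Odd q ∧ Fintype.card F = Nat.card F₀ ^ 2 ∧
      IsFormRationalStructure (hermForm n F q) F₀ 1 P ∧ H = subfieldSubgroup F₀ P ⊓ SG n F q) ∨
  (∃ (F₀ : Subfield F) (P : GL (Fin n) F) (ζ : F), Even n ∧ Fintype.card F = Nat.card F₀ ^ 2 ∧
      ζ ≠ 0 ∧ ζ + ζ ^ q = 0 ∧ IsFormRationalStructure (hermForm n F q) F₀ ζ P ∧
      (∀ u : Fin n → F, (∀ i, u i ∈ F₀) →
        (hermForm n F q) (Matrix.mulVec (P : Matrix (Fin n) (Fin n) F) u)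
          (Matrix.mulVec (P : Matrix (Fin n) (Fin n) F) u) = 0) ∧
      H = subfieldSubgroup F₀ P ⊓ SG n F q) ∨
  (∃ (r : ℕ) (R : Subgroup (GL (Fin n) F)) (p e k : ℕ), IsSymplecticTypeGroup r R ∧
      ActsAbsolutelyIrreducibly (matrixSet R) ∧ R ≤ similarityGroup (hermForm n F q) ∧ r ≠ p ∧
      IsMinimalFieldFor (Nat.card (Subgroup.center R)) p e F ∧
      ((Odd r ∧ Nat.card (Subgroup.center R) = r ∧ 1 ≤ k ∧ Nat.card R = r ^ (1 + 2 * k)) ∨
       (r = 2 ∧ e = 2 ∧ Nat.card (Subgroup.center R) = 4 ∧ Nat.card R = 2 ^ (2 + 2 * k))) ∧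
      n = r ^ k ∧ H = subgroupNormalizer R ⊓ SG n F q) ∨
  (∃ (k t : ℕ) (e : Fin n ≃ (Fin t → Fin k)) (P : GL (Fin n) F)
      (f₁ : (Fin k → F) → (Fin k → F) → F), n = k ^ t ∧
      3 ≤ k ∧ 2 ≤ t ∧ ¬ (q = 2 ∧ k = 3) ∧ IsUnitaryFormPow q f₁ ∧
      IsTensorPowerFormStructure (fun x : F => x ^ q) (hermForm n F q) f₁ e P ∧
      H = tensorWreathSubgroup k t e P ⊓ SG n F q) ∨
  InUnitaryResidualClass H

theorem uEq_of_uContain (hF : Fintype.card F = q ^ 2) (hn : 3 ≤ n) (h32 : ¬ (n = 3 ∧ q = 2))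
    {H : Subgroup (Matrix.GeneralLinearGroup (Fin n) F)} (hH : IsMaximalIn (SG n F q) H)
    (h : UContain n F q H) : UEq n F q H := by
  have hne : Nonempty (Fin n) := ⟨⟨0, by omega⟩⟩
  have hcard : Fintype.card (Fin n) = n := Fintype.card_fin n
  rcases h with ⟨M, hM, hle⟩ | hres
  swap
  · exact Or.inr (Or.inr (Or.inr (Or.inr (Or.inr (Or.inr (Or.inr (Or.inr (Or.inr (Or.inr (Or.inr
      hres))))))))))
  rcases hM with ⟨W, h1, h2, h3⟩ | ⟨W, h1, h2, h3, h4⟩ | ⟨t, k, D, h1, h2⟩ | ⟨k, D, h1, h2, h3, h4⟩ |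
    ⟨r, K, h1, h2, h3, h4, h5⟩ | ⟨n₁, n₂, e, P, f₁, f₂, h1, h2, h3, h4, h5, h6⟩ |
    ⟨F₀, r, P, h1, h2, h3, h4, h5⟩ | ⟨F₀, P, h1, h2, h3, h4⟩ | ⟨F₀, P, ζ, h1, h2, h3, h4, h5, h6, h7⟩ |
    ⟨r, R, p, e, k, h1, h2, h3, h4, h5, h6, h7, h8⟩ |
    ⟨k, t, e, P, f₁, h1, h2, h3, h4, h5, h6⟩
  · subst h3
    refine Or.inl ⟨W, h1, h2, eq_inf_of_maximal hH hle (not_le_subspaceStabilizer hF (by omega) W h1 ?_)⟩
    rintro rfl
    have := h2 (Pi.single ⟨0, by omega⟩ 1) Submodule.mem_top (Pi.single ⟨0, by omega⟩ 1)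
      Submodule.mem_top
    rw [hermForm_single_left, Pi.single_eq_same, one_pow] at this
    exact one_ne_zero this
  · subst h4
    rw [hcard] at h3
    refine Or.inr (Or.inl ⟨W, h1, h2, h3, eq_inf_of_maximal hH hle
      (not_le_subspaceStabilizer hF (by omega) W h1 ?_)⟩)
    rintro rfl
    rw [finrank_top, Module.finrank_fin_fun] at h3
    omega
  · subst h2
    have h3 := h1.1.two_le
    have h4 := h1.1.pos
    refine Or.inr (Or.inr (Or.inl ⟨t, k, D, ?_, h3, h4, h1, eq_inf_of_maximal hH hle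
      (not_le_decompositionStabilizer hF hn h32 D h1.1)⟩))
    have := card_eq_of_decomp h1.1
    rw [hcard] at this
    exact this.symm
  · subst h4
    rw [hcard] at h1
    exact Or.inr (Or.inr (Or.inr (Or.inl ⟨k, D, h1, h2, h3, eq_inf_of_maximal hH hle
      (not_le_decompositionStabilizer hF hn h32 D h2)⟩)))
  · subst h5
    have h6 := dvd_card_of_isFieldSubalgebra h3
    rw [hcard] at h6
    exact Or.inr (Or.inr (Or.inr (Or.inr (Or.inl ⟨r, K, h1, h2, h6, h3, h4, eq_inf_of_maximal hH hle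
      (not_le_subalgebraNormalizer hF hn h1.two_le K h3)⟩))))
  · subst h6
    have h7 : n₁ * n₂ = n := by
      have := Fintype.card_congr e
      rw [Fintype.card_prod, Fintype.card_fin, Fintype.card_fin, Fintype.card_fin] at this
      exact this.symm
    exact Or.inr (Or.inr (Or.inr (Or.inr (Or.inr (Or.inl ⟨n₁, n₂, e, P, f₁, f₂, h7, h1, h2, h3, h4, h5,
      eq_inf_of_maximal hH hle (not_le_tensorProductSubgroup hF (by omega) h1 (by omega) e P)⟩)))))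
  · subst h5
    have h6 : 3 ≤ r := by
      have := h1.two_le
      rcases h2 with ⟨k, hk⟩
      omega
    exact Or.inr (Or.inr (Or.inr (Or.inr (Or.inr (Or.inr (Or.inl ⟨F₀, r, P, h1, h2, h3, h4,
      eq_inf_of_maximal hH hle (not_le_subfieldSubgroup_odd hF hn h32 F₀ P h6 h3)⟩))))))
  · subst h4
    exact Or.inr (Or.inr (Or.inr (Or.inr (Or.inr (Or.inr (Or.inr (Or.inl ⟨F₀, P, h1, h2, h3,
      eq_inf_of_maximal hH hle (not_le_subfieldSubgroup_two hF hn h32 F₀ P h2)⟩)))))))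
  · subst h7
    rw [hcard] at h1
    exact Or.inr (Or.inr (Or.inr (Or.inr (Or.inr (Or.inr (Or.inr (Or.inr (Or.inl ⟨F₀, P, ζ, h1, h2, h3,
      h4, h5, h6, eq_inf_of_maximal hH hle (not_le_subfieldSubgroup_two hF hn h32 F₀ P h2)⟩))))))))
  · subst h8
    rw [hcard] at h7
    exact Or.inr (Or.inr (Or.inr (Or.inr (Or.inr (Or.inr (Or.inr (Or.inr (Or.inr (Or.inl ⟨r, R, p, e, k,
      h1, h2, h3, h4, h5, h6, h7, eq_inf_of_maximal hH hle
      (not_le_subgroupNormalizer hF hn h32 h1 h2 h3)⟩)))))))))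
  · subst h6
    have h7 : n = k ^ t := by
      have := Fintype.card_congr e
      rw [Fintype.card_fun, Fintype.card_fin, Fintype.card_fin, Fintype.card_fin] at this
      exact this
    exact Or.inr (Or.inr (Or.inr (Or.inr (Or.inr (Or.inr (Or.inr (Or.inr (Or.inr (Or.inr (Or.inl ⟨k, t,
      e, P, f₁, h7, h1, h2, h3, h4, h5, eq_inf_of_maximal hH hle
      (not_le_tensorWreathSubgroup hF (by omega) h1 h2 e P)⟩))))))))))

end Cfsg.Agent.UCase
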