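import Mathlib
import Cfsg.Agent.UCase.Red

set_option autoImplicit false
set_option linter.unusedSectionVars false
set_option linter.unusedVariables false

/-!
Decompositions into non-degenerate planes over the field with four elements.
-/

namespace Cfsg.Agent.UCase

open scoped Matrix
open Cfsg.Geo Cfsg.Agent.Uni Cfsg.Agent.AschCases
open Matrix (GeneralLinearGroup)

variable {F : Type*} [Field F] [Fintype F] {q n : ℕ}

theorem nd_of_isNondegenerateOn {W : Submodule F (Fin n → F)}
    (h : IsNondegenerateOn (hermForm n F q) W) : ND q W := by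
  intro x hx hxy
  by_contra hne
  obtain ⟨-, y, hy, hne'⟩ := h x hx hne
  exact hne' (hxy y hy)

theorem isNondegenerateOn_of_nd (hF : Fintype.card F = q ^ 2) {W : Submodule F (Fin n → F)}
    (h : ND q W) : IsNondegenerateOn (hermForm n F q) W := by
  intro x hx hne
  have h1 : ∃ y ∈ W, hermForm n F q x y ≠ 0 := by
    by_contra hcon
    push Not at hcon
    exact hne (h x hx hcon)
  obtain ⟨y, hy, hxy⟩ := h1
  refine ⟨⟨y, hy, ?_⟩, ⟨y, hy, hxy⟩⟩
  rw [← hermForm_symm hF]
  exact pow_ne_zero _ hxy

theorem mem_decStab_of_forall {m : ℕ}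
    (E : Fin m → Submodule F (Fin n → F)) (hE : Function.Injective E) (g : GL (Fin n) F)
    (h : ∀ j, ∃ j', (E j).map (Matrix.toLin' (g : Matrix (Fin n) (Fin n) F)) = E j') :
    g ∈ decompositionStabilizer E := by
  choose σ hσ using h
  have hinj : Function.Injective (Submodule.map (Matrix.toLin' (g : Matrix (Fin n) (Fin n) F))) := by
    apply Submodule.map_injective_of_injective
    intro x y hxy
    rw [Matrix.toLin'_apply, Matrix.toLin'_apply] at hxy
    exact Matrix.mulVec_injective_of_isUnit g.isUnit hxy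
  have h1 : Function.Injective σ := by
    intro i j hij
    apply hE
    apply hinj
    rw [hσ, hσ, hij]
  refine ⟨Equiv.ofBijective σ (Finite.injective_iff_bijective.1 h1), fun i => ?_⟩
  rw [hσ]
  rfl

/-- An orthonormal family indexed by any finite type spans a decomposition into lines. -/
theorem lines_decomposition (hF : Fintype.card F = q ^ 2) (hn : 2 ≤ n) (u : Fin n → Fin n → F)
    (hu : IsON q u) :
    IsNondegenerateMDecomposition (hermForm n F q) 1 (fun j => Submodule.span F {u j}) := by
  have hli := hu.linearIndependent hF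
  have hne : ∀ j, u j ≠ 0 := fun j => hli.ne_zero j
  refine ⟨⟨hn, one_pos, fun i => finrank_span_singleton (hne i), hli.iSupIndep_span_singleton, ?_⟩,
    ?_, ?_⟩
  · rw [← Submodule.span_range_eq_iSup]
    exact hli.span_eq_top_of_card_eq_finrank' (by rw [Fintype.card_fin, Module.finrank_fin_fun])
  · intro i
    apply isNondegenerateOn_of_nd hF
    intro x hx hxy
    obtain ⟨c, rfl⟩ := Submodule.mem_span_singleton.1 hx
    have := hxy (u i) (Submodule.mem_span_singleton_self _)
    rw [hermForm_smul_left, hu i i, if_pos rfl, mul_one] at this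
    rw [this, zero_smul]
  · intro i j hij x hx y hy
    obtain ⟨c, rfl⟩ := Submodule.mem_span_singleton.1 hx
    obtain ⟨d, rfl⟩ := Submodule.mem_span_singleton.1 hy
    rw [hermForm_smul_left, hermForm_smul_right, hu i j, if_neg hij, mul_zero, mul_zero]

/-- An orthonormal basis adapted to a non-degenerate decomposition. -/
theorem exists_adapted_ON (hF : Fintype.card F = q ^ 2) {t k : ℕ}
    {D : Fin t → Submodule F (Fin n → F)}
    (hD : IsNondegenerateMDecomposition (hermForm n F q) k D) :
    ∃ b : Fin t → Fin k → Fin n → F, (∀ i, IsON q (b i)) ∧ (∀ i j, b i j ∈ D i) ∧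
      (∀ i, Submodule.span F (Set.range (b i)) = D i) ∧
      (∀ i i' j j', i ≠ i' → hermForm n F q (b i j) (b i' j') = 0) := by
  have h1 : ∀ i, ∃ b : Fin k → Fin n → F, IsON q b ∧ (∀ j, b j ∈ D i) ∧
      Submodule.span F (Set.range b) = D i := fun i =>
    ND.exists_ON hF k (nd_of_isNondegenerateOn (hD.nondegenerate i)) (hD.decomp.finrank_eq i)
  choose b h1 h2 h3 using h1
  exact ⟨b, h1, h2, h3, fun i i' j j' hii' => hD.orthogonal i i' hii' _ (h2 i j) _ (h2 i' j')⟩

section Four

variable (hF : Fintype.card F = 2 ^ 2)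
include hF

theorem four_pow_three {x : F} (hx : x ≠ 0) : x ^ 3 = 1 := by
  have := FiniteField.pow_card_sub_one_eq_one x hx
  rw [hF] at this
  exact this

theorem four_two_eq_zero : (2 : F) = 0 := by
  have h := FiniteField.cast_card_eq_zero F
  rw [hF] at h
  have h2 : (2 : F) * 2 = 0 := by
    have : ((2 ^ 2 : ℕ) : F) = 2 * 2 := by norm_num
    rw [← this, h]
  rcases mul_self_eq_zero.1 h2 with h
  exact h

theorem four_norm {x : F} (h : x ≠ 0) : x * x ^ 2 = 1 := by
  rw [← pow_succ', four_pow_three hF h]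

/-- In a non-degenerate plane, the non-isotropic vectors lie on two lines. -/
theorem four_plane {b : Fin 2 → Fin n → F} (hb : IsON 2 b) {v : Fin n → F}
    (hv : v ∈ Submodule.span F (Set.range b)) (hvv : hermForm n F 2 v v ≠ 0) :
    ∃ j, v ∈ Submodule.span F {b j} := by
  have h1 : ∃ c : Fin 2 → F, ∑ i, c i • b i = v := (Submodule.mem_span_range_iff_exists_fun F).1 hv
  obtain ⟨c, rfl⟩ := h1
  rw [Fin.sum_univ_two] at hvv ⊢
  have h2 : hermForm n F 2 (c 0 • b 0 + c 1 • b 1) (c 0 • b 0 + c 1 • b 1) =
      c 0 * c 0 ^ 2 + c 1 * c 1 ^ 2 := by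
    rw [hermForm_add_left, hermForm_add_right (q := 2) (by exact hF), hermForm_add_right (q := 2) (by exact hF)]
    simp only [hermForm_smul_left, hermForm_smul_right, hb _ _]
    simp [mul_comm]
  rw [h2] at hvv
  by_cases h0 : c 0 = 0
  · refine ⟨1, ?_⟩
    rw [h0, zero_smul, zero_add]
    exact Submodule.smul_mem _ _ (Submodule.mem_span_singleton_self _)
  · by_cases h1 : c 1 = 0
    · refine ⟨0, ?_⟩
      rw [h1, zero_smul, add_zero]
      exact Submodule.smul_mem _ _ (Submodule.mem_span_singleton_self _)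
    · exfalso
      apply hvv
      rw [four_norm hF h0, four_norm hF h1]
      have := four_two_eq_zero hF
      rw [← this]
      norm_num

/-- The stabiliser of a decomposition into non-degenerate planes stabilises a decomposition into
non-degenerate lines. -/
theorem planes_le_lines {t : ℕ} {D : Fin t → Submodule F (Fin n → F)}
    (hD : IsNondegenerateMDecomposition (hermForm n F 2) 2 D) (hn : 2 ≤ n) :
    ∃ (b : Fin t → Fin 2 → Fin n → F) (e : Fin n ≃ Fin t × Fin 2),
      (∀ i, IsON 2 (b i)) ∧ (∀ i j, b i j ∈ D i) ∧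
      (∀ i i' j j', i ≠ i' → hermForm n F 2 (b i j) (b i' j') = 0) ∧
      IsON 2 (fun j => b (e j).1 (e j).2) ∧
      IsNondegenerateMDecomposition (hermForm n F 2) 1
        (fun j => Submodule.span F {b (e j).1 (e j).2}) ∧
      decompositionStabilizer D ⊓ SG n F 2 ≤
        decompositionStabilizer (fun j => Submodule.span F {b (e j).1 (e j).2}) := by
  obtain ⟨b, hb, hbD, hspan, hort⟩ := exists_adapted_ON hF hD
  have hcard : t * 2 = n := by
    have := card_eq_of_decomp hD.decomp
    rw [Fintype.card_fin] at this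
    exact this.symm
  let e : Fin n ≃ Fin t × Fin 2 := (finCongr hcard.symm).trans finProdFinEquiv.symm
  have hON : IsON 2 (fun j => b (e j).1 (e j).2) := by
    intro i j
    by_cases hij : i = j
    · subst hij
      rw [if_pos rfl, hb, if_pos rfl]
    · rw [if_neg hij]
      by_cases h1 : (e i).1 = (e j).1
      · have h2 : (e i).2 ≠ (e j).2 := fun h2 => hij (e.injective (Prod.ext h1 h2))
        change hermForm n F 2 (b (e i).1 (e i).2) (b (e j).1 (e j).2) = 0
        rw [h1, hb, if_neg h2]
      · exact hort _ _ _ _ h1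
  have hdec := lines_decomposition hF hn _ hON
  refine ⟨b, e, hb, hbD, hort, hON, hdec, ?_⟩
  rintro g ⟨⟨σ, hσ⟩, hg⟩
  have hli := hON.linearIndependent hF
  apply mem_decStab_of_forall
  · intro i j hij
    by_contra hne
    have := hdec.decomp.indep.pairwiseDisjoint hne
    change Disjoint (Submodule.span F {b (e i).1 (e i).2}) (Submodule.span F {b (e j).1 (e j).2}) at this
    have hij' : Submodule.span F {b (e i).1 (e i).2} = Submodule.span F {b (e j).1 (e j).2} := hij
    rw [← hij', disjoint_self, Submodule.span_singleton_eq_bot] at this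
    exact hli.ne_zero i this
  · intro j
    have h1 : (g : Matrix (Fin n) (Fin n) F) *ᵥ b (e j).1 (e j).2 ∈ D (σ (e j).1) := by
      rw [← hσ]
      exact ⟨_, hbD _ _, Matrix.toLin'_apply _ _⟩
    have h2 : hermForm n F 2 ((g : Matrix (Fin n) (Fin n) F) *ᵥ b (e j).1 (e j).2)
        ((g : Matrix (Fin n) (Fin n) F) *ᵥ b (e j).1 (e j).2) ≠ 0 := by
      have h3 : ∀ u v, hermForm n F 2 ((g : Matrix (Fin n) (Fin n) F) *ᵥ u)
        ((g : Matrix (Fin n) (Fin n) F) *ᵥ v) = hermForm n F 2 u v := hg.1
      rw [h3, hb, if_pos rfl]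
      exact one_ne_zero
    rw [← hspan] at h1
    obtain ⟨j', hj'⟩ := four_plane hF (hb _) h1 h2
    obtain ⟨c, hc⟩ := Submodule.mem_span_singleton.1 hj'
    have hc0 : c ≠ 0 := by
      rintro rfl
      rw [zero_smul] at hc
      rw [← hc] at h2
      exact h2 (hermForm_zero_left _)
    refine ⟨e.symm (σ (e j).1, j'), ?_⟩
    rw [Submodule.map_span, Set.image_singleton, Matrix.toLin'_apply]
    simp only [Equiv.apply_symm_apply]
    rw [← hc]
    exact Submodule.span_singleton_smul_eq (IsUnit.mk0 c hc0) _

end Four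

end Cfsg.Agent.UCase
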