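import Mathlib
import Cfsg.Agent.UCase.SmallQ

set_option autoImplicit false
set_option linter.unusedSectionVars false
set_option linter.unusedVariables false

/-!
Stabilisers of tensor decompositions with a 2-dimensional factor over the field with four
elements.
-/

namespace Cfsg.Agent.UCase

open scoped Matrix Kronecker
open Cfsg.Geo Cfsg.Agent.Uni Cfsg.Agent.AschCases
open Matrix (GeneralLinearGroup)

variable {F : Type*} [Field F] [Fintype F] {q n : ℕ}

section Form

variable {m : ℕ} {f : (Fin m → F) → (Fin m → F) → F}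

theorem powForm_smul_right (hf : IsUnitaryFormPow q f) (c : F) (x y : Fin m → F) :
    f x (c • y) = c ^ q * f x y := by
  rw [hf.herm, hf.smul_left, mul_pow, ← hf.herm]

theorem powForm_add_right (hF : Fintype.card F = q ^ 2) (hf : IsUnitaryFormPow q f)
    (x y z : Fin m → F) : f x (y + z) = f x y + f x z := by
  rw [hf.herm, hf.add_left, add_pow_q hF, ← hf.herm, ← hf.herm]

theorem powForm_sum_left (hf : IsUnitaryFormPow q f) {κ : Type*} (s : Finset κ)
    (x : κ → Fin m → F) (y : Fin m → F) : f (∑ i ∈ s, x i) y = ∑ i ∈ s, f (x i) y := by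
  classical
  induction s using Finset.induction_on with
  | empty =>
    simp only [Finset.sum_empty]
    have := hf.smul_left 0 0 y
    rwa [zero_smul, zero_mul] at this
  | insert a s ha ih => rw [Finset.sum_insert ha, Finset.sum_insert ha, hf.add_left, ih]

theorem powForm_eq (hF : Fintype.card F = q ^ 2) (hf : IsUnitaryFormPow q f) (x y : Fin m → F) :
    f x y = ∑ a, ∑ b, x a * gramMatrix f a b * (y b) ^ q := by
  have h1 : ∀ (z : Fin m → F) (y : Fin m → F), f z y = ∑ b, (y b) ^ q * f z (Pi.single b 1) := by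
    intro z y
    have h2 : f y z = ∑ b, y b * f (Pi.single b 1) z := by
      conv_lhs => rw [show y = ∑ b, y b • (Pi.single b 1 : Fin m → F) from by
        funext i
        simp [Finset.sum_apply, Pi.single_apply]]
      rw [powForm_sum_left hf]
      exact Finset.sum_congr rfl fun b _ => hf.smul_left _ _ _
    rw [hf.herm, h2]
    have h3 : ∀ s : Finset (Fin m), (∑ b ∈ s, y b * f (Pi.single b 1) z) ^ q =
        ∑ b ∈ s, (y b) ^ q * f z (Pi.single b 1) := by
      intro s
      induction s using Finset.induction_on with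
      | empty =>
        rw [Finset.sum_empty, Finset.sum_empty, zero_pow]
        have := two_le_q hF
        omega
      | insert a s ha ih =>
        rw [Finset.sum_insert ha, Finset.sum_insert ha, add_pow_q hF, ih, mul_pow, ← hf.herm]
    exact h3 _
  have h4 : f x y = ∑ a, x a * f (Pi.single a 1) y := by
    conv_lhs => rw [show x = ∑ b, x b • (Pi.single b 1 : Fin m → F) from by
      funext i
      simp [Finset.sum_apply, Pi.single_apply]]
    rw [powForm_sum_left hf]
    exact Finset.sum_congr rfl fun b _ => hf.smul_left _ _ _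
  rw [h4]
  refine Finset.sum_congr rfl fun a _ => ?_
  rw [h1, Finset.mul_sum]
  refine Finset.sum_congr rfl fun b _ => ?_
  rw [gramMatrix]
  ring

theorem powForm_self (hf : IsUnitaryFormPow q f) (x : Fin m → F) : (f x x) ^ q = f x x :=
  (hf.herm x x).symm

end Form

section Four

variable (hF : Fintype.card F = 2 ^ 2)
include hF

theorem four_fixed {x : F} (hx : x ^ 2 = x) (h0 : x ≠ 0) : x = 1 := by
  have : x * x = x * 1 := by rw [mul_one, ← sq, hx]
  exact mul_left_cancel₀ h0 this

theorem exists_omega : ∃ w : F, w ≠ 0 ∧ w ^ 2 ≠ w := by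
  obtain ⟨u, hu⟩ := exists_pow_q_ne (F := F) (q := 2) hF
  refine ⟨u, ?_, hu⟩
  rintro rfl
  exact hu (by norm_num)

theorem exists_ON_two {f : (Fin 2 → F) → (Fin 2 → F) → F} (hf : IsUnitaryFormPow 2 f) :
    ∃ a : Fin 2 → Fin 2 → F, (∀ i j, f (a i) (a j) = if i = j then 1 else 0) ∧
      ∀ x, ∃ c : Fin 2 → F, x = c 0 • a 0 + c 1 • a 1 := by
  have h2 := four_two_eq_zero hF
  have hz : ∀ y, f 0 y = 0 := fun y => by
    have := hf.smul_left 0 0 y
    rwa [zero_smul, zero_mul] at this
  -- an anisotropic vector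
  obtain ⟨v, hv⟩ : ∃ v, f v v ≠ 0 := by
    by_contra hcon
    push Not at hcon
    have h3 : ∀ v w, f v w = f w v := by
      intro v w
      have h4 := hcon (v + w)
      rw [hf.add_left, powForm_add_right (q := 2) hF hf, powForm_add_right (q := 2) hF hf, hcon, hcon,
        zero_add, add_zero] at h4
      have h5 : f v w + f w v + (f w v + f w v) = f w v + f w v + 0 := by
        rw [h4]; ring
      have h6 : f w v + f w v = 0 := by
        rw [← two_mul, h2, zero_mul]
      rw [h6] at h5
      rw [add_zero, add_zero] at h5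
      have h7 := eq_neg_of_add_eq_zero_left h5
      rw [h7]
      exact (eq_neg_of_add_eq_zero_left h6).symm
    have h4 : ∀ v w, f v w = 0 := by
      intro v w
      obtain ⟨u, hu0, hu⟩ := exists_omega hF
      have h5 := h3 (u • v) w
      rw [hf.smul_left, powForm_smul_right hf, ← h3 v w] at h5
      have h6 : (u - u ^ 2) * f v w = 0 := by rw [sub_mul, h5, sub_self]
      rcases mul_eq_zero.1 h6 with h | h
      · exact absurd (sub_eq_zero.1 h).symm hu
      · exact h
    have h5 : (Pi.single 0 1 : Fin 2 → F) ≠ 0 := by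
      intro h
      have := congrFun h 0
      simp at this
    obtain ⟨⟨x, hx⟩, -⟩ := hf.nondegenerate _ h5
    exact hx (h4 _ _)
  have hv1 : f v v = 1 := four_fixed hF (powForm_self hf v) hv
  have hv0 : v ≠ 0 := by rintro rfl; exact hv (hz _)
  -- a vector outside
  obtain ⟨z, hz'⟩ : ∃ z : Fin 2 → F, z ∉ Submodule.span F {v} := by
    by_contra hcon
    push Not at hcon
    have h3 : Submodule.span F {v} = ⊤ := by
      rw [eq_top_iff]
      intro x _
      exact hcon x
    have h4 := finrank_span_singleton (K := F) hv0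
    rw [h3, finrank_top, Module.finrank_fin_fun] at h4
    omega
  let w := z - f z v • v
  have hwv : f w v = 0 := by
    have h3 : w = z + (-f z v) • v := by rw [neg_smul]; exact sub_eq_add_neg _ _
    rw [h3, hf.add_left, hf.smul_left, hv1]
    ring
  have hw : w ∉ Submodule.span F {v} := by
    intro h
    apply hz'
    have h3 : z = w + f z v • v := by simp [w]
    rw [h3]
    exact Submodule.add_mem _ h (Submodule.smul_mem _ _ (Submodule.mem_span_singleton_self _))
  have hspan : ∀ x : Fin 2 → F, ∃ c : Fin 2 → F, x = c 0 • v + c 1 • w := by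
    intro x
    have hli : LinearIndependent F ![v, w] := by
      rw [LinearIndependent.pair_iff' hv0]
      intro a ha
      exact hw (ha ▸ Submodule.smul_mem _ _ (Submodule.mem_span_singleton_self _))
    have h3 := hli.span_eq_top_of_card_eq_finrank' (by
      rw [Fintype.card_fin, Module.finrank_fin_fun])
    have h4 : x ∈ Submodule.span F (Set.range ![v, w]) := by rw [h3]; exact Submodule.mem_top
    obtain ⟨c, hc⟩ := (Submodule.mem_span_range_iff_exists_fun F).1 h4
    refine ⟨c, ?_⟩
    rw [← hc, Fin.sum_univ_two]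
    rfl
  have hw0 : w ≠ 0 := by
    intro h
    exact hw (h ▸ Submodule.zero_mem _)
  have hww : f w w ≠ 0 := by
    intro h
    obtain ⟨-, x, hx⟩ := hf.nondegenerate w hw0
    obtain ⟨c, rfl⟩ := hspan x
    apply hx
    rw [powForm_add_right (q := 2) hF hf, powForm_smul_right hf, powForm_smul_right hf, hwv, h,
      mul_zero, mul_zero, add_zero]
  have hvw : f v w = 0 := by
    rw [hf.herm, hwv]
    norm_num
  refine ⟨![v, w], ?_, fun x => hspan x⟩
  intro i j
  fin_cases i <;> fin_cases j
  · simpa using hv1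
  · simpa using hvw
  · simpa using hwv
  · simpa using four_fixed hF (powForm_self hf w) hww

/-- The anisotropic vectors of the plane lie on two lines. -/
theorem four_plane' {f : (Fin 2 → F) → (Fin 2 → F) → F} (hf : IsUnitaryFormPow 2 f)
    {a : Fin 2 → Fin 2 → F} (ha : ∀ i j, f (a i) (a j) = if i = j then 1 else 0)
    (hspan : ∀ x, ∃ c : Fin 2 → F, x = c 0 • a 0 + c 1 • a 1) {x : Fin 2 → F}
    (hx : f x x ≠ 0) : ∃ j, ∃ c : F, c ≠ 0 ∧ x = c • a j := by
  obtain ⟨c, rfl⟩ := hspan x
  have hz : ∀ y, f 0 y = 0 := fun y => by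
    have := hf.smul_left 0 0 y
    rwa [zero_smul, zero_mul] at this
  have h2 : f (c 0 • a 0 + c 1 • a 1) (c 0 • a 0 + c 1 • a 1) =
      c 0 * c 0 ^ 2 + c 1 * c 1 ^ 2 := by
    rw [hf.add_left, powForm_add_right (q := 2) hF hf, powForm_add_right (q := 2) hF hf]
    simp only [hf.smul_left, powForm_smul_right hf, ha]
    simp
  rw [h2] at hx
  by_cases h0 : c 0 = 0
  · by_cases h1 : c 1 = 0
    · exfalso
      apply hx
      rw [h0, h1]; norm_num
    · exact ⟨1, c 1, h1, by rw [h0, zero_smul, zero_add]⟩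
  · by_cases h1 : c 1 = 0
    · exact ⟨0, c 0, h0, by rw [h1, zero_smul, add_zero]⟩
    · exfalso
      apply hx
      rw [four_norm hF h0, four_norm hF h1, ← four_two_eq_zero hF]
      norm_num

end Four

section Tensor

variable {n₁ n₂ : ℕ} (e : Fin n ≃ Fin n₁ × Fin n₂) (P : GL (Fin n) F)

/-- The vector attached to a pure tensor. -/
def tvec (x : Fin n₁ → F) (y : Fin n₂ → F) : Fin n → F :=
  (P : Matrix (Fin n) (Fin n) F) *ᵥ ((fun p : Fin n₁ × Fin n₂ => x p.1 * y p.2) ∘ e)

theorem tvec_form (hF : Fintype.card F = q ^ 2) {f₁ : (Fin n₁ → F) → (Fin n₁ → F) → F}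
    {f₂ : (Fin n₂ → F) → (Fin n₂ → F) → F} (hf₁ : IsUnitaryFormPow q f₁)
    (hf₂ : IsUnitaryFormPow q f₂)
    (hT : IsTensorFormStructure (fun x : F => x ^ q) (hermForm n F q) f₁ f₂ e P) :
    ∃ c : F, c ≠ 0 ∧ ∀ x y x' y', hermForm n F q (tvec e P x y) (tvec e P x' y') =
      c * (f₁ x x' * f₂ y y') := by
  obtain ⟨c, hc, hT⟩ := hT
  refine ⟨c, hc, fun x y x' y' => ?_⟩
  rw [tvec, tvec, hT, powForm_eq hF hf₁ x x', powForm_eq hF hf₂ y y', formOfGram]
  congr 1
  rw [Fintype.sum_prod_type, Finset.sum_mul_sum]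
  refine Finset.sum_congr rfl fun a _ => Finset.sum_congr rfl fun b _ => ?_
  rw [Fintype.sum_prod_type, Finset.sum_mul_sum]
  refine Finset.sum_congr rfl fun a' _ => Finset.sum_congr rfl fun b' _ => ?_
  rw [Matrix.kroneckerMap_apply, mul_pow]
  ring

theorem tvec_act {g : GL (Fin n) F} (hg : g ∈ tensorProductSubgroup n₁ n₂ e P) :
    ∃ (a : GL (Fin n₁) F) (b : GL (Fin n₂) F), ∀ x y,
      (g : Matrix (Fin n) (Fin n) F) *ᵥ tvec e P x y =
        tvec e P ((a : Matrix (Fin n₁) (Fin n₁) F) *ᵥ x) ((b : Matrix (Fin n₂) (Fin n₂) F) *ᵥ y) := by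
  obtain ⟨R, ⟨k, ⟨a, b, hab⟩, hkR⟩, hR⟩ := hg
  refine ⟨a, b, fun x y => ?_⟩
  rw [← hR, tvec, tvec]
  change ((P : Matrix (Fin n) (Fin n) F) * (R : Matrix (Fin n) (Fin n) F) *
    ((P⁻¹ : GL (Fin n) F) : Matrix (Fin n) (Fin n) F)) *ᵥ _ = _
  rw [Matrix.mulVec_mulVec, Matrix.mul_assoc, Matrix.mul_assoc, ← Units.val_mul, inv_mul_cancel,
    Units.val_one, Matrix.mul_one, ← Matrix.mulVec_mulVec]
  congr 1
  rw [← hkR]
  funext i
  change (glReindex e.symm k : Matrix (Fin n) (Fin n) F) i ⬝ᵥ _ = _
  have h1 : ∀ j, (glReindex e.symm k : Matrix (Fin n) (Fin n) F) i j =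
      (k : Matrix (Fin n₁ × Fin n₂) (Fin n₁ × Fin n₂) F) (e i) (e j) := by
    intro j
    rw [glReindex_apply]
    simp
  simp only [dotProduct, Function.comp, h1]
  rw [Equiv.sum_comp e (fun p => (k : Matrix (Fin n₁ × Fin n₂) (Fin n₁ × Fin n₂) F) (e i) p *
    (x p.1 * y p.2)), hab]
  simp only [Matrix.mulVec, dotProduct]
  rw [Fintype.sum_prod_type, Finset.sum_mul_sum]
  refine Finset.sum_congr rfl fun a' _ => Finset.sum_congr rfl fun b' _ => ?_
  rw [Matrix.kroneckerMap_apply]
  ring

/-- The linear map `y ↦ x ⊗ y`. -/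
def tvecL (x : Fin n₁ → F) : (Fin n₂ → F) →ₗ[F] (Fin n → F) where
  toFun y := tvec e P x y
  map_add' y y' := by
    simp only [tvec]
    rw [← Matrix.mulVec_add]
    congr 1
    funext i
    simp only [Function.comp, Pi.add_apply]
    ring
  map_smul' c y := by
    simp only [tvec, RingHom.id_apply]
    rw [← Matrix.mulVec_smul]
    congr 1
    funext i
    simp only [Function.comp, Pi.smul_apply, smul_eq_mul]
    ring

theorem tvecL_apply (x : Fin n₁ → F) (y : Fin n₂ → F) : tvecL e P x y = tvec e P x y := rfl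

theorem tvec_smul_left (c : F) (x : Fin n₁ → F) (y : Fin n₂ → F) :
    tvec e P (c • x) y = tvec e P x (c • y) := by
  simp only [tvec]
  congr 1
  funext i
  simp only [Function.comp, Pi.smul_apply, smul_eq_mul]
  ring

theorem tvecL_injective {x : Fin n₁ → F} (hx : x ≠ 0) : Function.Injective (tvecL e P x) := by
  rw [← LinearMap.ker_eq_bot, LinearMap.ker_eq_bot']
  intro y hy
  obtain ⟨i, hi⟩ := Function.ne_iff.1 hx
  have h1 : (fun p : Fin n₁ × Fin n₂ => x p.1 * y p.2) ∘ e = 0 :=
    (Matrix.mulVec_injective_of_isUnit P.isUnit) (by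
      rw [Matrix.mulVec_zero]; exact hy)
  funext j
  have h2 := congrFun h1 (e.symm (i, j))
  simp only [Function.comp, Equiv.apply_symm_apply, Pi.zero_apply] at h2
  exact (mul_eq_zero.1 h2).resolve_left hi

end Tensor

end Cfsg.Agent.UCase
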