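import Mathlib
import Cfsg.Agent.UCase.TensorFour

set_option autoImplicit false
set_option linter.unusedSectionVars false
set_option linter.unusedVariables false

/-!
Non-maximality over the field with four elements: decompositions into planes and tensor
decompositions with a 2-dimensional factor.
-/

namespace Cfsg.Agent.UCase

open scoped Matrix Kronecker
open Cfsg.Geo Cfsg.Agent.Uni Cfsg.Agent.AschCases
open Matrix (GeneralLinearGroup)

variable {F : Type*} [Field F] [Fintype F] {q n : ℕ}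

theorem injective_of_decomp {t k : ℕ} {D : Fin t → Submodule F (Fin n → F)}
    (hD : IsMDecomposition k D) : Function.Injective D := by
  intro i j hij
  by_contra hne
  have h1 := hD.indep.pairwiseDisjoint hne
  change Disjoint (D i) (D j) at h1
  rw [← hij, disjoint_self] at h1
  have h2 := hD.finrank_eq i
  rw [h1, finrank_bot] at h2
  have := hD.pos
  omega

/-- The tensor decomposition group is contained in the stabiliser of a decomposition into two
subspaces. -/
theorem tensor_le_decomp (hF : Fintype.card F = 2 ^ 2) {n₂ : ℕ} (hn₂ : 0 < n₂)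
    (e : Fin n ≃ Fin 2 × Fin n₂) (P : GL (Fin n) F)
    (f₁ : (Fin 2 → F) → (Fin 2 → F) → F) (f₂ : (Fin n₂ → F) → (Fin n₂ → F) → F)
    (hf₁ : IsUnitaryFormPow 2 f₁) (hf₂ : IsUnitaryFormPow 2 f₂)
    (hT : IsTensorFormStructure (fun x : F => x ^ 2) (hermForm n F 2) f₁ f₂ e P) :
    ∃ D : Fin 2 → Submodule F (Fin n → F),
      IsNondegenerateMDecomposition (hermForm n F 2) n₂ D ∧
      tensorProductSubgroup 2 n₂ e P ⊓ SG n F 2 ≤ decompositionStabilizer D := by
  obtain ⟨c, hc, hform⟩ := tvec_form e P hF hf₁ hf₂ hT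
  obtain ⟨a, ha, hspan⟩ := exists_ON_two hF hf₁
  have hz₁ : ∀ y, f₁ 0 y = 0 := fun y => by
    have := hf₁.smul_left 0 0 y
    rwa [zero_smul, zero_mul] at this
  have ha0 : ∀ j, a j ≠ 0 := by
    intro j h
    have := ha j j
    rw [h, hz₁, if_pos rfl] at this
    exact zero_ne_one this
  have hcard : 2 * n₂ = n := by
    have := Fintype.card_congr e
    rw [Fintype.card_prod, Fintype.card_fin, Fintype.card_fin, Fintype.card_fin] at this
    exact this.symm
  have hform' : ∀ i j y y', hermForm n F 2 (tvec e P (a i) y) (tvec e P (a j) y') =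
      if i = j then c * f₂ y y' else 0 := by
    intro i j y y'
    rw [hform, ha]
    split_ifs
    · rw [one_mul]
    · rw [zero_mul, mul_zero]
  let D : Fin 2 → Submodule F (Fin n → F) := fun j => LinearMap.range (tvecL e P (a j))
  have hmem : ∀ j x, x ∈ D j ↔ ∃ y, tvec e P (a j) y = x := fun j x => Iff.rfl
  have hnd : ∀ i, ND 2 (D i) := by
    intro i x hx hxy
    obtain ⟨y, rfl⟩ := (hmem i x).1 hx
    by_cases hy : y = 0
    · subst hy
      exact (tvecL e P (a i)).map_zero
    · exfalso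
      obtain ⟨-, y', hy'⟩ := hf₂.nondegenerate y hy
      have := hxy (tvec e P (a i) y') ((hmem i _).2 ⟨y', rfl⟩)
      rw [hform', if_pos rfl] at this
      exact (mul_ne_zero hc hy') this
  have hort : ∀ i j, i ≠ j → AreOrthogonalFor (hermForm n F 2) (D i) (D j) := by
    intro i j hij x hx y hy
    obtain ⟨x', rfl⟩ := (hmem i x).1 hx
    obtain ⟨y', rfl⟩ := (hmem j y).1 hy
    rw [hform', if_neg hij]
  have hdisj : ∀ i j, i ≠ j → Disjoint (D i) (D j) := by
    intro i j hij
    rw [Submodule.disjoint_def]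
    intro x hx hx'
    exact hnd i x hx fun y hy => hort j i hij.symm x hx' y hy
  have hfin : ∀ i, Module.finrank F (D i) = n₂ := by
    intro i
    rw [LinearMap.finrank_range_of_inj (tvecL_injective e P (ha0 i)), Module.finrank_fin_fun]
  have hD : IsNondegenerateMDecomposition (hermForm n F 2) n₂ D := by
    refine ⟨⟨le_refl 2, hn₂, hfin, ?_, ?_⟩, fun i => isNondegenerateOn_of_nd hF (hnd i), hort⟩
    · rw [iSupIndep_def]
      intro i
      fin_cases i
      · refine (hdisj 0 1 (by decide)).mono_right ?_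
        refine iSup₂_le fun j hj => ?_
        fin_cases j
        · exact absurd rfl hj
        · exact le_refl _
      · refine (hdisj 1 0 (by decide)).mono_right ?_
        refine iSup₂_le fun j hj => ?_
        fin_cases j
        · exact le_refl _
        · exact absurd rfl hj
    · have h1 := Submodule.eq_top_of_disjoint (D 0) (D 1) (by
        rw [hfin, hfin, Module.finrank_fin_fun]; omega) (hdisj 0 1 (by decide))
      rw [eq_top_iff, ← h1]
      exact sup_le (le_iSup D 0) (le_iSup D 1)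
  refine ⟨D, hD, ?_⟩
  rintro g ⟨hg, hgS⟩
  obtain ⟨A, B, hAB⟩ := tvec_act e P hg
  apply mem_decStab_of_forall _ (injective_of_decomp hD.decomp)
  intro j
  have h1 : f₁ ((A : Matrix (Fin 2) (Fin 2) F) *ᵥ a j) ((A : Matrix (Fin 2) (Fin 2) F) *ᵥ a j) ≠ 0 := by
    intro h0
    have hy0 : (Pi.single ⟨0, hn₂⟩ 1 : Fin n₂ → F) ≠ 0 := by
      intro h
      have := congrFun h ⟨0, hn₂⟩
      simp at this
    obtain ⟨-, y', hy'⟩ := hf₂.nondegenerate _ hy0
    have h2 : hermForm n F 2 ((g : Matrix (Fin n) (Fin n) F) *ᵥ tvec e P (a j) (Pi.single ⟨0, hn₂⟩ 1))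
        ((g : Matrix (Fin n) (Fin n) F) *ᵥ tvec e P (a j) y') =
        hermForm n F 2 (tvec e P (a j) (Pi.single ⟨0, hn₂⟩ 1)) (tvec e P (a j) y') := hgS.1 _ _
    rw [hAB, hAB, hform, h0, zero_mul, mul_zero, hform', if_pos rfl] at h2
    exact (mul_ne_zero hc hy') h2.symm
  obtain ⟨j', d, hd, hdj⟩ := four_plane' hF hf₁ ha hspan h1
  refine ⟨j', ?_⟩
  apply le_antisymm
  · rintro _ ⟨x, hx, rfl⟩
    obtain ⟨y, rfl⟩ := (hmem j x).1 hx
    rw [Matrix.toLin'_apply, hAB, hdj, tvec_smul_left]
    exact (hmem j' _).2 ⟨_, rfl⟩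
  · intro x hx
    obtain ⟨y, rfl⟩ := (hmem j' x).1 hx
    refine ⟨tvec e P (a j) (((B⁻¹ : GL (Fin n₂) F) : Matrix (Fin n₂) (Fin n₂) F) *ᵥ (d⁻¹ • y)),
      (hmem j _).2 ⟨_, rfl⟩, ?_⟩
    rw [Matrix.toLin'_apply, hAB, hdj, tvec_smul_left, Matrix.mulVec_mulVec, ← Units.val_mul,
      mul_inv_cancel, Units.val_one, Matrix.one_mulVec, smul_smul, mul_inv_cancel₀ hd, one_smul]

/-- The decomposition into planes: the stabiliser is not maximal. -/
theorem planes_not_maximal (hF : Fintype.card F = 2 ^ 2) (hn : 4 ≤ n) {t : ℕ}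
    {D : Fin t → Submodule F (Fin n → F)}
    (hD : IsNondegenerateMDecomposition (hermForm n F 2) 2 D) :
    ∃ K : Subgroup (GL (Fin n) F), decompositionStabilizer D ⊓ SG n F 2 < K ∧ K < SG n F 2 := by
  obtain ⟨b, e, hb, hbD, hort, hON, hdec, hle⟩ := planes_le_lines hF hD (by omega)
  refine ⟨decompositionStabilizer (fun j => Submodule.span F {b (e j).1 (e j).2}) ⊓ SG n F 2,
    ?_, ?_⟩
  swap
  · refine lt_of_le_of_ne inf_le_right fun h => ?_
    exact not_le_decompositionStabilizer hF (by omega) (by omega) _ hdec.decomp (inf_eq_right.1 h)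
  refine lt_of_le_of_ne (le_inf hle inf_le_right) fun heq => ?_
  -- the transvection swapping two lines
  have ht := hD.decomp.two_le
  let i0 : Fin t := ⟨0, by omega⟩
  let i1 : Fin t := ⟨1, by omega⟩
  have h01 : i0 ≠ i1 := by
    intro h
    have := congrArg Fin.val h
    simp [i0, i1] at this
  have h2 := four_two_eq_zero hF
  have h2' : ∀ x : F, x + x = 0 := fun x => by rw [← two_mul, h2, zero_mul]
  let u := b i0 0 + b i1 0
  have hu : hermForm n F 2 u u = 0 := by
    simp only [u]
    rw [hermForm_add_left, hermForm_add_right (q := 2) hF, hermForm_add_right (q := 2) hF, hb, hb,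
      hort _ _ _ _ h01, hort _ _ _ _ h01.symm, if_pos rfl, add_zero, zero_add, h2']
  obtain ⟨g, hg, hgx⟩ := exists_transv_SG (c := 1) hF hu (by
    rw [one_pow]
    exact eq_neg_of_add_eq_zero_left (h2' 1))
  have hswap : (g : Matrix (Fin n) (Fin n) F) *ᵥ b i0 0 = b i1 0 := by
    rw [hgx, one_mul]
    have : hermForm n F 2 (b i0 0) u = 1 := by
      simp only [u]
      rw [hermForm_add_right (q := 2) hF, hb, hort _ _ _ _ h01, if_pos rfl, add_zero]
    rw [this, one_smul]
    funext i
    simp only [u, Pi.add_apply]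
    rw [← add_assoc, h2', zero_add]
  have hswap' : (g : Matrix (Fin n) (Fin n) F) *ᵥ b i1 0 = b i0 0 := by
    rw [hgx, one_mul]
    have : hermForm n F 2 (b i1 0) u = 1 := by
      simp only [u]
      rw [hermForm_add_right (q := 2) hF, hb, hort _ _ _ _ h01.symm, if_pos rfl, zero_add]
    rw [this, one_smul]
    funext i
    simp only [u, Pi.add_apply]
    rw [add_comm (b i0 0 i), ← add_assoc, h2', zero_add]
  have hfix : ∀ i j, (i, j) ≠ (i0, 0) → (i, j) ≠ (i1, 0) →
      (g : Matrix (Fin n) (Fin n) F) *ᵥ b i j = b i j := by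
    intro i j h0 h1
    have h3 : ∀ k, (i, j) ≠ (k, 0) → hermForm n F 2 (b i j) (b k 0) = 0 := by
      intro k hk
      by_cases hik : i = k
      · subst hik
        rw [hb, if_neg]
        rintro rfl
        exact hk rfl
      · exact hort _ _ _ _ hik
    rw [hgx]
    have : hermForm n F 2 (b i j) u = 0 := by
      simp only [u]
      rw [hermForm_add_right (q := 2) hF, h3 _ h0, h3 _ h1, add_zero]
    rw [this, mul_zero, zero_smul, add_zero]
  have hmem : g ∈ decompositionStabilizer (fun j => Submodule.span F {b (e j).1 (e j).2}) ⊓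
      SG n F 2 := by
    refine ⟨?_, hg⟩
    apply mem_decStab_of_forall _ (injective_of_decomp hdec.decomp)
    intro j
    rw [Submodule.map_span, Set.image_singleton, Matrix.toLin'_apply]
    by_cases hj0 : e j = (i0, 0)
    · refine ⟨e.symm (i1, 0), ?_⟩
      rw [hj0, hswap, Equiv.apply_symm_apply]
    · by_cases hj1 : e j = (i1, 0)
      · refine ⟨e.symm (i0, 0), ?_⟩
        rw [hj1, hswap', Equiv.apply_symm_apply]
      · have h6 := hfix (e j).1 (e j).2 hj0 hj1
        exact ⟨j, by rw [h6]⟩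
  rw [← heq] at hmem
  obtain ⟨⟨σ, hσ⟩, -⟩ := hmem
  -- `D i0` maps to `D (σ i0)`
  have key : ∀ i j k, b i j ∈ D k → i = k := by
    intro i j k hk
    by_contra hne
    have h3 := hD.orthogonal i k hne _ (hbD i j) _ hk
    rw [hb, if_pos rfl] at h3
    exact one_ne_zero h3
  have h4 : b i1 0 ∈ D (σ i0) := by
    rw [← hσ, ← hswap]
    exact ⟨_, hbD _ _, Matrix.toLin'_apply _ _⟩
  have h5 : b i0 1 ∈ D (σ i0) := by
    rw [← hσ, ← hfix i0 1 (by simp) (by simp [h01])]
    exact ⟨_, hbD _ _, Matrix.toLin'_apply _ _⟩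
  exact h01 ((key _ _ _ h5).trans (key _ _ _ h4).symm)

/-- The tensor decomposition with a 2-dimensional factor: the stabiliser is not maximal. -/
theorem tensor_not_maximal (hF : Fintype.card F = 2 ^ 2) {n₂ : ℕ} (hn₂ : 2 ≤ n₂)
    (e : Fin n ≃ Fin 2 × Fin n₂) (P : GL (Fin n) F)
    (f₁ : (Fin 2 → F) → (Fin 2 → F) → F) (f₂ : (Fin n₂ → F) → (Fin n₂ → F) → F)
    (hf₁ : IsUnitaryFormPow 2 f₁) (hf₂ : IsUnitaryFormPow 2 f₂)
    (hT : IsTensorFormStructure (fun x : F => x ^ 2) (hermForm n F 2) f₁ f₂ e P) :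
    ∃ K : Subgroup (GL (Fin n) F), tensorProductSubgroup 2 n₂ e P ⊓ SG n F 2 < K ∧
      K < SG n F 2 := by
  obtain ⟨D, hD, hle⟩ := tensor_le_decomp hF (by omega) e P f₁ f₂ hf₁ hf₂ hT
  have hcard : 2 * n₂ = n := by
    have := Fintype.card_congr e
    rw [Fintype.card_prod, Fintype.card_fin, Fintype.card_fin, Fintype.card_fin] at this
    exact this.symm
  refine ⟨decompositionStabilizer D ⊓ SG n F 2, ?_, ?_⟩
  swap
  · refine lt_of_le_of_ne inf_le_right fun h => ?_
    exact not_le_decompositionStabilizer hF (by omega) (by omega) _ hD.decomp (inf_eq_right.1 h)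
  refine lt_of_le_of_ne (le_inf hle inf_le_right) fun heq => ?_
  -- a transvection with centre in `D 0`
  have hnd := nd_of_isNondegenerateOn (hD.nondegenerate 0)
  obtain ⟨u, huD, hu0, hu⟩ : ∃ u ∈ D 0, u ≠ 0 ∧ hermForm n F 2 u u = 0 :=
    hnd.exists_isotropic hF (by rw [hD.decomp.finrank_eq]; exact hn₂)
  obtain ⟨c, hc0, hc⟩ := exists_skew (F := F) (q := 2) hF
  have h : (fun j => u j ^ 2) ⬝ᵥ (c • u) = 0 := by
    rw [dot_pow, hermForm_smul_left, hu, mul_zero]
  have hmemS := tv_mem_SG hF hu hc h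
  have hact : ∀ x, (tv (c • u) (fun j => u j ^ 2) h : Matrix (Fin n) (Fin n) F) *ᵥ x =
      x + (hermForm n F 2 x u * c) • u := by
    intro x
    rw [tv_mulVec, dot_pow, smul_smul]
  have hmem : tv (c • u) (fun j => u j ^ 2) h ∈ decompositionStabilizer D ⊓ SG n F 2 := by
    refine ⟨?_, hmemS⟩
    refine ⟨1, fun i => ?_⟩
    rw [Equiv.Perm.one_apply]
    have hle' : ∀ i, (D i).map (Matrix.toLin' (tv (c • u) (fun j => u j ^ 2) h :
        Matrix (Fin n) (Fin n) F)) ≤ D i := by
      intro i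
      rintro _ ⟨x, hx, rfl⟩
      rw [Matrix.toLin'_apply, hact]
      by_cases hi : i = 0
      · subst hi
        exact Submodule.add_mem _ hx (Submodule.smul_mem _ _ huD)
      · rw [hD.orthogonal i 0 hi x hx u huD, zero_mul, zero_smul, add_zero]
        exact hx
    apply Submodule.eq_of_le_of_finrank_eq (hle' i)
    exact (Submodule.equivMapOfInjective _ (by
      intro x y hxy
      rw [Matrix.toLin'_apply, Matrix.toLin'_apply] at hxy
      exact Matrix.mulVec_injective_of_isUnit (Units.isUnit _) hxy) (D i)).finrank_eq.symm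
  rw [← heq] at hmem
  refine tv_not_mem_tensorProductSubgroup (le_refl 2) hn₂ e P _ _ h (smul_ne_zero hc0 hu0) ?_ hmem.1
  intro h0
  apply hu0
  funext j
  have := congrFun h0 j
  simpa using this

end Cfsg.Agent.UCase
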