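import Mathlib
import Cfsg.Agent.UCase.FourMain

set_option autoImplicit false
set_option linter.unusedSectionVars false
set_option linter.unusedVariables false

/-!
A decidable model of the field with four elements.
-/

namespace Cfsg.Agent.UCase

namespace F4

/-- Addition. -/
def ad (a b : Fin 4) : Fin 4 := a ^^^ b

/-- Multiplication. -/
def ml (a b : Fin 4) : Fin 4 :=
  if a = 0 then 0 else if b = 0 then 0 else if a = 1 then b else if b = 1 then a
  else if a = b then (if a = 2 then 3 else 2) else 1

variable {F : Type*} [Field F]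

/-- The identification. -/
def psi (w : F) : Fin 4 → F := ![0, 1, w, w + 1]

theorem psi_zero (w : F) : psi w 0 = 0 := rfl
theorem psi_one (w : F) : psi w 1 = 1 := rfl

variable {w : F} (h2 : (2 : F) = 0) (hw : w * w = w + 1)
include h2 hw

theorem psi_ad (a b : Fin 4) : psi w (ad a b) = psi w a + psi w b := by
  have e1 : (1 : F) + 1 = 0 := by rw [← h2]; norm_num
  have e2 : w + w = 0 := by rw [← two_mul, h2, zero_mul]
  fin_cases a <;> fin_cases b <;> simp [ad, psi]
  · change (0 : F) = 1 + 1; rw [e1]
  · change w + 1 = 1 + w; ring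
  · change w = 1 + (w + 1); linear_combination (-1 : F) * e1
  · change (0 : F) = w + w; rw [e2]
  · change (1 : F) = w + (w + 1); linear_combination (-1 : F) * e2
  · change w = w + 1 + 1; linear_combination (-1 : F) * e1
  · change (1 : F) = w + 1 + w; linear_combination (-1 : F) * e2
  · change (0 : F) = w + 1 + (w + 1); linear_combination (-1 : F) * e1 - e2

theorem psi_ml (a b : Fin 4) : psi w (ml a b) = psi w a * psi w b := by
  have e1 : (1 : F) + 1 = 0 := by rw [← h2]; norm_num
  have e2 : w + w = 0 := by rw [← two_mul, h2, zero_mul]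
  fin_cases a <;> fin_cases b <;> simp [ml, psi]
  · change w + 1 = w * w; rw [hw]
  · change (1 : F) = w * (w + 1); linear_combination (-1 : F) * hw - e2
  · change (1 : F) = (w + 1) * w; linear_combination (-1 : F) * hw - e2
  · change w = (w + 1) * (w + 1); linear_combination (-1 : F) * hw - e1 - e2

theorem psi_sq (a : Fin 4) : psi w (ml a a) = psi w a ^ 2 := by
  rw [psi_ml h2 hw, sq]

theorem psi_eq_zero {a : Fin 4} : psi w a = 0 ↔ a = 0 := by
  have e1 : (1 : F) + 1 = 0 := by rw [← h2]; norm_num
  have hw0 : w ≠ 0 := by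
    rintro rfl
    rw [mul_zero, zero_add] at hw
    exact zero_ne_one hw
  have hw1 : w + 1 ≠ 0 := by
    intro h
    have : w * w = 0 := by rw [hw, h]
    exact hw0 (mul_self_eq_zero.1 this)
  fin_cases a
  · simp [psi]
  · simp [psi]
  · simpa [psi] using hw0
  · simpa [psi] using hw1

theorem psi_inj : Function.Injective (psi w) := by
  intro a b hab
  have h1 : psi w (ad a b) = 0 := by
    rw [psi_ad h2 hw, hab, ← two_mul, h2, zero_mul]
  rw [psi_eq_zero h2 hw] at h1
  revert h1
  clear hab
  revert a b
  decide

theorem psi_surj [Fintype F] (hF : Fintype.card F = 4) : Function.Surjective (psi w) := by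
  have : Function.Bijective (psi w) := by
    rw [Fintype.bijective_iff_injective_and_card]
    exact ⟨psi_inj h2 hw, by rw [Fintype.card_fin, hF]⟩
  exact this.2

omit h2 hw in
/-- Existence of the generator. -/
theorem exists_w [Fintype F] (hF : Fintype.card F = 2 ^ 2) : ∃ w : F, w * w = w + 1 := by
  obtain ⟨w, hw0, hw1⟩ := exists_omega hF
  refine ⟨w, ?_⟩
  have h2 := four_two_eq_zero hF
  have h3 := four_pow_three hF hw0
  have h4 : w - 1 ≠ 0 := by
    intro h
    apply hw1
    rw [sub_eq_zero.1 h, one_pow]
  have h5 : (w - 1) * (w * w + w + 1) = 0 := by linear_combination h3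
  have h6 := (mul_eq_zero.1 h5).resolve_left h4
  linear_combination h6 - (w + 1) * h2

/-- Sums of lists, in the model. -/
def sum6 (a b c d e f : Fin 4) : Fin 4 := ad a (ad b (ad c (ad d (ad e f))))

/-- Products, in the model. -/
def prod6 (a b c d e f : Fin 4) : Fin 4 := ml a (ml b (ml c (ml d (ml e f))))

end F4

end Cfsg.Agent.UCase
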