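import Mathlib
import Cfsg.Agent.UCase.SmallQ

set_option autoImplicit false
set_option linter.unusedSectionVars false
set_option linter.unusedVariables false

/-!
Orthonormal coordinates adapted to a decomposition into non-degenerate lines.
-/

namespace Cfsg.Agent.UCase

open scoped Matrix
open Cfsg.Geo Cfsg.Agent.Uni Cfsg.Agent.AschCases
open Matrix (GeneralLinearGroup)

variable {F : Type*} [Field F] [Fintype F] {q n : ℕ}

/-- Orthonormal coordinates from an orthonormal basis. -/
theorem exists_coords (hF : Fintype.card F = q ^ 2) {u : Fin n → Fin n → F} (hu : IsON q u) :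
    ∃ e : (Fin n → F) ≃ₗ[F] (Fin n → F), (∀ i, e (u i) = Pi.single i 1) ∧
      (∀ x, x = ∑ i, e x i • u i) ∧
      (∀ x y, hermForm n F q x y = ∑ i, e x i * (e y i) ^ q) := by
  have hli := hu.linearIndependent hF
  let B : Module.Basis (Fin n) F (Fin n → F) :=
    basisOfLinearIndependentOfCardEqFinrank' u hli (by rw [Fintype.card_fin, Module.finrank_fin_fun])
  have hB : ∀ i, B i = u i := fun i => by
    simp only [B, coe_basisOfLinearIndependentOfCardEqFinrank']
  have hsum : ∀ x, x = ∑ i, B.equivFun x i • u i := by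
    intro x
    conv_lhs => rw [← B.sum_equivFun x]
    exact Finset.sum_congr rfl fun i _ => by rw [hB]
  refine ⟨B.equivFun, ?_, hsum, ?_⟩
  · intro i
    funext j
    rw [← hB, B.equivFun_self i j, Pi.single_apply]
    by_cases hij : i = j
    · rw [if_pos hij, if_pos hij.symm]
    · rw [if_neg hij, if_neg (Ne.symm hij)]
  · intro x y
    conv_lhs => rw [hsum x, hsum y]
    rw [hermForm_sum_left]
    refine Finset.sum_congr rfl fun i _ => ?_
    rw [hermForm_sum_right hF, Finset.sum_eq_single i]
    · rw [hermForm_smul_left, hermForm_smul_right, hu, if_pos rfl, mul_one]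
    · intro j _ hji
      rw [hermForm_smul_left, hermForm_smul_right, hu, if_neg hji.symm, mul_zero, mul_zero]
    · intro h; exact absurd (Finset.mem_univ _) h

/-- The monomial action in coordinates. -/
theorem exists_line_coords (hF : Fintype.card F = q ^ 2)
    {D : Fin n → Submodule F (Fin n → F)}
    (hD : IsNondegenerateMDecomposition (hermForm n F q) 1 D) :
    ∃ (u : Fin n → Fin n → F) (e : (Fin n → F) ≃ₗ[F] (Fin n → F)), IsON q u ∧
      (∀ i, D i = Submodule.span F {u i}) ∧
      (∀ i, e (u i) = Pi.single i 1) ∧ (∀ x, x = ∑ i, e x i • u i) ∧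
      (∀ x y, hermForm n F q x y = ∑ i, e x i * (e y i) ^ q) ∧
      ∀ g ∈ decompositionStabilizer D, ∃ (σ : Equiv.Perm (Fin n)) (a : Fin n → F),
        (∀ i, a i ≠ 0) ∧ (∀ x i, e ((g : Matrix (Fin n) (Fin n) F) *ᵥ x) (σ i) = a i * e x i) ∧
        (∏ i, a i = (g : Matrix (Fin n) (Fin n) F).det ∨
          ∏ i, a i = -(g : Matrix (Fin n) (Fin n) F).det) := by
  obtain ⟨b', hb1', hbD', -, hort'⟩ := exists_adapted_ON hF hD
  let u : Fin n → Fin n → F := fun i => b' i 0
  have hu : IsON q u := by
    intro i j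
    by_cases hij : i = j
    · subst hij
      rw [if_pos rfl]
      have := hb1' i 0 0
      rwa [if_pos rfl] at this
    · rw [if_neg hij]
      exact hort' i j 0 0 hij
  have hli := hu.linearIndependent hF
  have hDspan : ∀ i, D i = Submodule.span F {u i} := by
    intro i
    symm
    apply Submodule.eq_of_le_of_finrank_eq
    · rw [Submodule.span_singleton_le_iff_mem]
      exact hbD' i 0
    · rw [finrank_span_singleton (hli.ne_zero i), hD.decomp.finrank_eq]
  obtain ⟨e, he1, he2, he3⟩ := exists_coords hF hu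
  refine ⟨u, e, hu, hDspan, he1, he2, he3, ?_⟩
  intro g hg
  obtain ⟨σ, hσ⟩ := mem_decompositionStabilizer.mp hg
  have hgu : ∀ i, ∃ c : F, (g : Matrix (Fin n) (Fin n) F) *ᵥ u i = c • u (σ i) := by
    intro i
    have h1 : (g : Matrix (Fin n) (Fin n) F) *ᵥ u i ∈ D (σ i) := by
      rw [← hσ]
      exact ⟨u i, hbD' i 0, Matrix.toLin'_apply _ _⟩
    rw [hDspan] at h1
    obtain ⟨c, hc⟩ := Submodule.mem_span_singleton.1 h1
    exact ⟨c, hc.symm⟩
  choose a ha using hgu
  have ha0 : ∀ i, a i ≠ 0 := by
    intro i h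
    have h1 := ha i
    rw [h, zero_smul] at h1
    have h2 : u i = 0 := Matrix.mulVec_injective_of_isUnit g.isUnit (by
      change (g : Matrix (Fin n) (Fin n) F) *ᵥ u i = (g : Matrix (Fin n) (Fin n) F) *ᵥ 0
      rw [h1, Matrix.mulVec_zero])
    exact hli.ne_zero i h2
  have hcoord : ∀ x i, e ((g : Matrix (Fin n) (Fin n) F) *ᵥ x) (σ i) = a i * e x i := by
    intro x i
    have h1 : (g : Matrix (Fin n) (Fin n) F) *ᵥ x = ∑ j, (e x j * a j) • u (σ j) := by
      conv_lhs => rw [he2 x]
      rw [← Matrix.mulVecLin_apply, map_sum]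
      refine Finset.sum_congr rfl fun j _ => ?_
      rw [map_smul, Matrix.mulVecLin_apply, ha, smul_smul]
    rw [h1, map_sum, Finset.sum_apply, Finset.sum_eq_single i]
    · rw [map_smul, Pi.smul_apply, he1, Pi.single_eq_same, smul_eq_mul, mul_one, mul_comm]
    · intro j _ hji
      rw [map_smul, Pi.smul_apply, he1, Pi.single_eq_of_ne, smul_zero]
      intro h
      exact hji (σ.injective h.symm)
    · intro h; exact absurd (Finset.mem_univ _) h
  refine ⟨σ, a, ha0, hcoord, ?_⟩
  -- the determinant
  let E : Matrix (Fin n) (Fin n) F := LinearMap.toMatrix' (e : (Fin n → F) →ₗ[F] (Fin n → F))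
  have hE : ∀ x, E *ᵥ x = e x := fun x => by
    simp only [E]
    rw [LinearMap.toMatrix'_mulVec]
    rfl
  have hEdet : E.det ≠ 0 := by
    intro h0
    obtain ⟨c, hc, hc0⟩ := Matrix.exists_mulVec_eq_zero_iff.2 h0
    apply hc
    apply e.injective
    rw [map_zero, ← hE, hc0]
  have h1 : E * (g : Matrix (Fin n) (Fin n) F) =
      (Matrix.of fun i j => if i = σ j then a j else 0) * E := by
    apply Matrix.ext_of_mulVec_single
    intro j
    rw [← Matrix.mulVec_mulVec, ← Matrix.mulVec_mulVec, hE, hE]
    funext i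
    obtain ⟨k, rfl⟩ := σ.surjective i
    rw [hcoord]
    simp only [Matrix.mulVec, dotProduct, Matrix.of_apply]
    rw [Finset.sum_eq_single k]
    · rw [if_pos rfl]
    · intro l _ hlk
      rw [if_neg (fun h => hlk (σ.injective h.symm)), zero_mul]
    · intro h; exact absurd (Finset.mem_univ _) h
  have h2 : (Matrix.of fun i j => if i = σ j then a j else 0 : Matrix (Fin n) (Fin n) F) =
      (Matrix.diagonal a).submatrix σ.symm id := by
    ext i j
    rw [Matrix.of_apply, Matrix.submatrix_apply, id]
    by_cases h : i = σ j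
    · rw [if_pos h, h, Equiv.symm_apply_apply, Matrix.diagonal_apply_eq]
    · rw [if_neg h, Matrix.diagonal_apply_ne]
      intro h3
      exact h (by rw [← h3, Equiv.apply_symm_apply])
  have h3 := congrArg Matrix.det h1
  rw [Matrix.det_mul, Matrix.det_mul, h2, Matrix.det_permute, Matrix.det_diagonal, mul_comm] at h3
  have h4 := mul_right_cancel₀ hEdet h3
  rcases Int.units_eq_one_or (Equiv.Perm.sign σ.symm) with h5 | h5
  · left
    rw [h5] at h4
    simpa using h4.symm
  · right
    rw [h5] at h4
    rw [h4]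
    simp

end Cfsg.Agent.UCase
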