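import Mathlib
import Cfsg.Agent.UCase.F4
import Cfsg.Agent.UCase.LineCoord

set_option autoImplicit false
set_option linter.unusedSectionVars false
set_option linter.unusedVariables false

/-!
`SU_6(2)`: the monomial group is not maximal (it is contained in the stabiliser of a system of
126 isotropic points).
-/

namespace Cfsg.Agent.UCase

open scoped Matrix
open Cfsg.Geo Cfsg.Agent.Uni Cfsg.Agent.AschCases
open Matrix (GeneralLinearGroup)

namespace Six

open F4 Finset

/-- The number of non-zero coordinates. -/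
def cnt (a b c d e f : Fin 4) : ℕ :=
  (if a ≠ 0 then 1 else 0) + (if b ≠ 0 then 1 else 0) + (if c ≠ 0 then 1 else 0) +
  (if d ≠ 0 then 1 else 0) + (if e ≠ 0 then 1 else 0) + (if f ≠ 0 then 1 else 0)

/-- The test for vectors without zero coordinate. -/
def tst (a b c d e f : Fin 4) : Bool :=
  let s := sum6 a b c d e f
  decide (s = 0) || decide (cnt (ad a s) (ad b s) (ad c s) (ad d s) (ad e s) (ad f s) = 2) ||
    (decide (cnt (ad a s) (ad b s) (ad c s) (ad d s) (ad e s) (ad f s) = 6) &&
      decide (prod6 (ad a s) (ad b s) (ad c s) (ad d s) (ad e s) (ad f s) = 1))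

theorem tst_all : ∀ a b c d e f : Fin 4, a ≠ 0 → b ≠ 0 → c ≠ 0 → d ≠ 0 → e ≠ 0 → f ≠ 0 →
    prod6 a b c d e f = 1 → tst a b c d e f = true := by
  decide +kernel


variable {F : Type*} [Field F] [Fintype F]

/-- The system of vectors: two non-zero coordinates, or all coordinates non-zero with product
`1`. -/
def SS (y : Fin 6 → F) : Prop :=
  (∃ i j, i ≠ j ∧ y i ≠ 0 ∧ y j ≠ 0 ∧ ∀ k, k ≠ i → k ≠ j → y k = 0) ∨
    ((∀ i, y i ≠ 0) ∧ ∏ i, y i = 1)

theorem cnt_two {t : Fin 6 → Fin 4} (h : cnt (t 0) (t 1) (t 2) (t 3) (t 4) (t 5) = 2) :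
    ∃ i j, i ≠ j ∧ t i ≠ 0 ∧ t j ≠ 0 ∧ ∀ k, k ≠ i → k ≠ j → t k = 0 := by
  have h1 : (univ.filter (fun i => t i ≠ 0)).card = 2 := by
    rw [card_filter, Fin.sum_univ_six]
    exact h
  obtain ⟨i, j, hij, h2⟩ := Finset.card_eq_two.1 h1
  refine ⟨i, j, hij, ?_, ?_, ?_⟩
  · have : i ∈ univ.filter (fun i => t i ≠ 0) := by rw [h2]; simp
    exact (mem_filter.1 this).2
  · have : j ∈ univ.filter (fun i => t i ≠ 0) := by rw [h2]; simp
    exact (mem_filter.1 this).2
  · intro k hki hkj
    by_contra hk
    have : k ∈ univ.filter (fun i => t i ≠ 0) := mem_filter.2 ⟨mem_univ _, hk⟩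
    rw [h2] at this
    simp only [mem_insert, mem_singleton] at this
    rcases this with h | h
    · exact hki h
    · exact hkj h

theorem cnt_six {t : Fin 6 → Fin 4} (h : cnt (t 0) (t 1) (t 2) (t 3) (t 4) (t 5) = 6) :
    ∀ i, t i ≠ 0 := by
  have h1 : (univ.filter (fun i => t i ≠ 0)).card = 6 := by
    rw [card_filter, Fin.sum_univ_six]
    exact h
  have h2 : univ.filter (fun i => t i ≠ 0) = univ := by
    apply Finset.eq_univ_of_card
    rw [h1, Fintype.card_fin]
  intro i
  have : i ∈ univ.filter (fun i => t i ≠ 0) := by rw [h2]; exact mem_univ _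
  exact (mem_filter.1 this).2

theorem SS_T (hF : Fintype.card F = 2 ^ 2) {y : Fin 6 → F} (hy : SS y) {z : Fin 6 → F}
    (hz : ∀ i, z i = y i + ∑ j, y j) : SS z := by
  classical
  have h2 := four_two_eq_zero hF
  have h2' : ∀ x : F, x + x = 0 := fun x => by rw [← two_mul, h2, zero_mul]
  rcases hy with ⟨i, j, hij, hi, hj, hk⟩ | ⟨hne, hprod⟩
  · have hsum : ∑ k, y k = y i + y j := by
      rw [← Finset.sum_pair hij]
      symm
      apply Finset.sum_subset (subset_univ _)
      intro k _ hk'
      simp only [mem_insert, mem_singleton, not_or] at hk'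
      exact hk k hk'.1 hk'.2
    rw [hsum] at hz
    by_cases hs : y i = y j
    · left
      rw [hs, h2'] at hz
      refine ⟨i, j, hij, ?_, ?_, ?_⟩
      · rw [hz, add_zero]; exact hi
      · rw [hz, add_zero]; exact hj
      · intro k hki hkj
        rw [hz, add_zero]
        exact hk k hki hkj
    · right
      have hs' : y i + y j ≠ 0 := by
        intro h
        apply hs
        linear_combination h - y j * h2
      have ei : z i = y j := by rw [hz]; linear_combination h2' (y i)
      have ej : z j = y i := by rw [hz]; linear_combination h2' (y j)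
      have ek : ∀ k, k ≠ i → k ≠ j → z k = y i + y j := by
        intro k hki hkj
        rw [hz, hk k hki hkj, zero_add]
      constructor
      · intro k
        by_cases hki : k = i
        · rw [hki, ei]; exact hj
        · by_cases hkj : k = j
          · rw [hkj, ej]; exact hi
          · rw [ek k hki hkj]; exact hs'
      · rw [← Finset.mul_prod_erase univ _ (mem_univ i),
          ← Finset.mul_prod_erase (univ.erase i) _ (mem_erase.2 ⟨hij.symm, mem_univ j⟩), ei, ej]
        have h3 : ∏ k ∈ (univ.erase i).erase j, z k = (y i + y j) ^ 4 := by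
          have h4 : ((univ.erase i).erase j).card = 4 := by
            rw [card_erase_of_mem (mem_erase.2 ⟨hij.symm, mem_univ j⟩), card_erase_of_mem (mem_univ i),
              card_univ, Fintype.card_fin]
          rw [← h4, ← Finset.prod_const]
          refine Finset.prod_congr rfl fun k hk' => ?_
          rw [mem_erase, mem_erase] at hk'
          exact ek k hk'.2.1 hk'.1
        rw [h3]
        have h5 := four_pow_three hF hi
        have h6 := four_pow_three hF hj
        have h7 := four_pow_three hF hs'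
        have h8 : (y i + y j) * (y i ^ 2 + y i * y j + y j ^ 2) = 0 := by
          linear_combination h5 + h6 + (y i ^ 2 * y j + y i * y j ^ 2 + 1) * h2
        have h9 := (mul_eq_zero.1 h8).resolve_left hs'
        calc y j * (y i * (y i + y j) ^ 4) = y i * y j * (y i + y j) * (y i + y j) ^ 3 := by ring
          _ = y i * y j * (y i + y j) := by rw [h7, mul_one]
          _ = 1 := by linear_combination y j * h9 - h6 - h2
  · obtain ⟨w, hw⟩ := exists_w hF
    have hsurj := psi_surj (w := w) h2 hw (by rw [hF]; norm_num)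
    choose t ht using fun i => hsurj (y i)
    have ht0 : ∀ i, t i ≠ 0 := by
      intro i h
      apply hne i
      rw [← ht, h, psi_zero]
    have hprod' : prod6 (t 0) (t 1) (t 2) (t 3) (t 4) (t 5) = 1 := by
      apply psi_inj (w := w) h2 hw
      rw [psi_one, ← hprod, Fin.prod_univ_six]
      simp only [prod6, psi_ml h2 hw, ht]
      ring
    have hsum' : psi w (sum6 (t 0) (t 1) (t 2) (t 3) (t 4) (t 5)) = ∑ i, y i := by
      rw [Fin.sum_univ_six]
      simp only [sum6, psi_ad h2 hw, ht]
      ring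
    have htst := tst_all (t 0) (t 1) (t 2) (t 3) (t 4) (t 5) (ht0 0) (ht0 1) (ht0 2) (ht0 3) (ht0 4)
      (ht0 5) hprod'
    have hnew : ∀ i, z i = psi w (ad (t i) (sum6 (t 0) (t 1) (t 2) (t 3) (t 4) (t 5))) := by
      intro i
      rw [psi_ad h2 hw, ht, hsum', hz]
    simp only [tst, Bool.or_eq_true, Bool.and_eq_true, decide_eq_true_eq] at htst
    rcases htst with (h | h) | ⟨h, h'⟩
    · right
      rw [h, psi_zero] at hsum'
      have hzy : z = y := funext fun i => by rw [hz, ← hsum', add_zero]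
      rw [hzy]
      exact ⟨hne, hprod⟩
    · left
      obtain ⟨i, j, hij, hi, hj, hk⟩ := cnt_two
        (t := fun i => ad (t i) (sum6 (t 0) (t 1) (t 2) (t 3) (t 4) (t 5))) h
      refine ⟨i, j, hij, ?_, ?_, ?_⟩
      · rw [hnew]; exact fun h => hi ((psi_eq_zero h2 hw).1 h)
      · rw [hnew]; exact fun h => hj ((psi_eq_zero h2 hw).1 h)
      · intro k hki hkj
        rw [hnew, hk k hki hkj, psi_zero]
    · right
      have h6 := cnt_six (t := fun i => ad (t i) (sum6 (t 0) (t 1) (t 2) (t 3) (t 4) (t 5))) h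
      constructor
      · intro i
        rw [hnew]; exact fun h => h6 i ((psi_eq_zero h2 hw).1 h)
      · rw [Fin.prod_univ_six, hnew, hnew, hnew, hnew, hnew, hnew]
        have := congrArg (psi w) h'
        simp only [prod6, psi_ml h2 hw, psi_one] at this
        rw [← this]
        ring


/-- The subgroup preserving a set of vectors given by a coordinate predicate. -/
def KK (n : ℕ) (F : Type*) [Field F] [Fintype F] (q : ℕ) (S : (Fin n → F) → Prop) :
    Subgroup (GL (Fin n) F) where
  carrier := {g | g ∈ SG n F q ∧ ∀ x, S ((g : Matrix (Fin n) (Fin n) F) *ᵥ x) ↔ S x}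
  one_mem' := ⟨Subgroup.one_mem _, fun x => by rw [Units.val_one, Matrix.one_mulVec]⟩
  mul_mem' := by
    rintro a b ⟨ha, ha'⟩ ⟨hb, hb'⟩
    refine ⟨Subgroup.mul_mem _ ha hb, fun x => ?_⟩
    rw [Units.val_mul, ← Matrix.mulVec_mulVec, ha', hb']
  inv_mem' := by
    rintro a ⟨ha, ha'⟩
    refine ⟨Subgroup.inv_mem _ ha, fun x => ?_⟩
    rw [← ha', Matrix.mulVec_mulVec, ← Units.val_mul, mul_inv_cancel, Units.val_one,
      Matrix.one_mulVec]

theorem mem_KK {n : ℕ} {q : ℕ} {S : (Fin n → F) → Prop} {g : GL (Fin n) F} :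
    g ∈ KK n F q S ↔ g ∈ SG n F q ∧ ∀ x, S ((g : Matrix (Fin n) (Fin n) F) *ᵥ x) ↔ S x := Iff.rfl

/-- The monomial group of `SU_6(2)` is not maximal. -/
theorem monomial_six (hF : Fintype.card F = 2 ^ 2) {D : Fin 6 → Submodule F (Fin 6 → F)}
    (hD : IsNondegenerateMDecomposition (hermForm 6 F 2) 1 D) :
    ∃ K : Subgroup (GL (Fin 6) F), decompositionStabilizer D ⊓ SG 6 F 2 < K ∧ K < SG 6 F 2 := by
  have h2 := four_two_eq_zero hF
  have h2' : ∀ x : F, x + x = 0 := fun x => by rw [← two_mul, h2, zero_mul]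
  have hone : (1 : F) ^ 2 = -1 := by
    rw [one_pow]; exact eq_neg_of_add_eq_zero_left (h2' 1)
  obtain ⟨u, e, hu, hDu, he1, he2, he3, hmon⟩ := exists_line_coords hF hD
  let S : (Fin 6 → F) → Prop := fun x => SS (e x)
  -- monomial elements preserve `S` in one direction
  have hmon' : ∀ g ∈ decompositionStabilizer D ⊓ SG 6 F 2, ∀ x, S x →
      S ((g : Matrix (Fin 6) (Fin 6) F) *ᵥ x) := by
    rintro g ⟨hg, hgS⟩ x hx
    obtain ⟨σ, a, ha, hga, hdet⟩ := hmon g hg
    have hprod : ∏ i, a i = 1 := by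
      rw [mem_specialLinear.1 hgS.2] at hdet
      rcases hdet with h | h
      · exact h
      · rw [h]; rw [one_pow] at hone; exact hone.symm
    rcases hx with ⟨i, j, hij, hi, hj, hk⟩ | ⟨hne, hpr⟩
    · left
      refine ⟨σ i, σ j, fun h => hij (σ.injective h), ?_, ?_, ?_⟩
      · rw [hga]; exact mul_ne_zero (ha i) hi
      · rw [hga]; exact mul_ne_zero (ha j) hj
      · intro k hki hkj
        obtain ⟨l, rfl⟩ := σ.surjective k
        rw [hga, hk l (fun h => hki (by rw [h])) (fun h => hkj (by rw [h])), mul_zero]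
    · right
      constructor
      · intro k
        obtain ⟨l, rfl⟩ := σ.surjective k
        rw [hga]; exact mul_ne_zero (ha l) (hne l)
      · rw [← Equiv.prod_comp σ, Finset.prod_congr rfl fun i _ => hga x i, Finset.prod_mul_distrib,
          hprod, hpr, one_mul]
  -- isotropic vectors
  have hiso : ∀ c : Fin 6 → F, (∀ i, c i = 0 ∨ c i = 1) → (∑ i, c i = 0) →
      hermForm 6 F 2 (∑ i, c i • u i) (∑ i, c i • u i) = 0 ∧
      ∀ x, hermForm 6 F 2 x (∑ i, c i • u i) = ∑ i, e x i * c i := by
    intro c hc hsum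
    have hec : e (∑ i, c i • u i) = c := by
      rw [map_sum]
      funext j
      rw [Finset.sum_apply, Finset.sum_eq_single j]
      · rw [map_smul, Pi.smul_apply, he1, Pi.single_eq_same, smul_eq_mul, mul_one]
      · intro i _ hij
        rw [map_smul, Pi.smul_apply, he1, Pi.single_eq_of_ne hij.symm, smul_zero]
      · intro h; exact absurd (Finset.mem_univ _) h
    have hcc : ∀ i, c i ^ 2 = c i := by
      intro i
      rcases hc i with h | h <;> rw [h] <;> norm_num
    constructor
    · rw [he3, hec, ← hsum]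
      refine Finset.sum_congr rfl fun i _ => ?_
      rw [hcc]
      rcases hc i with h | h <;> rw [h] <;> norm_num
    · intro x
      rw [he3, hec]
      exact Finset.sum_congr rfl fun i _ => by rw [hcc]
  refine ⟨KK 6 F 2 S, ?_, ?_⟩
  · -- the monomial group is properly contained in `K`
    have hle : decompositionStabilizer D ⊓ SG 6 F 2 ≤ KK 6 F 2 S := by
      intro g hg
      refine mem_KK.2 ⟨hg.2, fun x => ⟨fun h => ?_, hmon' g hg x⟩⟩
      have h1 := hmon' g⁻¹ (Subgroup.inv_mem _ hg) _ h
      rwa [Matrix.mulVec_mulVec, ← Units.val_mul, inv_mul_cancel, Units.val_one,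
        Matrix.one_mulVec] at h1
    refine lt_of_le_of_ne hle fun heq => ?_
    obtain ⟨hw1, hw2⟩ := hiso (fun _ => 1) (fun _ => Or.inr rfl) (by
      rw [Fin.sum_univ_six]; linear_combination (3 : F) * h2)
    obtain ⟨g, hg, hgx⟩ := exists_transv_SG (c := 1) hF hw1 hone
    have hge : ∀ x i, e ((g : Matrix (Fin 6) (Fin 6) F) *ᵥ x) i = e x i + ∑ j, e x j := by
      intro x i
      rw [hgx, map_add, Pi.add_apply, map_smul, Pi.smul_apply, one_mul, hw2]
      have : e (∑ i, (1 : F) • u i) i = 1 := by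
        rw [map_sum, Finset.sum_apply, Finset.sum_eq_single i]
        · rw [map_smul, Pi.smul_apply, he1, Pi.single_eq_same, smul_eq_mul, mul_one]
        · intro j _ hij
          rw [map_smul, Pi.smul_apply, he1, Pi.single_eq_of_ne hij.symm, smul_zero]
        · intro h; exact absurd (Finset.mem_univ _) h
      rw [this, smul_eq_mul, mul_one]
      congr 1
      exact Finset.sum_congr rfl fun j _ => mul_one _
    have hgS : ∀ x, S x → S ((g : Matrix (Fin 6) (Fin 6) F) *ᵥ x) := fun x hx =>
      SS_T hF hx (hge x)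
    have hgg : ∀ x, (g : Matrix (Fin 6) (Fin 6) F) *ᵥ ((g : Matrix (Fin 6) (Fin 6) F) *ᵥ x) = x := by
      intro x
      apply e.injective
      funext i
      rw [hge, hge, Finset.sum_congr rfl fun j _ => hge x j, Finset.sum_add_distrib,
        Finset.sum_const, Finset.card_univ, Fintype.card_fin]
      rw [nsmul_eq_mul]
      push_cast
      linear_combination (4 * ∑ j, e x j) * h2
    have hgK : g ∈ KK 6 F 2 S := by
      refine mem_KK.2 ⟨hg, fun x => ⟨fun h => ?_, hgS x⟩⟩
      have := hgS _ h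
      rwa [hgg] at this
    rw [← heq] at hgK
    obtain ⟨σ, a, ha, hga, -⟩ := hmon g hgK.1
    have h3 := hge (u 0) 
    rw [he1] at h3
    have h4 : ∀ i, e ((g : Matrix (Fin 6) (Fin 6) F) *ᵥ u 0) i =
        (Pi.single 0 1 : Fin 6 → F) i + 1 := by
      intro i
      rw [h3, Finset.sum_pi_single']
      simp
    have h5 : ∀ i, i ≠ σ 0 → e ((g : Matrix (Fin 6) (Fin 6) F) *ᵥ u 0) i = 0 := by
      intro i hi
      obtain ⟨k, rfl⟩ := σ.surjective i
      rw [hga, he1, Pi.single_eq_of_ne (fun h => hi (by rw [h])), mul_zero]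
    have h6 : ∃ i : Fin 6, i ≠ 0 ∧ i ≠ σ 0 := by
      generalize σ 0 = k
      revert k; decide
    obtain ⟨i, hi0, hiσ⟩ := h6
    have h7 := h4 i
    rw [h5 i hiσ, Pi.single_eq_of_ne hi0, zero_add] at h7
    exact zero_ne_one h7
  · -- `K` is proper
    refine lt_of_le_of_ne (fun g hg => hg.1) fun heq => ?_
    obtain ⟨hw1, hw2⟩ := hiso ![1, 1, 1, 1, 0, 0] (fun i => by fin_cases i <;> simp) (by
      rw [Fin.sum_univ_six]
      change (1 : F) + 1 + 1 + 1 + 0 + 0 = 0
      linear_combination (2 : F) * h2)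
    obtain ⟨g, hg, hgx⟩ := exists_transv_SG (c := 1) hF hw1 hone
    rw [← heq] at hg
    have hx : S (u 0 + u 4) := by
      left
      refine ⟨0, 4, by decide, ?_, ?_, ?_⟩
      · rw [map_add, he1, he1]; simp
      · rw [map_add, he1, he1]; simp
      · intro k hk0 hk4
        rw [map_add, he1, he1, Pi.add_apply, Pi.single_eq_of_ne hk0, Pi.single_eq_of_ne hk4, add_zero]
    have h3 := (hg.2 _).2 hx
    have h4 : ∀ i, e ((g : Matrix (Fin 6) (Fin 6) F) *ᵥ (u 0 + u 4)) i =
        (![0, 1, 1, 1, 1, 0] : Fin 6 → F) i := by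
      intro i
      rw [hgx, map_add, map_smul, one_mul, hw2, map_sum, map_add, he1, he1]
      simp only [map_smul, he1, Fin.sum_univ_six]
      fin_cases i <;> simp
      exact h2' 1
    have h5 : e ((g : Matrix (Fin 6) (Fin 6) F) *ᵥ (u 0 + u 4)) =
        (![0, 1, 1, 1, 1, 0] : Fin 6 → F) := funext h4
    change SS (e _) at h3
    rw [h5] at h3
    rcases h3 with ⟨i, j, -, -, -, hk⟩ | ⟨hne, -⟩
    · have h6 : ∀ i j : Fin 6, ∃ k, k ≠ i ∧ k ≠ j ∧ (k = 1 ∨ k = 2 ∨ k = 3) := by decide
      obtain ⟨k, hki, hkj, hk'⟩ := h6 i j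
      have h7 := hk k hki hkj
      rcases hk' with rfl | rfl | rfl
      · exact one_ne_zero h7
      · exact one_ne_zero h7
      · exact one_ne_zero h7
    · exact hne 0 rfl

end Six

end Cfsg.Agent.UCase
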