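import Mathlib
import Cfsg.Agent.UCase.Six

set_option autoImplicit false
set_option linter.unusedSectionVars false
set_option linter.unusedVariables false

/-!
Involutions in `SU_3(q)`.
-/

namespace Cfsg.Agent.UCase

open scoped Matrix
open Cfsg.Geo Cfsg.Agent.Uni Cfsg.Agent.AschCases
open Matrix (GeneralLinearGroup)

variable {F : Type*} [Field F] [Fintype F] {q : ℕ}

/-- The involution attached to a non-isotropic vector. -/
theorem exists_refl3 (hF : Fintype.card F = q ^ 2) {v : Fin 3 → F} (hv : hermForm 3 F q v v ≠ 0) :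
    ∃ g ∈ SG 3 F q, ∀ x, (g : Matrix (Fin 3) (Fin 3) F) *ᵥ x =
      (2 * hermForm 3 F q x v / hermForm 3 F q v v) • v - x := by
  have hvq := hermForm_self_pow_q hF v
  let c : F := 2 / hermForm 3 F q v v
  have hcv : c * hermForm 3 F q v v = 2 := div_mul_cancel₀ _ hv
  have h2q : (2 : F) ^ q = 2 := by
    have := map_ofNat (conjHom hF) 2
    simpa using this
  have hcq : c ^ q = c := by
    simp only [c]
    rw [div_pow, hvq, h2q]
  let M : Matrix (Fin 3) (Fin 3) F := Matrix.of fun i j => c * (v i * v j ^ q) - if i = j then 1 else 0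
  have hM : ∀ x, M *ᵥ x = (c * hermForm 3 F q x v) • v - x := by
    intro x
    funext i
    simp only [M, Matrix.mulVec, dotProduct, Matrix.of_apply, Pi.sub_apply, Pi.smul_apply, smul_eq_mul]
    rw [Finset.sum_congr rfl fun j _ => sub_mul _ _ (x j), Finset.sum_sub_distrib]
    congr 1
    · rw [← dot_pow, dotProduct, Finset.mul_sum, Finset.sum_mul]
      exact Finset.sum_congr rfl fun j _ => by ring
    · simp
  have hpres : Pres q M := by
    intro x y
    rw [hM, hM, sub_eq_add_neg, sub_eq_add_neg, hermForm_add_left, hermForm_add_right hF,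
      hermForm_add_right hF, hermForm_smul_left, hermForm_smul_right, hermForm_smul_left,
      hermForm_neg_right hF, hermForm_neg_right hF]
    have e1 : ∀ z, hermForm 3 F q (-x) z = - hermForm 3 F q x z := by
      intro z
      have := hermForm_smul_left (q := q) (-1 : F) x z
      rw [neg_one_smul] at this
      rw [this]; ring
    rw [e1, e1, hermForm_smul_right, mul_pow, hcq, ← hermForm_symm hF y v]
    linear_combination (c * hermForm 3 F q x v * hermForm 3 F q y v ^ q) * hcv
  have hdet : M.det = 1 := by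
    have h1 : c * (v 0 * v 0 ^ q + v 1 * v 1 ^ q + v 2 * v 2 ^ q) = 2 := by
      rw [← hcv, ← dot_pow, dotProduct, Fin.sum_univ_three]
      ring
    rw [Matrix.det_fin_three]
    simp only [M, Matrix.of_apply]
    simp only [Fin.isValue, ↓reduceIte, show (0 : Fin 3) ≠ 1 by decide, show (0 : Fin 3) ≠ 2 by decide,
      show (1 : Fin 3) ≠ 0 by decide, show (1 : Fin 3) ≠ 2 by decide, show (2 : Fin 3) ≠ 0 by decide,
      show (2 : Fin 3) ≠ 1 by decide, sub_zero]
    linear_combination h1
  refine ⟨suHom 3 F q (mkSU M hpres hdet), suHom_mem _, fun x => ?_⟩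
  rw [suHom_coe, mkSU_coe, hM]
  congr 2
  simp only [c]
  ring

/-- A subgroup given by a set of vectors, from one inclusion. -/
theorem mem_KK_of_forward {n : ℕ} {S : (Fin n → F) → Prop} {g : GL (Fin n) F} (hg : g ∈ SG n F q)
    (h : ∀ x, S x → S ((g : Matrix (Fin n) (Fin n) F) *ᵥ x)) : g ∈ Six.KK n F q S := by
  classical
  refine Six.mem_KK.2 ⟨hg, fun x => ⟨fun hx => ?_, h x⟩⟩
  have hpow : ∀ (k : ℕ) y, S y → S (((g ^ k : GL (Fin n) F) : Matrix (Fin n) (Fin n) F) *ᵥ y) := by
    intro k
    induction k with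
    | zero => intro y hy; rwa [pow_zero, Units.val_one, Matrix.one_mulVec]
    | succ k ih =>
      intro y hy
      rw [pow_succ', Units.val_mul, ← Matrix.mulVec_mulVec]
      exact h _ (ih y hy)
  have h1 := hpow (orderOf g - 1) _ hx
  rw [Matrix.mulVec_mulVec, ← Units.val_mul, ← pow_succ] at h1
  have h2 : orderOf g - 1 + 1 = orderOf g := Nat.sub_add_cancel (orderOf_pos g)
  rwa [h2, pow_orderOf_eq_one, Units.val_one, Matrix.one_mulVec] at h1

end Cfsg.Agent.UCase
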