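import Mathlib
import Cfsg.Agent.UCase.Refl3

set_option autoImplicit false
set_option linter.unusedSectionVars false
set_option linter.unusedVariables false

/-!
A decidable model of the field with twenty-five elements.
-/

namespace Cfsg.Agent.UCase

open Cfsg.Agent.Uni

namespace F25

/-- Addition. -/
def ad (x y : ℕ) : ℕ := (x % 5 + y % 5) % 5 + 5 * ((x / 5 + y / 5) % 5)

/-- Multiplication. -/
def ml (x y : ℕ) : ℕ :=
  ((x % 5) * (y % 5) + 2 * ((x / 5) * (y / 5))) % 5 + 5 * (((x % 5) * (y / 5) + (x / 5) * (y % 5)) % 5)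

/-- Conjugation. -/
def cj (x : ℕ) : ℕ := x % 5 + 5 * ((4 * (x / 5)) % 5)

theorem ad_lt (x y : ℕ) : ad x y < 25 := by unfold ad; omega
theorem ml_lt (x y : ℕ) : ml x y < 25 := by
  unfold ml
  have h1 := Nat.mod_lt ((x % 5) * (y % 5) + 2 * ((x / 5) * (y / 5))) (show 0 < 5 by norm_num)
  have h2 := Nat.mod_lt ((x % 5) * (y / 5) + (x / 5) * (y % 5)) (show 0 < 5 by norm_num)
  omega
theorem cj_lt (x : ℕ) : cj x < 25 := by unfold cj; omega

variable {F : Type*} [Field F]

/-- The identification. -/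
def psi (θ : F) (x : ℕ) : F := ((x % 5 : ℕ) : F) + ((x / 5 : ℕ) : F) * θ

theorem psi_zero (θ : F) : psi θ 0 = 0 := by simp [psi]
theorem psi_one (θ : F) : psi θ 1 = 1 := by simp [psi]

theorem castmod (h5 : (5 : F) = 0) (n : ℕ) : ((n % 5 : ℕ) : F) = (n : F) := by
  conv_rhs => rw [← Nat.div_add_mod n 5]
  push_cast
  rw [h5, zero_mul, zero_add]

variable {θ : F} (h5 : (5 : F) = 0) (hθ : θ * θ = 2)

theorem psi_mk (θ : F) {a b : ℕ} (ha : a < 5) : psi θ (a + 5 * b) = (a : F) + (b : F) * θ := by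
  unfold psi
  have h1 : (a + 5 * b) % 5 = a := by omega
  have h2 : (a + 5 * b) / 5 = b := by omega
  rw [h1, h2]

include h5

theorem psi_ad (x y : ℕ) : psi θ (ad x y) = psi θ x + psi θ y := by
  unfold ad
  rw [psi_mk θ (Nat.mod_lt _ (by norm_num)), castmod h5, castmod h5]
  unfold psi
  push_cast
  rw [castmod h5, castmod h5]
  ring

include hθ

theorem psi_ml (x y : ℕ) : psi θ (ml x y) = psi θ x * psi θ y := by
  unfold ml
  rw [psi_mk θ (Nat.mod_lt _ (by norm_num)), castmod h5, castmod h5]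
  unfold psi
  push_cast
  rw [castmod h5, castmod h5]
  linear_combination (-((x / 5 : ℕ) : F) * ((y / 5 : ℕ) : F)) * hθ

theorem psi_cj [Fintype F] (hF : Fintype.card F = 5 ^ 2) (x : ℕ) : psi θ (cj x) = psi θ x ^ 5 := by
  have hθ5 : θ ^ 5 = 4 * θ := by
    calc θ ^ 5 = (θ * θ) * (θ * θ) * θ := by ring
      _ = 4 * θ := by rw [hθ]; ring
  have hn : ∀ n : ℕ, (n : F) ^ 5 = n := fun n => map_natCast (conjHom hF) n
  unfold cj
  rw [psi_mk θ (Nat.mod_lt _ (by norm_num)), castmod h5, castmod h5]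
  unfold psi
  rw [add_pow_q hF, mul_pow, hn, hn, hθ5, castmod h5]
  push_cast
  ring

omit h5 hθ in
/-- The smallest prime-field relations. -/
theorem cast_ne_zero_of_lt (h5 : (5 : F) = 0) {a : ℕ} (ha : a < 5) (h : (a : F) = 0) : a = 0 := by
  interval_cases a
  · rfl
  · exact absurd (by simpa using h) (one_ne_zero (α := F))
  · exfalso
    apply one_ne_zero (α := F)
    push_cast at h
    linear_combination h5 - 2 * h
  · exfalso
    apply one_ne_zero (α := F)
    push_cast at h
    linear_combination 2 * h - h5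
  · exfalso
    apply one_ne_zero (α := F)
    push_cast at h
    linear_combination h5 - h

theorem psi_eq_zero {x : ℕ} (hx : x < 25) (h : psi θ x = 0) : x = 0 := by
  unfold psi at h
  have hb : x / 5 = 0 := by
    by_contra hb
    -- `θ` would be in the prime field
    have h1 : (((x % 5) * (x % 5) + 3 * ((x / 5) * (x / 5))) % 5 : ℕ) = 0 := by
      apply cast_ne_zero_of_lt h5 (Nat.mod_lt _ (by norm_num))
      rw [castmod h5]
      push_cast
      linear_combination (((x % 5 : ℕ) : F) - ((x / 5 : ℕ) : F) * θ) * h +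
        ((x / 5 : ℕ) : F) ^ 2 * hθ + ((x / 5 : ℕ) : F) ^ 2 * h5
    have h2 : x % 5 < 5 := Nat.mod_lt _ (by norm_num)
    have h3 : x / 5 < 5 := by omega
    generalize x % 5 = a at *
    generalize x / 5 = b at *
    interval_cases a <;> interval_cases b <;> simp_all
  rw [hb, Nat.cast_zero, zero_mul, add_zero] at h
  have := cast_ne_zero_of_lt h5 (Nat.mod_lt _ (by norm_num)) h
  omega

omit h5 hθ in
theorem sub_eq : ∀ x < 25, ∀ y < 25, ad x (ml 4 y) = 0 → x = y := by
  decide +kernel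

theorem psi_inj {x y : ℕ} (hx : x < 25) (hy : y < 25) (h : psi θ x = psi θ y) : x = y := by
  have h1 : psi θ (ad x (ml 4 y)) = 0 := by
    rw [psi_ad h5, psi_ml h5 hθ, h]
    have : psi θ 4 = 4 := by simp [psi]
    rw [this]
    linear_combination psi θ y * h5
  have h2 := psi_eq_zero h5 hθ (ad_lt _ _) h1
  exact sub_eq x hx y hy h2

theorem psi_eq_iff {x y : ℕ} (hx : x < 25) (hy : y < 25) : psi θ x = psi θ y ↔ x = y :=
  ⟨psi_inj h5 hθ hx hy, fun h => by rw [h]⟩

theorem psi_surj [Fintype F] (hF : Fintype.card F = 5 ^ 2) (z : F) : ∃ x < 25, psi θ x = z := by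
  let φ : Fin 25 → F := fun i => psi θ i.1
  have : Function.Bijective φ := by
    rw [Fintype.bijective_iff_injective_and_card]
    refine ⟨fun i j hij => Fin.ext (psi_inj h5 hθ i.2 j.2 hij), by rw [Fintype.card_fin, hF]; norm_num⟩
  obtain ⟨i, hi⟩ := this.2 z
  exact ⟨i.1, i.2, hi⟩

omit h5 hθ in
theorem five_eq_zero [Fintype F] (hF : Fintype.card F = 5 ^ 2) : (5 : F) = 0 := by
  have h1 : ((Fintype.card F : ℕ) : F) = 0 := Nat.cast_card_eq_zero F
  rw [hF] at h1
  have h2 : (5 : F) ^ 2 = 0 := by exact_mod_cast h1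
  exact pow_eq_zero_iff (by norm_num) |>.1 h2

omit h5 hθ in
theorem exists_theta [Fintype F] (hF : Fintype.card F = 5 ^ 2) : ∃ θ : F, θ * θ = 2 := by
  have h5 := five_eq_zero hF
  have h2 : (2 : F) ≠ 0 := by
    intro h
    have := cast_ne_zero_of_lt h5 (a := 2) (by norm_num) (by exact_mod_cast h)
    omega
  have hch : ringChar F ≠ 2 := by
    intro h
    have : ((2 : ℕ) : F) = 0 := by rw [← h]; exact ringChar.Nat.cast_ringChar
    exact h2 (by exact_mod_cast this)
  have h3 := (FiniteField.isSquare_iff hch h2).2 (by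
    rw [hF]
    norm_num
    linear_combination (819 : F) * h5)
  obtain ⟨θ, hθ⟩ := h3
  exact ⟨θ, hθ.symm⟩

end F25

end Cfsg.Agent.UCase
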