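import Mathlib
import Cfsg.Agent.UCase.Red

set_option autoImplicit false
set_option linter.unusedSectionVars false
set_option linter.unusedVariables false

/-!
Arithmetic consequences of the data of class 6, unitary case.
-/

namespace Cfsg.Agent.UCase

open scoped Matrix
open Cfsg.Geo Cfsg.Agent.Uni Cfsg.Agent.AschCases
open Matrix (GeneralLinearGroup)

variable {F : Type*} [Field F] [Fintype F] {q n : ℕ}

theorem q_of_minimal (hF : Fintype.card F = q ^ 2) {z p e : ℕ} (h : IsMinimalFieldFor z p e F) :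
    ∃ a, 0 < a ∧ e = 2 * a ∧ q = p ^ a := by
  obtain ⟨hp, hchar, hcard, hdvd, hmin⟩ := h
  have h1 : q ^ 2 = p ^ e := by rw [← hF, hcard]
  have h2 : q ∣ p ^ e := by rw [← h1]; exact dvd_pow_self q (by norm_num)
  obtain ⟨a, -, ha⟩ := (Nat.dvd_prime_pow hp).1 h2
  rw [ha, ← pow_mul] at h1
  have h3 : a * 2 = e := Nat.pow_right_injective hp.two_le h1
  refine ⟨a, ?_, by omega, ha⟩
  rcases Nat.eq_zero_or_pos a with rfl | h
  · have := two_le_q hF
    rw [ha, pow_zero] at this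
    omega
  · exact h

theorem class6_uni (hF : Fintype.card F = q ^ 2) {r p e : ℕ} (hr : r.Prime) (hrp : r ≠ p)
    (h : IsMinimalFieldFor r p e F) : p.Prime ∧ CharP F p ∧ ∃ a, 0 < a ∧ q = p ^ a ∧
      2 * a ∣ r - 1 ∧ p ^ (2 * a) % r = 1 ∧ ∀ d, 0 < d → d < 2 * a → p ^ d % r ≠ 1 := by
  obtain ⟨a, ha, rfl, hq⟩ := q_of_minimal hF h
  obtain ⟨-, h2, h3, h4⟩ := minimalField_arith hr hrp h
  exact ⟨h.1, h.2.1, a, ha, hq, h2, h3, h4⟩

theorem class6_uni_three (hF : Fintype.card F = q ^ 2) {p e : ℕ} (hrp : 3 ≠ p)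
    (h : IsMinimalFieldFor 3 p e F) : p.Prime ∧ q = p ∧ p % 3 = 2 := by
  obtain ⟨hp, hchar, a, ha, hq, h2, h3, h4⟩ := class6_uni hF Nat.prime_three hrp h
  have h5 : 2 * a ≤ 2 := Nat.le_of_dvd (by norm_num) h2
  obtain rfl : a = 1 := by omega
  rw [pow_one] at hq
  refine ⟨hp, hq, ?_⟩
  have h6 := h4 1 (by norm_num) (by norm_num)
  rw [pow_one] at h6
  rw [Nat.pow_mod] at h3
  have h7 : p % 3 < 3 := Nat.mod_lt _ (by norm_num)
  generalize p % 3 = x at *
  interval_cases x <;> simp_all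

theorem class6_uni_five (hF : Fintype.card F = q ^ 2) {p e : ℕ} (hrp : 5 ≠ p)
    (h : IsMinimalFieldFor 5 p e F) : p.Prime ∧ CharP F p ∧
      ((q = p ∧ p % 5 = 4) ∨ (q = p ^ 2 ∧ (p % 5 = 2 ∨ p % 5 = 3))) := by
  obtain ⟨hp, hchar, a, ha, hq, h2, h3, h4⟩ := class6_uni hF Nat.prime_five hrp h
  have h5 : 2 * a ≤ 4 := Nat.le_of_dvd (by norm_num) h2
  have h6 := h4 1 (by norm_num) (by omega)
  rw [pow_one] at h6
  refine ⟨hp, hchar, ?_⟩
  have h7 : p % 5 < 5 := Nat.mod_lt _ (by norm_num)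
  have h8 : a = 1 ∨ a = 2 := by omega
  rcases h8 with rfl | rfl
  · left
    rw [pow_one] at hq
    refine ⟨hq, ?_⟩
    rw [Nat.pow_mod] at h3
    generalize p % 5 = x at *
    interval_cases x <;> simp_all
  · right
    refine ⟨hq, ?_⟩
    have h9 := h4 2 (by norm_num) (by norm_num)
    rw [Nat.pow_mod] at h3 h9
    generalize p % 5 = x at *
    interval_cases x <;> simp_all

theorem class6_uni_seven (hF : Fintype.card F = q ^ 2) {p e : ℕ} (hrp : 7 ≠ p)
    (h : IsMinimalFieldFor 7 p e F) : p.Prime ∧ CharP F p ∧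
      ((q = p ∧ p % 7 = 6) ∨ (q = p ^ 3 ∧ (p % 7 = 3 ∨ p % 7 = 5))) := by
  obtain ⟨hp, hchar, a, ha, hq, h2, h3, h4⟩ := class6_uni hF (by norm_num) hrp h
  have h5 : 2 * a ≤ 6 := Nat.le_of_dvd (by norm_num) h2
  have h6 := h4 1 (by norm_num) (by omega)
  rw [pow_one] at h6
  refine ⟨hp, hchar, ?_⟩
  have h7 : p % 7 < 7 := Nat.mod_lt _ (by norm_num)
  have h8 : a = 1 ∨ a = 3 := by
    have : a = 1 ∨ a = 2 ∨ a = 3 := by omega
    rcases this with rfl | rfl | rfl
    · exact Or.inl rfl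
    · exact absurd h2 (by norm_num)
    · exact Or.inr rfl
  rcases h8 with rfl | rfl
  · left
    rw [pow_one] at hq
    refine ⟨hq, ?_⟩
    rw [Nat.pow_mod] at h3
    generalize p % 7 = x at *
    interval_cases x <;> simp_all
  · right
    refine ⟨hq, ?_⟩
    have h9 := h4 2 (by norm_num) (by norm_num)
    have h10 := h4 3 (by norm_num) (by norm_num)
    rw [Nat.pow_mod] at h3 h9 h10
    generalize p % 7 = x at *
    interval_cases x <;> simp_all

theorem class6_uni_eleven (hF : Fintype.card F = q ^ 2) {p e : ℕ} (hrp : 11 ≠ p)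
    (h : IsMinimalFieldFor 11 p e F) : p.Prime ∧ CharP F p ∧
      ((q = p ∧ p % 11 = 10) ∨
        (q = p ^ 5 ∧ (p % 11 = 2 ∨ p % 11 = 6 ∨ p % 11 = 7 ∨ p % 11 = 8))) := by
  obtain ⟨hp, hchar, a, ha, hq, h2, h3, h4⟩ := class6_uni hF (by norm_num) hrp h
  have h5 : 2 * a ≤ 10 := Nat.le_of_dvd (by norm_num) h2
  have h6 := h4 1 (by norm_num) (by omega)
  rw [pow_one] at h6
  refine ⟨hp, hchar, ?_⟩
  have h7 : p % 11 < 11 := Nat.mod_lt _ (by norm_num)
  have h8 : a = 1 ∨ a = 5 := by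
    have : a = 1 ∨ a = 2 ∨ a = 3 ∨ a = 4 ∨ a = 5 := by omega
    rcases this with rfl | rfl | rfl | rfl | rfl
    · exact Or.inl rfl
    · exact absurd h2 (by norm_num)
    · exact absurd h2 (by norm_num)
    · exact absurd h2 (by norm_num)
    · exact Or.inr rfl
  rcases h8 with rfl | rfl
  · left
    rw [pow_one] at hq
    refine ⟨hq, ?_⟩
    rw [Nat.pow_mod] at h3
    generalize p % 11 = x at *
    interval_cases x <;> simp_all
  · right
    refine ⟨hq, ?_⟩
    have h9 := h4 2 (by norm_num) (by norm_num)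
    have h10 := h4 5 (by norm_num) (by norm_num)
    rw [Nat.pow_mod] at h3 h9 h10
    generalize p % 11 = x at *
    interval_cases x <;> simp_all

theorem class6_uni_two (hF : Fintype.card F = q ^ 2) {p e : ℕ} (he : e = 2)
    (h : IsMinimalFieldFor 4 p e F) : p.Prime ∧ q = p ∧ p % 4 = 3 := by
  obtain ⟨a, ha, he', hq⟩ := q_of_minimal hF h
  obtain rfl : a = 1 := by omega
  obtain ⟨hp, hchar, hcard, hdvd, hmin⟩ := h
  rw [pow_one] at hq
  refine ⟨hp, hq, ?_⟩
  subst he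
  have h1 := hmin 1 (by norm_num) (by norm_num)
  rw [pow_one] at h1
  have h2 : 1 ≤ p := hp.pos
  have h3 : 1 ≤ p ^ 2 := Nat.one_le_pow _ _ hp.pos
  have h4 : p ^ 2 % 4 = 1 := by omega
  rw [Nat.pow_mod] at h4
  have h5 : p % 4 ≠ 1 := by omega
  have h7 : p % 4 < 4 := Nat.mod_lt _ (by norm_num)
  clear h1 h2 h3 hmin hdvd hcard hchar hq he' hF ha
  generalize p % 4 = x at h4 h5 h7 ⊢
  interval_cases x
  · exact absurd h4 (by norm_num)
  · exact absurd rfl h5
  · exact absurd h4 (by norm_num)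
  · rfl

/-- For `r` odd dividing `q + 1`, an `r`-subgroup of the similarity group consists of
isometries. -/
theorem le_GU_of_similarity (hF : Fintype.card F = q ^ 2) (hn : 0 < n) {r : ℕ}
    {R : Subgroup (GL (Fin n) F)} (hexp : Monoid.exponent R = r) (hr : r.Coprime (q - 1))
    (hR : R ≤ similarityGroup (hermForm n F q)) : R ≤ GU n F q := by
  intro x hx
  obtain ⟨c, hc⟩ := hR hx
  let i0 : Fin n := ⟨0, hn⟩
  have h1 : hermForm n F q (Pi.single i0 1) (Pi.single i0 1) = 1 := by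
    rw [hermForm_single_left, Pi.single_eq_same, one_pow]
  have hcq : (c : F) ^ q = c := by
    have h2 := hc (Pi.single i0 1) (Pi.single i0 1)
    rw [h1, mul_one] at h2
    rw [← h2]
    exact hermForm_symm hF _ _
  have hpow : ∀ (k : ℕ) (u v : Fin n → F), hermForm n F q
      (((x ^ k : GL (Fin n) F) : Matrix (Fin n) (Fin n) F) *ᵥ u)
      (((x ^ k : GL (Fin n) F) : Matrix (Fin n) (Fin n) F) *ᵥ v) = (c : F) ^ k * hermForm n F q u v := by
    intro k
    induction k with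
    | zero => intro u v; simp
    | succ k ih =>
      intro u v
      rw [pow_succ, Units.val_mul, ← Matrix.mulVec_mulVec, ← Matrix.mulVec_mulVec, ih, hc, ← mul_assoc,
        ← pow_succ]
  have hxr : x ^ r = 1 := by
    have := Monoid.pow_exponent_eq_one (⟨x, hx⟩ : R)
    rw [hexp] at this
    exact congrArg (fun y : R => (y : GL (Fin n) F)) this
  have hcr : (c : F) ^ r = 1 := by
    have h2 := hpow r (Pi.single i0 1) (Pi.single i0 1)
    rw [hxr, h1, mul_one] at h2
    rw [Units.val_one, Matrix.one_mulVec, h1] at h2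
    exact h2.symm
  have hcq' : (c : F) ^ (q - 1) = 1 := by
    have h2 := two_le_q hF
    have h3 : (c : F) * (c : F) ^ (q - 1) = (c : F) * 1 := by
      rw [← pow_succ', mul_one]
      have : q - 1 + 1 = q := by omega
      rw [this, hcq]
    exact mul_left_cancel₀ c.ne_zero h3
  have hc1 : (c : F) = 1 := by
    have h2 : orderOf (c : F) ∣ Nat.gcd r (q - 1) :=
      Nat.dvd_gcd (orderOf_dvd_of_pow_eq_one hcr) (orderOf_dvd_of_pow_eq_one hcq')
    rw [hr] at h2
    exact orderOf_eq_one_iff.1 (Nat.dvd_one.1 h2)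
  intro u v
  have h2 := hc u v
  rw [hc1, one_mul] at h2
  exact h2

end Cfsg.Agent.UCase
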