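import Mathlib
import Cfsg.Agent.UCase.SmallQ

set_option autoImplicit false
set_option linter.unusedSectionVars false
set_option linter.style.haveILetI false

/-!
SU_4(3): the stabiliser of a decomposition into four non-degenerate lines is contained in the
normaliser of a group of symplectic type of order 64 (adapted from `AschCases.LinesFive`).
-/

namespace Cfsg.Agent.UCase

open scoped Matrix
open Cfsg.Geo Cfsg.Agent.Uni Cfsg.Agent.AschCases

namespace LN

/-- Addition on the Klein four-group with elements 0, 1, 2, 3. -/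
def xo (a b : Fin 4) : Fin 4 := a ^^^ b

/-- The characters of the Klein four-group. -/
def sg (u i : Fin 4) : ℤ :=
  if (u = 1 ∧ (i = 1 ∨ i = 3)) ∨ (u = 2 ∧ (i = 2 ∨ i = 3)) ∨ (u = 3 ∧ (i = 1 ∨ i = 2)) then -1 else 1

lemma xo_assoc : ∀ a b c : Fin 4, xo (xo a b) c = xo a (xo b c) := by decide
lemma xo_comm : ∀ a b : Fin 4, xo a b = xo b a := by decide
lemma xo_self : ∀ a : Fin 4, xo a a = 0 := by decide
lemma xo_zero : ∀ a : Fin 4, xo a 0 = a := by decide
lemma xo_xo : ∀ a b : Fin 4, xo (xo a b) b = a := by decide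
lemma xo_eq_zero : ∀ a b : Fin 4, xo a b = 0 → a = b := by decide
lemma sg_xo : ∀ u a b : Fin 4, sg u (xo a b) = sg u a * sg u b := by decide
lemma sg_xo' : ∀ u w a : Fin 4, sg (xo u w) a = sg u a * sg w a := by decide
lemma sg_sq : ∀ u a : Fin 4, sg u a * sg u a = 1 := by decide
lemma sg_zero : ∀ a : Fin 4, sg 0 a = 1 := by decide
lemma sg_zero' : ∀ a : Fin 4, sg a 0 = 1 := by decide
lemma sg_cases : ∀ u a : Fin 4, sg u a = 1 ∨ sg u a = -1 := by decide
lemma sg_inj : ∀ u w : Fin 4, u ≠ w → ∃ a, sg u a ≠ sg w a := by decide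
lemma sg_nondeg : ∀ u v : Fin 4, (u ≠ 0 ∨ v ≠ 0) → ∃ u' v' : Fin 4, sg u v' * sg u' v = -1 := by decide
lemma sg_sum : ∀ i j : Fin 4, i ≠ j → ∑ u : Fin 4, sg u (xo i j) = 0 := by decide

lemma perm_affine : ∀ σ : Equiv.Perm (Fin 4), ∀ v, ∃ v', ∀ i, σ (xo i v) = xo (σ i) v' := by decide
lemma sg_perm : ∀ σ : Equiv.Perm (Fin 4), ∀ w, ∃ w', ∀ k, sg w (σ k) = sg w (σ 0) * sg w' k := by decide

lemma exists_char : ∀ s : Fin 4 → Fin 2, s 0 = 0 → s 1 + s 2 + s 3 = 0 →
    ∃ u : Fin 4, ∀ i, sg u i = (if s i = 0 then 1 else -1) := by decide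

variable {F : Type*} [Field F]

/-- The character values in the field. -/
def sf (F : Type*) [Field F] (u i : Fin 4) : F := ((sg u i : ℤ) : F)

lemma sf_xo (u a b : Fin 4) : sf F u (xo a b) = sf F u a * sf F u b := by
  simp only [sf]; rw [sg_xo]; push_cast; rfl
lemma sf_xo' (u w a : Fin 4) : sf F (xo u w) a = sf F u a * sf F w a := by
  simp only [sf]; rw [sg_xo']; push_cast; rfl
lemma sf_sq (u a : Fin 4) : sf F u a * sf F u a = 1 := by
  simp only [sf]
  have := congrArg (fun x : ℤ => (x : F)) (sg_sq u a)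
  push_cast at this
  exact this
lemma sf_zero (a : Fin 4) : sf F 0 a = 1 := by simp only [sf]; rw [sg_zero]; simp
lemma sf_zero' (a : Fin 4) : sf F a 0 = 1 := by simp only [sf]; rw [sg_zero']; simp
lemma sf_ne (u a : Fin 4) : sf F u a ≠ 0 := fun h => by
  have := sf_sq (F := F) u a
  rw [h, zero_mul] at this
  exact zero_ne_one this
lemma sf_cases (u a : Fin 4) : sf F u a = 1 ∨ sf F u a = -1 := by
  rcases sg_cases u a with h | h
  · left; simp only [sf]; rw [h]; simp
  · right; simp only [sf]; rw [h]; simp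

/-- The monomial map with parameters `c, u, v`. -/
def Tm (c : F) (u v : Fin 4) (w : Fin 4 → F) (j : Fin 4) : F := c * sf F u (xo j v) * w (xo j v)

lemma Tm_one (w : Fin 4 → F) : Tm 1 0 0 w = w := by
  funext j
  simp only [Tm]
  rw [xo_zero, sf_zero, one_mul, one_mul]

lemma Tm_comp (c c' : F) (u u' v v' : Fin 4) (w : Fin 4 → F) :
    Tm c u v (Tm c' u' v' w) = Tm (c * c' * sf F u v') (xo u u') (xo v v') w := by
  funext j
  simp only [Tm]
  rw [← xo_assoc, sf_xo', sf_xo u (xo j v) v']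
  have := sf_sq (F := F) u v'
  linear_combination (-c * c' * sf F u (xo j v) * sf F u' (xo (xo j v) v') * w (xo (xo j v) v')) * this

/-- The linear map version. -/
def Tl (c : F) (u v : Fin 4) : (Fin 4 → F) →ₗ[F] (Fin 4 → F) where
  toFun := Tm c u v
  map_add' x y := by
    funext j
    simp only [Tm, Pi.add_apply]
    ring
  map_smul' a x := by
    funext j
    simp only [Tm, Pi.smul_apply, smul_eq_mul, RingHom.id_apply]
    ring

/-- A linear equivalence. -/
def Te (c : F) (hc : c ≠ 0) (u v : Fin 4) : (Fin 4 → F) ≃ₗ[F] (Fin 4 → F) :=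
  LinearEquiv.ofLinearMap (Tl c u v) (Tl (c⁻¹ * sf F u v) u v)
    (by
      refine LinearMap.ext fun w => ?_
      show Tm _ _ _ (Tm _ _ _ w) = w
      rw [Tm_comp, xo_self, xo_self]
      have : c * (c⁻¹ * sf F u v) * sf F u v = 1 := by
        have := sf_sq (F := F) u v
        field_simp
        linear_combination this
      rw [this, Tm_one])
    (by
      refine LinearMap.ext fun w => ?_
      show Tm _ _ _ (Tm _ _ _ w) = w
      rw [Tm_comp, xo_self, xo_self]
      have : (c⁻¹ * sf F u v) * c * sf F u v = 1 := by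
        have := sf_sq (F := F) u v
        field_simp
        linear_combination this
      rw [this, Tm_one])

variable (e : (Fin 4 → F) ≃ₗ[F] (Fin 4 → F))

theorem ne_of_four {c : F} (hc : c ^ 4 = 1) : c ≠ 0 := by
  rintro rfl
  norm_num at hc

theorem sf_four (u a : Fin 4) : (sf F u a) ^ 4 = 1 := by
  have := sf_sq (F := F) u a
  calc sf F u a ^ 4 = (sf F u a * sf F u a) ^ 2 := by ring
    _ = 1 := by rw [this, one_pow]

theorem four_mul {c c' : F} (hc : c ^ 4 = 1) (hc' : c' ^ 4 = 1) : (c * c') ^ 4 = 1 := by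
  rw [mul_pow, hc, hc', one_mul]

/-- The group of symplectic type in coordinates `e`. -/
def Rg : Subgroup (Matrix.GeneralLinearGroup (Fin 4) F) where
  carrier := {g | ∃ (c : F) (u v : Fin 4), c ^ 4 = 1 ∧ ∀ x, e ((g : Matrix (Fin 4) (Fin 4) F) *ᵥ x) = Tm c u v (e x)}
  mul_mem' := by
    rintro g h ⟨c, u, v, hc, hg⟩ ⟨c', u', v', hc', hh⟩
    refine ⟨c * c' * sf F u v', xo u u', xo v v', four_mul (four_mul hc hc') (sf_four _ _), fun x => ?_⟩
    rw [Units.val_mul, ← Matrix.mulVec_mulVec, hg, hh, Tm_comp]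
  one_mem' := ⟨1, 0, 0, one_pow 4, fun x => by rw [Units.val_one, Matrix.one_mulVec, Tm_one]⟩
  inv_mem' := by
    rintro g ⟨c, u, v, hc, hg⟩
    refine ⟨c⁻¹ * sf F u v, u, v, four_mul (by rw [inv_pow, hc, inv_one]) (sf_four _ _), fun x => ?_⟩
    have h1 := hg (((g⁻¹ : Matrix.GeneralLinearGroup (Fin 4) F) : Matrix (Fin 4) (Fin 4) F) *ᵥ x)
    rw [Matrix.mulVec_mulVec, ← Units.val_mul, mul_inv_cancel, Units.val_one, Matrix.one_mulVec] at h1
    rw [h1]
    exact ((Te c (ne_of_four hc) u v).symm_apply_apply _).symm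

/-- The element with parameters. -/
def el (c : F) (hc : c ^ 4 = 1) (u v : Fin 4) : Matrix.GeneralLinearGroup (Fin 4) F :=
  ⟨LinearMap.toMatrix' ((e.trans (Te c (ne_of_four hc) u v)).trans e.symm : (Fin 4 → F) →ₗ[F] (Fin 4 → F)),
   LinearMap.toMatrix' (((e.trans (Te c (ne_of_four hc) u v)).trans e.symm).symm : (Fin 4 → F) →ₗ[F] (Fin 4 → F)),
   by rw [← LinearMap.toMatrix'_comp, LinearEquiv.comp_coe, LinearEquiv.symm_trans_self]; exact LinearMap.toMatrix'_id,
   by rw [← LinearMap.toMatrix'_comp, LinearEquiv.comp_coe, LinearEquiv.self_trans_symm]; exact LinearMap.toMatrix'_id⟩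

lemma el_apply (c : F) (hc : c ^ 4 = 1) (u v : Fin 4) (x : Fin 4 → F) :
    e ((el e c hc u v : Matrix (Fin 4) (Fin 4) F) *ᵥ x) = Tm c u v (e x) := by
  show e (LinearMap.toMatrix' _ *ᵥ x) = _
  rw [LinearMap.toMatrix'_mulVec]
  show e (e.symm (Te c (ne_of_four hc) u v (e x))) = _
  rw [LinearEquiv.apply_symm_apply]
  rfl

lemma el_mem (c : F) (hc : c ^ 4 = 1) (u v : Fin 4) : el e c hc u v ∈ Rg e := ⟨c, u, v, hc, el_apply e c hc u v⟩

lemma gl_ext' {g h : Matrix.GeneralLinearGroup (Fin 4) F}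
    (H : ∀ x, (g : Matrix (Fin 4) (Fin 4) F) *ᵥ x = (h : Matrix (Fin 4) (Fin 4) F) *ᵥ x) : g = h := by
  apply Units.ext
  ext i j
  have := congrFun (H (Pi.single j 1)) i
  simpa [Matrix.mulVec_single_one] using this

lemma eq_el {g : Matrix.GeneralLinearGroup (Fin 4) F} (hg : g ∈ Rg e) : ∃ (c : F) (hc : c ^ 4 = 1) (u v : Fin 4),
    g = el e c hc u v := by
  obtain ⟨c, u, v, hc, hg⟩ := hg
  refine ⟨c, hc, u, v, gl_ext' fun x => e.injective ?_⟩
  rw [hg, el_apply]

lemma el_mul (c c' : F) (hc : c ^ 4 = 1) (hc' : c' ^ 4 = 1) (u u' v v' : Fin 4) :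
    el e c hc u v * el e c' hc' u' v' = el e (c * c' * sf F u v') (four_mul (four_mul hc hc') (sf_four _ _))
      (xo u u') (xo v v') := by
  apply gl_ext'
  intro x
  apply e.injective
  rw [Units.val_mul, ← Matrix.mulVec_mulVec, el_apply, el_apply, Tm_comp, el_apply]

lemma el_one : el e (1 : F) (one_pow 4) 0 0 = 1 := by
  apply gl_ext'
  intro x
  apply e.injective
  rw [el_apply, Tm_one, Units.val_one, Matrix.one_mulVec]

lemma el_inj (h2 : (2 : F) ≠ 0) {c c' : F} {hc : c ^ 4 = 1} {hc' : c' ^ 4 = 1} {u u' v v' : Fin 4}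
    (h : el e c hc u v = el e c' hc' u' v') : c = c' ∧ u = u' ∧ v = v' := by
  have h1 : ∀ w : Fin 4 → F, Tm c u v w = Tm c' u' v' w := by
    intro w
    obtain ⟨x, rfl⟩ := e.surjective w
    rw [← el_apply e c hc, h, el_apply]
  have hv : v = v' := by
    have h3 := congrFun (h1 (Pi.single 0 1)) v
    simp only [Tm] at h3
    rw [xo_self, sf_zero', Pi.single_eq_same, mul_one, mul_one] at h3
    by_contra hne
    have h4 : xo v v' ≠ 0 := fun h0 => hne (xo_eq_zero v v' h0)
    rw [Pi.single_eq_of_ne h4, mul_zero] at h3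
    exact ne_of_four hc h3
  subst hv
  have hcc : c = c' := by
    have h3 := congrFun (h1 (Pi.single 0 1)) v
    simpa only [Tm, xo_self, sf_zero', Pi.single_eq_same, mul_one] using h3
  subst hcc
  refine ⟨rfl, ?_, rfl⟩
  by_contra hne
  obtain ⟨a, ha⟩ := sg_inj u u' hne
  have h3 := congrFun (h1 (Pi.single a 1)) (xo a v)
  simp only [Tm] at h3
  rw [xo_xo, Pi.single_eq_same, mul_one, mul_one] at h3
  have h4 := mul_left_cancel₀ (ne_of_four hc) h3
  apply ha
  simp only [sf] at h4
  rcases sg_cases u a with h5 | h5 <;> rcases sg_cases u' a with h6 | h6 <;> rw [h5, h6] at h4 ⊢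
  · exfalso; apply h2; push_cast at h4; linear_combination h4
  · exfalso; apply h2; push_cast at h4; linear_combination -1 * h4

theorem card_mu4 (h2 : (2 : F) ≠ 0) {i : F} (hi : i * i = -1) : Nat.card (rootsOfUnity 4 F) = 4 := by
  have h4 : i ^ 4 = 1 := by
    calc i ^ 4 = (i * i) * (i * i) := by ring
      _ = 1 := by rw [hi]; ring
  have hi2 : i ^ 2 ≠ 1 := by
    intro h
    apply h2
    have : i * i = 1 := by rw [← sq]; exact h
    rw [hi] at this
    linear_combination (-1 : F) * this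
  have hp : IsPrimitiveRoot i 4 := by
    refine IsPrimitiveRoot.mk_of_lt i (by norm_num) h4 fun l h0 hl hl1 => ?_
    have h3 : i ≠ 1 := fun h => hi2 (by rw [h, one_pow])
    interval_cases l
    · rw [pow_one] at hl1; exact h3 hl1
    · exact hi2 hl1
    · apply h3
      calc i = i ^ 4 * i := by rw [h4, one_mul]
        _ = i ^ 3 * i * i := by ring
        _ = i * i := by rw [hl1, one_mul]
        _ = i ^ 3 * (i * i) := by rw [hl1, one_mul]
        _ = i ^ 4 * i := by ring
        _ = i := by rw [h4, one_mul]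
        _ = 1 := by
          have h5 : i * i = i := by
            calc i * i = i ^ 3 * (i * i) := by rw [hl1, one_mul]
              _ = i ^ 4 * i := by ring
              _ = i := by rw [h4, one_mul]
          exact mul_left_cancel₀ (ne_of_four h4) (by rw [h5, mul_one])
  exact hp.card_rootsOfUnity

theorem mu_four (c : rootsOfUnity 4 F) : ((c : Fˣ) : F) ^ 4 = 1 := by
  have := (mem_rootsOfUnity 4 (c : Fˣ)).1 c.2
  rw [← Units.val_pow_eq_pow_val, this, Units.val_one]

theorem exists_mu {c : F} (hc : c ^ 4 = 1) : ∃ z : rootsOfUnity 4 F, ((z : Fˣ) : F) = c :=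
  ⟨⟨Units.mk0 c (ne_of_four hc), by
    rw [mem_rootsOfUnity]
    apply Units.ext
    rw [Units.val_pow_eq_pow_val, Units.val_mk0, hc, Units.val_one]⟩, rfl⟩

lemma card_Rg (h2 : (2 : F) ≠ 0) {i : F} (hi : i * i = -1) : Nat.card (Rg e) = 64 := by
  classical
  let f : rootsOfUnity 4 F × Fin 4 × Fin 4 → Rg e := fun x =>
    ⟨el e ((x.1 : Fˣ) : F) (mu_four x.1) x.2.1 x.2.2, el_mem _ _ _ _ _⟩
  have hf : Function.Bijective f := by
    constructor
    · rintro ⟨c, u, v⟩ ⟨c', u', v'⟩ h
      have h1 := congrArg Subtype.val h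
      obtain ⟨hc, hu, hv⟩ := el_inj e h2 (hc := mu_four c) (hc' := mu_four c') h1
      rw [Prod.mk.injEq, Prod.mk.injEq]
      exact ⟨Subtype.ext (Units.ext hc), hu, hv⟩
    · rintro ⟨g, hg⟩
      obtain ⟨c, hc, u, v, rfl⟩ := eq_el e hg
      obtain ⟨z, rfl⟩ := exists_mu hc
      exact ⟨(z, u, v), rfl⟩
  rw [← Nat.card_congr (Equiv.ofBijective f hf), Nat.card_prod, Nat.card_prod, card_mu4 h2 hi]
  simp

lemma mem_center_Rg (h2 : (2 : F) ≠ 0) (x : Rg e) : x ∈ Subgroup.center (Rg e) ↔
    ∃ (c : F) (hc : c ^ 4 = 1), (x : Matrix.GeneralLinearGroup (Fin 4) F) = el e c hc 0 0 := by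
  obtain ⟨c, hc, u, v, hx⟩ := eq_el e x.2
  rw [Subgroup.mem_center_iff]
  constructor
  · intro h
    by_cases huv : u ≠ 0 ∨ v ≠ 0
    · exfalso
      obtain ⟨u', v', huv'⟩ := sg_nondeg u v huv
      have h1 := congrArg Subtype.val (h ⟨el e 1 (one_pow 4) u' v', el_mem _ _ _ _ _⟩)
      simp only [Subgroup.coe_mul] at h1
      rw [hx, el_mul, el_mul] at h1
      obtain ⟨h3, -, -⟩ := el_inj e h2 h1
      have h4 : sf F u v' * sf F u' v = -1 := by
        simp only [sf]
        have := congrArg (fun x : ℤ => (x : F)) huv'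
        push_cast at this
        exact this
      have h5 : sf F u' v = sf F u v' := by
        have : c * sf F u' v = c * sf F u v' := by linear_combination h3
        exact mul_left_cancel₀ (ne_of_four hc) this
      rw [h5, sf_sq] at h4
      apply h2
      linear_combination h4
    · push Not at huv
      obtain ⟨rfl, rfl⟩ := huv
      exact ⟨c, hc, hx⟩
  · rintro ⟨c', hc', hx'⟩ y
    obtain ⟨d, hd, u', v', hy⟩ := eq_el e y.2
    apply Subtype.ext
    rw [Subgroup.coe_mul, Subgroup.coe_mul, hx', hy, el_mul, el_mul]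
    congr 1
    · rw [sf_zero, sf_zero']; ring
    · exact xo_comm _ _
    · exact xo_comm _ _

lemma card_center_Rg (h2 : (2 : F) ≠ 0) {i : F} (hi : i * i = -1) :
    Nat.card (Subgroup.center (Rg e)) = 4 := by
  classical
  let f : rootsOfUnity 4 F → Subgroup.center (Rg e) := fun x =>
    ⟨⟨el e ((x : Fˣ) : F) (mu_four x) 0 0, el_mem _ _ _ _ _⟩,
    (mem_center_Rg e h2 _).mpr ⟨_, mu_four x, rfl⟩⟩
  have hf : Function.Bijective f := by
    constructor
    · intro c c' h
      have h1 := congrArg Subtype.val (congrArg Subtype.val h)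
      exact Subtype.ext (Units.ext (el_inj e h2 (hc := mu_four c) (hc' := mu_four c') h1).1)
    · rintro ⟨g, hg⟩
      obtain ⟨c, hc, hgc⟩ := (mem_center_Rg e h2 _).mp hg
      obtain ⟨z, rfl⟩ := exists_mu hc
      exact ⟨z, Subtype.ext (Subtype.ext hgc.symm)⟩
  rw [← Nat.card_congr (Equiv.ofBijective f hf), card_mu4 h2 hi]

lemma el_sq (c : F) (hc : c ^ 4 = 1) (u v : Fin 4) : el e c hc u v * el e c hc u v =
    el e (c * c * sf F u v) (four_mul (four_mul hc hc) (sf_four _ _)) 0 0 := by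
  rw [el_mul]
  congr 1
  · exact xo_self u
  · exact xo_self v

lemma pow_four_Rg (x : Rg e) : x ^ 4 = 1 := by
  obtain ⟨c, hc, u, v, hx⟩ := eq_el e x.2
  apply Subtype.ext
  have h1 : x ^ 4 = (x * x) * (x * x) := by
    rw [← pow_two x, ← pow_two, ← pow_mul]
  rw [h1]
  simp only [Subgroup.coe_mul]
  rw [hx, el_sq, el_mul, Subgroup.coe_one, ← el_one e]
  congr 1
  rw [sf_zero]
  have h4 := hc
  have h5 := sf_sq (F := F) u v
  linear_combination c ^ 4 * h5 + h4

lemma exponent_Rg (h2 : (2 : F) ≠ 0) {i : F} (hi : i * i = -1) : Monoid.exponent (Rg e) = 4 := by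
  have hi4 : i ^ 4 = 1 := by
    calc i ^ 4 = (i * i) * (i * i) := by ring
      _ = 1 := by rw [hi]; ring
  have hd : Monoid.exponent (Rg e) ∣ 4 := Monoid.exponent_dvd_of_forall_pow_eq_one (pow_four_Rg e)
  have hnd : ¬ Monoid.exponent (Rg e) ∣ 2 := by
    intro h
    have h1 : (⟨el e i hi4 0 0, el_mem _ _ _ _ _⟩ : Rg e) ^ 2 = 1 :=
      Monoid.exponent_dvd_iff_forall_pow_eq_one.mp h _
    have h3 := congrArg Subtype.val h1
    rw [pow_two] at h3
    simp only [Subgroup.coe_mul, Subgroup.coe_one] at h3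
    rw [el_sq, ← el_one e] at h3
    obtain ⟨h4, -, -⟩ := el_inj e h2 h3
    rw [sf_zero, mul_one, hi] at h4
    apply h2
    linear_combination -1 * h4
  have h4 : Monoid.exponent (Rg e) ∣ 2 ^ 2 := by simpa using hd
  obtain ⟨k, hk, hk'⟩ := (Nat.dvd_prime_pow Nat.prime_two).mp h4
  interval_cases k
  · rw [hk'] at hnd; exact absurd (by norm_num) hnd
  · rw [hk'] at hnd; exact absurd (by norm_num) hnd
  · rw [hk']; norm_num

/-- Conjugation by an element of the normaliser, as an automorphism of the subgroup. -/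
def conjAut {G : Type*} [Group G] (R : Subgroup G) (h : G) (hh : ∀ x ∈ R, h * x * h⁻¹ ∈ R)
    (hh' : ∀ x ∈ R, h⁻¹ * x * h ∈ R) : R ≃* R where
  toFun x := ⟨h * x * h⁻¹, hh x x.2⟩
  invFun x := ⟨h⁻¹ * x * h, hh' x x.2⟩
  left_inv x := by
    apply Subtype.ext
    show h⁻¹ * (h * x * h⁻¹) * h = x
    group
  right_inv x := by
    apply Subtype.ext
    show h * (h⁻¹ * x * h) * h⁻¹ = x
    group
  map_mul' x y := by
    apply Subtype.ext
    show h * (x * y) * h⁻¹ = (h * x * h⁻¹) * (h * y * h⁻¹)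
    group

/-- A characteristic abelian subgroup is central. -/
lemma char_abelian_le_center (h2 : (2 : F) ≠ 0) {i : F} (hi : i * i = -1) (A : Subgroup (Rg e)) (hchar : A.Characteristic)
    (hcomm : IsMulCommutative A) : A ≤ Subgroup.center (Rg e) := by
  have hi4 : i ^ 4 = 1 := by
    calc i ^ 4 = (i * i) * (i * i) := by ring
      _ = 1 := by rw [hi]; ring
  intro x hx
  obtain ⟨c, hc, u, v, hxe⟩ := eq_el e x.2
  by_contra hnc
  have huv : u ≠ 0 ∨ v ≠ 0 := by
    by_contra h
    push Not at h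
    obtain ⟨rfl, rfl⟩ := h
    exact hnc ((mem_center_Rg e h2 x).mpr ⟨c, hc, hxe⟩)
  obtain ⟨u', v', huv'⟩ := sg_nondeg u v huv
  have hsf : sf F u v' * sf F u' v = -1 := by
    simp only [sf]
    have := congrArg (fun x : ℤ => (x : F)) huv'
    push_cast at this
    exact this
  -- an element t with t ^ 2 = -1 anticommuting with x
  obtain ⟨d, hd, hd2⟩ : ∃ d : F, d ^ 4 = 1 ∧ d * d * sf F u' v' = -1 := by
    rcases sf_cases (F := F) u' v' with h | h
    · exact ⟨i, hi4, by rw [h, hi, mul_one]⟩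
    · exact ⟨1, one_pow 4, by rw [h]; ring⟩
  set t : Matrix.GeneralLinearGroup (Fin 4) F := el e d hd u' v' with ht
  have htt : (t : Matrix (Fin 4) (Fin 4) F) * t = -1 := by
    rw [← Units.val_mul, ht, el_sq]
    have h1 : el e (d * d * sf F u' v') (four_mul (four_mul hd hd) (sf_four _ _)) 0 0 = -1 := by
      apply gl_ext'
      intro w
      apply e.injective
      rw [el_apply, hd2, Units.val_neg, Units.val_one, Matrix.neg_mulVec, Matrix.one_mulVec, map_neg]
      funext j
      simp only [Tm]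
      rw [xo_zero, sf_zero, Pi.neg_apply]; ring
    rw [h1]; rfl
  -- commutation of elements of R with t
  have hct : ∀ y ∈ Rg e, ∃ ε : F, (ε = 1 ∨ ε = -1) ∧
      (y : Matrix (Fin 4) (Fin 4) F) * t = ε • ((t : Matrix (Fin 4) (Fin 4) F) * y) := by
    intro y hy
    obtain ⟨c', hc', u₁, v₁, rfl⟩ := eq_el e hy
    refine ⟨sf F u₁ v' * sf F u' v₁, ?_, ?_⟩
    · rcases sf_cases (F := F) u₁ v' with h | h <;> rcases sf_cases (F := F) u' v₁ with h' | h' <;> simp [h, h']
    · have h1 : ∀ w, ((el e c' hc' u₁ v₁ : Matrix (Fin 4) (Fin 4) F) * (t : Matrix (Fin 4) (Fin 4) F)) *ᵥ w =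
          ((sf F u₁ v' * sf F u' v₁) • ((t : Matrix (Fin 4) (Fin 4) F) * (el e c' hc' u₁ v₁ : Matrix (Fin 4) (Fin 4) F))) *ᵥ w := by
        intro w
        apply e.injective
        rw [Matrix.smul_mulVec, map_smul, ← Matrix.mulVec_mulVec, ← Matrix.mulVec_mulVec, el_apply, ht, el_apply, el_apply,
          el_apply, Tm_comp, Tm_comp]
        funext j
        simp only [Tm, Pi.smul_apply, smul_eq_mul]
        rw [xo_comm u₁ u', xo_comm v₁ v']
        have h3 := sf_sq (F := F) u' v₁
        linear_combination (-c' * d * sf F u₁ v' * sf F (xo u' u₁) (xo j (xo v' v₁)) * e w (xo j (xo v' v₁))) * h3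
      ext i j
      have := congrFun (h1 (Pi.single j 1)) i
      simpa [Matrix.mulVec_single_one] using this
  -- the element 1 + t
  have hinv1 : ((1 : Matrix (Fin 4) (Fin 4) F) + t) * ((2 : F)⁻¹ • (1 - (t : Matrix (Fin 4) (Fin 4) F))) = 1 := by
    rw [Matrix.mul_smul, add_mul, mul_sub, mul_sub, one_mul, one_mul, mul_one, htt, sub_neg_eq_add]
    have : (1 : Matrix (Fin 4) (Fin 4) F) - t + (t + 1) = (2 : F) • 1 := by
      rw [two_smul]; abel
    rw [this, smul_smul, inv_mul_cancel₀ h2, one_smul]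
  have hinv2 : ((2 : F)⁻¹ • (1 - (t : Matrix (Fin 4) (Fin 4) F))) * ((1 : Matrix (Fin 4) (Fin 4) F) + t) = 1 := by
    rw [Matrix.smul_mul, sub_mul, mul_add, mul_add, one_mul, one_mul, mul_one, htt]
    have : (1 : Matrix (Fin 4) (Fin 4) F) + t - (t + -1) = (2 : F) • 1 := by
      rw [two_smul]; abel
    rw [this, smul_smul, inv_mul_cancel₀ h2, one_smul]
  set h : Matrix.GeneralLinearGroup (Fin 4) F := ⟨1 + (t : Matrix (Fin 4) (Fin 4) F), _, hinv1, hinv2⟩ with hh
  have hhval : (h : Matrix (Fin 4) (Fin 4) F) = 1 + (t : Matrix (Fin 4) (Fin 4) F) := rfl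
  have hhinv : ((h⁻¹ : Matrix.GeneralLinearGroup (Fin 4) F) : Matrix (Fin 4) (Fin 4) F) =
    (2 : F)⁻¹ • (1 - (t : Matrix (Fin 4) (Fin 4) F)) := rfl
  have htinv : ((t⁻¹ : Matrix.GeneralLinearGroup (Fin 4) F) : Matrix (Fin 4) (Fin 4) F) = -(t : Matrix (Fin 4) (Fin 4) F) := by
    have h1 : (t : Matrix (Fin 4) (Fin 4) F) * ((t⁻¹ : Matrix.GeneralLinearGroup (Fin 4) F) : Matrix (Fin 4) (Fin 4) F) = 1 := by
      rw [← Units.val_mul, mul_inv_cancel, Units.val_one]
    calc ((t⁻¹ : Matrix.GeneralLinearGroup (Fin 4) F) : Matrix (Fin 4) (Fin 4) F)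
        = -(((t : Matrix (Fin 4) (Fin 4) F) * t) * ((t⁻¹ : Matrix.GeneralLinearGroup (Fin 4) F) : Matrix (Fin 4) (Fin 4) F)) := by
          rw [htt, neg_mul, one_mul, neg_neg]
      _ = _ := by rw [mul_assoc, h1, mul_one]
  have htR : t ∈ Rg e := el_mem _ _ _ _ _
  -- h y = y' h with y' in R
  have hconj : ∀ y ∈ Rg e, (h * y * h⁻¹ ∈ Rg e ∧ h⁻¹ * y * h ∈ Rg e) := by
    intro y hy
    obtain ⟨ε, hε, hyt⟩ := hct y hy
    rcases hε with rfl | rfl
    · rw [one_smul] at hyt
      have h1 : h * y = y * h := by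
        apply Units.ext
        rw [Units.val_mul, Units.val_mul, hhval, add_mul, mul_add, one_mul, mul_one, hyt]
      constructor
      · rw [h1, mul_assoc, mul_inv_cancel, mul_one]; exact hy
      · rw [mul_assoc, ← h1, ← mul_assoc, inv_mul_cancel, one_mul]; exact hy
    · rw [neg_smul, one_smul] at hyt
      have h1 : h * y = (t * y) * h := by
        apply Units.ext
        rw [Units.val_mul, Units.val_mul, Units.val_mul, hhval, add_mul, mul_add, one_mul, mul_one, mul_assoc, hyt, mul_neg,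
          ← mul_assoc, htt, neg_mul, one_mul, neg_neg, add_comm]
      have h3 : y * h = h * (t⁻¹ * y) := by
        apply Units.ext
        rw [Units.val_mul, Units.val_mul, Units.val_mul, hhval, htinv, mul_add, mul_one, hyt, add_mul, one_mul, neg_mul,
          mul_neg, ← mul_assoc, htt, neg_mul, one_mul, neg_neg, add_comm]
      constructor
      · rw [h1, mul_assoc, mul_inv_cancel, mul_one]; exact (Rg e).mul_mem htR hy
      · rw [mul_assoc, h3, ← mul_assoc, inv_mul_cancel, one_mul]; exact (Rg e).mul_mem ((Rg e).inv_mem htR) hy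
  let α := conjAut (Rg e) h (fun y hy => (hconj y hy).1) (fun y hy => (hconj y hy).2)
  have hαx : α x ∈ A := by
    have h1 := Subgroup.characteristic_iff_map_eq.mp hchar α
    rw [← h1]
    exact ⟨x, hx, rfl⟩
  -- x anticommutes with t
  have hxt : ((x : Matrix.GeneralLinearGroup (Fin 4) F) : Matrix (Fin 4) (Fin 4) F) * t =
      -((t : Matrix (Fin 4) (Fin 4) F) * ((x : Matrix.GeneralLinearGroup (Fin 4) F) : Matrix (Fin 4) (Fin 4) F)) := by
    have h1 : ∀ w, (((x : Matrix.GeneralLinearGroup (Fin 4) F) : Matrix (Fin 4) (Fin 4) F) * (t : Matrix (Fin 4) (Fin 4) F)) *ᵥ w =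
          (-((t : Matrix (Fin 4) (Fin 4) F) * ((x : Matrix.GeneralLinearGroup (Fin 4) F) : Matrix (Fin 4) (Fin 4) F))) *ᵥ w := by
      intro w
      apply e.injective
      rw [Matrix.neg_mulVec, map_neg, ← Matrix.mulVec_mulVec, ← Matrix.mulVec_mulVec, hxe, el_apply, ht, el_apply, el_apply,
        el_apply, Tm_comp, Tm_comp]
      funext j
      simp only [Tm, Pi.neg_apply]
      rw [xo_comm u u', xo_comm v v']
      have h3 := sf_sq (F := F) u' v
      linear_combination (-c * d * sf F u v' * sf F (xo u' u) (xo j (xo v' v)) * e w (xo j (xo v' v))) * h3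
        + (c * d * sf F u' v * sf F (xo u' u) (xo j (xo v' v)) * e w (xo j (xo v' v))) * hsf
    ext i j
    have := congrFun (h1 (Pi.single j 1)) i
    simpa [Matrix.mulVec_single_one] using this
  have hxα : (x : Matrix.GeneralLinearGroup (Fin 4) F) * (h * x * h⁻¹) = (h * x * h⁻¹) * x := by
    have h1 := hcomm.is_comm.comm (⟨x, hx⟩ : A) ⟨α x, hαx⟩
    exact congrArg (fun y : A => ((y : Rg e) : Matrix.GeneralLinearGroup (Fin 4) F)) h1
  have hhx : h * (x : Matrix.GeneralLinearGroup (Fin 4) F) * h⁻¹ = t * x := by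
    have h1 : h * (x : Matrix.GeneralLinearGroup (Fin 4) F) = (t * x) * h := by
      apply Units.ext
      rw [Units.val_mul, Units.val_mul, Units.val_mul, hhval, add_mul, mul_add, one_mul, mul_one, mul_assoc, hxt, mul_neg,
        ← mul_assoc, htt, neg_mul, one_mul, neg_neg, add_comm]
    rw [h1, mul_assoc, mul_inv_cancel, mul_one]
  rw [hhx] at hxα
  have h5 := congrArg (fun y : Matrix.GeneralLinearGroup (Fin 4) F => (y : Matrix (Fin 4) (Fin 4) F)) hxα
  simp only [Units.val_mul] at h5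
  rw [← mul_assoc, hxt, neg_mul] at h5
  have h6 : (2 : F) • ((t : Matrix (Fin 4) (Fin 4) F) * ((x : Matrix.GeneralLinearGroup (Fin 4) F) : Matrix (Fin 4) (Fin 4) F) *
      ((x : Matrix.GeneralLinearGroup (Fin 4) F) : Matrix (Fin 4) (Fin 4) F)) = 0 := by
    rw [two_smul]
    nth_rewrite 1 [← h5]
    rw [neg_add_cancel]
  have h7 := (smul_eq_zero.mp h6).resolve_left h2
  have h8 : ((t * x * x : Matrix.GeneralLinearGroup (Fin 4) F) : Matrix (Fin 4) (Fin 4) F) = 0 := by
    rw [Units.val_mul, Units.val_mul]; exact h7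
  exact Units.ne_zero (t * x * x : Matrix.GeneralLinearGroup (Fin 4) F) h8

lemma sum_sf (i j : Fin 4) : ∑ u : Fin 4, sf F u (xo i j) = if i = j then 4 else 0 := by
  have h : ∑ u : Fin 4, sg u (xo i j) = if i = j then 4 else 0 := by
    revert i j; decide
  have h1 := congrArg (fun x : ℤ => (x : F)) h
  simp only [sf]
  push_cast at h1
  exact h1

lemma absIrred_Rg (h2 : (2 : F) ≠ 0) : ActsAbsolutelyIrreducibly (matrixSet (Rg e)) := by
  have h4 : (4 : F) ≠ 0 := by
    have : (4 : F) = 2 * 2 := by norm_num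
    rw [this]; exact mul_ne_zero h2 h2
  have hmem : ∀ u v : Fin 4, ((el e 1 (one_pow 4) u v : Matrix.GeneralLinearGroup (Fin 4) F) : Matrix (Fin 4) (Fin 4) F) ∈
      matrixSet (Rg e) := fun u v => ⟨_, el_mem _ _ _ _ _, rfl⟩
  -- the projections
  have hproj : ∀ (w : Fin 4 → F) (i : Fin 4), ∑ u : Fin 4, sf F u i • Tm 1 u 0 w = (4 * w i) • Pi.single i 1 := by
    intro w i
    funext j
    rw [Finset.sum_apply]
    simp only [Tm, Pi.smul_apply, smul_eq_mul]
    have h1 : ∀ u : Fin 4, sf F u i * (1 * sf F u (xo j 0) * w (xo j 0)) = sf F u (xo i j) * w j := by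
      intro u
      rw [xo_zero, sf_xo]; ring
    rw [Finset.sum_congr rfl fun u _ => h1 u, ← Finset.sum_mul, sum_sf]
    by_cases hij : i = j
    · subst hij; simp
    · rw [if_neg hij, Pi.single_eq_of_ne (Ne.symm hij)]; simp
  have hshift : ∀ i v : Fin 4, Tm (1 : F) 0 v (Pi.single i 1) = Pi.single (xo i v) 1 := by
    intro i v
    funext j
    simp only [Tm]
    rw [sf_zero, one_mul, one_mul]
    by_cases hj : j = xo i v
    · subst hj
      rw [xo_xo, Pi.single_eq_same, Pi.single_eq_same]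
    · rw [Pi.single_eq_of_ne hj, Pi.single_eq_of_ne]
      intro h
      apply hj
      rw [← h, xo_xo]
  constructor
  · intro W hW
    by_cases hbot : W = ⊥
    · exact Or.inl hbot
    right
    obtain ⟨w, hw, hw0⟩ := (Submodule.ne_bot_iff W).mp hbot
    have hstab : ∀ u v : Fin 4, ∀ x ∈ W, e.symm (Tm 1 u v (e x)) ∈ W := by
      intro u v x hx
      have h1 := hW _ (hmem u v) (Submodule.mem_map_of_mem hx)
      rw [Matrix.toLin'_apply] at h1
      rw [← el_apply e 1 (one_pow 4), LinearEquiv.symm_apply_apply]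
      exact h1
    have hne : e w ≠ 0 := fun h => hw0 (e.injective (by rw [h, map_zero]))
    obtain ⟨i, hi⟩ := Function.ne_iff.mp hne
    have hsingle : e.symm (Pi.single i 1) ∈ W := by
      have h1 : e.symm (∑ u : Fin 4, sf F u i • Tm 1 u 0 (e w)) ∈ W := by
        rw [map_sum]
        exact Submodule.sum_mem _ fun u _ => by
          rw [map_smul]
          exact W.smul_mem _ (hstab u 0 w hw)
      rw [hproj, map_smul] at h1
      exact (Submodule.smul_mem_iff W (mul_ne_zero h4 hi)).mp h1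
    have hall : ∀ j, e.symm (Pi.single j 1) ∈ W := by
      intro j
      have h1 := hstab 0 (xo i j) _ hsingle
      rw [LinearEquiv.apply_symm_apply, hshift] at h1
      have h3 : xo i (xo i j) = j := by rw [← xo_assoc, xo_self, xo_comm, xo_zero]
      rwa [h3] at h1
    rw [Submodule.eq_top_iff']
    intro x
    have h1 : x = ∑ j, (e x j) • e.symm (Pi.single j 1) := by
      apply e.injective
      rw [map_sum]
      simp only [map_smul, LinearEquiv.apply_symm_apply]
      funext k
      rw [Finset.sum_apply]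
      simp [Pi.single_apply]
    rw [h1]
    exact Submodule.sum_mem _ fun j _ => W.smul_mem _ (hall j)
  · intro M hM
    -- M' = e M e⁻¹ commutes with all Tm 1 u v
    have hcomm : ∀ u v : Fin 4, ∀ w, e (M *ᵥ e.symm (Tm 1 u v w)) = Tm 1 u v (e (M *ᵥ e.symm w)) := by
      intro u v w
      have h1 := hM _ (hmem u v)
      have h3 := congrArg (fun N : Matrix (Fin 4) (Fin 4) F => e (N *ᵥ e.symm w)) h1
      simp only [← Matrix.mulVec_mulVec] at h3
      rw [el_apply] at h3
      rw [← h3]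
      congr 2
      apply e.injective
      rw [el_apply, LinearEquiv.apply_symm_apply, LinearEquiv.apply_symm_apply]
    let y : Fin 4 → F := e (M *ᵥ e.symm (Pi.single 0 1))
    have hy : ∀ u v j, e (M *ᵥ e.symm (Tm 1 u v (Pi.single 0 1))) j = sf F u (xo j v) * y (xo j v) := by
      intro u v j
      rw [hcomm]
      simp only [Tm, one_mul, y]
    -- y is supported at 0
    have hsing : ∀ u : Fin 4, Tm (1 : F) u 0 (Pi.single 0 1) = Pi.single 0 1 := by
      intro u
      funext j
      simp only [Tm]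
      rw [xo_zero, one_mul]
      by_cases hj : j = 0
      · subst hj; rw [sf_zero', one_mul]
      · rw [Pi.single_eq_of_ne hj, mul_zero]
    have hy0 : ∀ j, j ≠ 0 → y j = 0 := by
      intro j hj
      obtain ⟨u, hu⟩ : ∃ u : Fin 4, sg u j = -1 := by
        revert hj; revert j; decide
      have h1 := hy u 0 j
      rw [hsing, xo_zero] at h1
      have h3 : sf F u j = -1 := by simp only [sf]; rw [hu]; simp
      rw [h3] at h1
      have h5 : (2 : F) * y j = 0 := by
        have : y j = -1 * y j := h1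
        linear_combination this
      exact (mul_eq_zero.mp h5).resolve_left h2
    refine ⟨y 0, ?_⟩
    have hMi : ∀ i : Fin 4, M *ᵥ e.symm (Pi.single i 1) = y 0 • e.symm (Pi.single i 1) := by
      intro i
      apply e.injective
      rw [map_smul, LinearEquiv.apply_symm_apply]
      funext j
      have h1 := hy 0 i j
      have h3 : xo 0 i = i := by rw [xo_comm, xo_zero]
      rw [hshift, h3, sf_zero, one_mul] at h1
      rw [h1, Pi.smul_apply, smul_eq_mul]
      by_cases hj : j = i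
      · subst hj; rw [xo_self, Pi.single_eq_same, mul_one]
      · rw [Pi.single_eq_of_ne hj, mul_zero, hy0]
        intro h; exact hj (xo_eq_zero _ _ h)
    have hMx : ∀ x, M *ᵥ x = (y 0 • (1 : Matrix (Fin 4) (Fin 4) F)) *ᵥ x := by
      intro x
      have h1 : x = ∑ j, (e x j) • e.symm (Pi.single j 1) := by
        apply e.injective
        rw [map_sum]
        simp only [map_smul, LinearEquiv.apply_symm_apply]
        funext k
        rw [Finset.sum_apply]
        simp [Pi.single_apply]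
      rw [Matrix.smul_mulVec, Matrix.one_mulVec]
      conv_lhs => rw [h1]
      conv_rhs => rw [h1]
      rw [← Matrix.mulVecLin_apply, map_sum, Finset.smul_sum]
      refine Finset.sum_congr rfl fun j _ => ?_
      rw [map_smul, Matrix.mulVecLin_apply, hMi, smul_comm]
    ext i j
    have := congrFun (hMx (Pi.single j 1)) i
    simpa [Matrix.mulVec_single_one] using this


/-- The symplectic type group. -/
theorem type_Rg (h2 : (2 : F) ≠ 0) {i : F} (hi : i * i = -1) : IsSymplecticTypeGroup 2 (Rg e) := by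
  refine ⟨Nat.prime_two, ?_, ?_, ?_⟩
  · exact IsPGroup.of_card (n := 6) (by rw [card_Rg e h2 hi]; norm_num)
  · intro A hchar hcomm
    have hle := char_abelian_le_center e h2 hi A hchar hcomm
    -- the centre is cyclic
    have hcyc : IsCyclic (Subgroup.center (Rg e)) := by
      let f : rootsOfUnity 4 F →* Subgroup.center (Rg e) :=
        { toFun := fun x => ⟨⟨el e ((x : Fˣ) : F) (mu_four x) 0 0, el_mem _ _ _ _ _⟩,
            (mem_center_Rg e h2 _).mpr ⟨_, mu_four x, rfl⟩⟩
          map_one' := by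
            apply Subtype.ext
            apply Subtype.ext
            exact el_one e
          map_mul' := by
            intro x y
            apply Subtype.ext
            apply Subtype.ext
            show el e _ (mu_four (x * y)) _ _ = el e _ (mu_four x) _ _ * el e _ (mu_four y) _ _
            rw [el_mul]
            congr 1
            rw [sf_zero, mul_one, Subgroup.coe_mul, Units.val_mul] }
      refine isCyclic_of_surjective f ?_
      rintro ⟨g, hg⟩
      obtain ⟨c, hc, hgc⟩ := (mem_center_Rg e h2 _).mp hg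
      obtain ⟨z, rfl⟩ := exists_mu hc
      exact ⟨z, Subtype.ext (Subtype.ext hgc.symm)⟩
    exact isCyclic_of_injective (Subgroup.inclusion hle) (Subgroup.inclusion_injective hle)
  · rw [exponent_Rg e h2 hi]; norm_num

/-- The quotients `a (i + v) / a i` have the form `c * sg u i`. -/
lemma quot_char (h2 : (2 : F) ≠ 0) (a : Fin 4 → F) (ha : ∀ i, a i ^ 4 = 1) (hprod : (∏ i, a i) ^ 2 = 1)
    (v : Fin 4) : ∃ (c : F) (u : Fin 4), c ^ 4 = 1 ∧ ∀ i, a (xo i v) = c * sf F u i * a i := by
  have hp4 : ∀ i, a i ^ 4 = 1 := ha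
  rw [Fin.prod_univ_four] at hprod
  -- s i = b i * b 0 ^ 3 with b i = a (xo i v) * a i ^ 3
  let b : Fin 4 → F := fun i => a (xo i v) * a i ^ 3
  have hb : ∀ i, a (xo i v) = b i * a i := by
    intro i
    simp only [b]
    linear_combination (-a (xo i v)) * hp4 i
  have hb0 : b 0 ^ 4 = 1 := four_mul (ha _) (by rw [← pow_mul, mul_comm, pow_mul, ha, one_pow])
  let s : Fin 4 → F := fun i => b i * b 0 ^ 3
  have hs : ∀ i, b i = b 0 * s i := by
    intro i
    simp only [s]
    have := hb0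
    linear_combination (-b i) * this
  have hs0 : s 0 = 1 := by
    simp only [s]
    have := hb0
    linear_combination this
  have hssq : ∀ i, s i ^ 2 = 1 := by
    intro i
    have e1 : s i ^ 2 = (a (xo i v) ^ 2 * a i ^ 2 * a (xo 0 v) ^ 2 * a 0 ^ 2) * (a i ^ 4) * (a (xo 0 v) ^ 4) * (a 0 ^ 4) ^ 4 := by
      simp only [s, b]; ring
    rw [e1, hp4, hp4, hp4, mul_one, mul_one, one_pow, mul_one]
    have q0 := hp4 0
    have q1 := hp4 1
    have q2 := hp4 2
    have q3 := hp4 3
    have hpr : a 0 ^ 2 * a 1 ^ 2 * a 2 ^ 2 * a 3 ^ 2 = 1 := by linear_combination hprod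
    have k : ∀ i v : Fin 4, ((i = 0 ∧ xo i v = xo 0 v) ∨ (i = xo 0 v ∧ xo i v = 0)) ∨ (v = 0 ∧ xo i v = i ∧ xo 0 v = 0) ∨
        ({xo i v, i, xo 0 v, 0} : Finset (Fin 4)) = Finset.univ := by decide
    rcases k i v with (⟨h1, h2⟩ | ⟨h1, h2⟩) | ⟨h1, h2, h3⟩ | h
    · rw [h1]
      linear_combination (a (xo 0 v) ^ 4) * hp4 0 + hp4 (xo 0 v)
    · rw [h2, ← h1]
      linear_combination (a i ^ 4) * hp4 0 + hp4 i
    · rw [h2, h3]
      linear_combination (a i ^ 4) * hp4 0 + hp4 i
    · have hperm : ∀ p q r t : Fin 4, ({p, q, r, t} : Finset (Fin 4)) = Finset.univ →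
          p ≠ q ∧ p ≠ r ∧ p ≠ t ∧ q ≠ r ∧ q ≠ t ∧ r ≠ t := by decide
      obtain ⟨n1, n2, n3, n4, n5, n6⟩ := hperm _ _ _ _ h
      have hprodu : ∏ x ∈ ({xo i v, i, xo 0 v, 0} : Finset (Fin 4)), a x ^ 2 = 1 := by
        rw [h, Fin.prod_univ_four]; exact hpr
      rw [Finset.prod_insert (by simp [n1, n2, n3]), Finset.prod_insert (by simp [n4, n5]),
        Finset.prod_insert (by simp [n6]), Finset.prod_singleton] at hprodu
      linear_combination hprodu
  have hs1 : ∀ i, s i = 1 ∨ s i = -1 := fun i => mul_self_eq_one_iff.mp (by rw [← pow_two]; exact hssq i)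
  have hsprod : s 1 * s 2 * s 3 = 1 := by
    have e1 : s 0 * s 1 * s 2 * s 3 = (a (xo 0 v) * a (xo 1 v) * a (xo 2 v) * a (xo 3 v)) * (a 0 * a 1 * a 2 * a 3) ^ 3 * (b 0 ^ 4) ^ 3 := by
      simp only [s, b]; ring
    have e2 : a (xo 0 v) * a (xo 1 v) * a (xo 2 v) * a (xo 3 v) = a 0 * a 1 * a 2 * a 3 := by
      fin_cases v
      · show a 0 * a 1 * a 2 * a 3 = _; ring
      · show a 1 * a 0 * a 3 * a 2 = _; ring
      · show a 2 * a 3 * a 0 * a 1 = _; ring
      · show a 3 * a 2 * a 1 * a 0 = _; ring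
    rw [hs0, one_mul] at e1
    rw [e1, e2, hb0]
    have : (a 0 * a 1 * a 2 * a 3) ^ 4 = 1 := by
      calc (a 0 * a 1 * a 2 * a 3) ^ 4 = ((a 0 * a 1 * a 2 * a 3) ^ 2) ^ 2 := by ring
        _ = 1 := by rw [hprod, one_pow]
    linear_combination this
  -- the character
  classical
  let σ : Fin 4 → Fin 2 := fun i => if s i = 1 then 0 else 1
  have h1ne : (-1 : F) ≠ 1 := by
    intro h; apply h2; linear_combination -1 * h
  have hσ : ∀ i, s i = if σ i = 0 then 1 else -1 := by
    intro i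
    rcases hs1 i with h | h
    · simp [σ, h]
    · simp [σ, h, h1ne]
  have hσ0 : σ 0 = 0 := by simp [σ, hs0]
  have hσs : σ 1 + σ 2 + σ 3 = 0 := by
    simp only [σ]
    rcases hs1 1 with h1 | h1 <;> rcases hs1 2 with h2' | h2' <;> rcases hs1 3 with h3 | h3 <;>
      rw [h1, h2', h3] at hsprod ⊢ <;> simp [h1ne] at hsprod ⊢
  obtain ⟨u, hu⟩ := exists_char σ hσ0 hσs
  refine ⟨b 0, u, hb0, fun i => ?_⟩
  rw [hb i, hs i]
  congr 2
  rw [hσ i]
  simp only [sf]
  rw [hu i]
  push_cast
  rfl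

/-- Conjugation by a monomial element of determinant ±1 preserves the group. -/
lemma conj_mem_Rg (h2 : (2 : F) ≠ 0) (g : Matrix.GeneralLinearGroup (Fin 4) F) (σ : Equiv.Perm (Fin 4))
    (a : Fin 4 → F) (ha : ∀ i, a i ^ 4 = 1) (hprod : (∏ i, a i) ^ 2 = 1)
    (hg : ∀ x i, e ((g : Matrix (Fin 4) (Fin 4) F) *ᵥ x) (σ i) = a i * e x i)
    (h : Matrix.GeneralLinearGroup (Fin 4) F) (hh : h ∈ Rg e) : g * h * g⁻¹ ∈ Rg e := by
  obtain ⟨c, u, v, hc, hh⟩ := hh
  obtain ⟨v', hv'⟩ := perm_affine σ v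
  obtain ⟨c₁, u₁, hc₁, hu₁⟩ := quot_char h2 a ha hprod v
  obtain ⟨w', hw'⟩ := sg_perm σ⁻¹ (xo u u₁)
  -- coefficient
  refine ⟨c * c₁ * sf F (xo u u₁) (σ⁻¹ 0), w', v', four_mul (four_mul hc hc₁) (sf_four _ _), fun z => ?_⟩
  funext j
  obtain ⟨i, rfl⟩ := σ.surjective j
  set w := ((g⁻¹ : Matrix.GeneralLinearGroup (Fin 4) F) : Matrix (Fin 4) (Fin 4) F) *ᵥ z with hw
  have hz : (g : Matrix (Fin 4) (Fin 4) F) *ᵥ w = z := by
    rw [hw, Matrix.mulVec_mulVec, ← Units.val_mul, mul_inv_cancel, Units.val_one, Matrix.one_mulVec]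
  rw [Units.val_mul, Units.val_mul, ← Matrix.mulVec_mulVec, ← Matrix.mulVec_mulVec, ← hw, hg, hh]
  simp only [Tm]
  rw [← hv' i, ← hz, hg]
  -- a i * (c * sf u (xo i v) * e w (xo i v)) = (...) * (a (xo i v) * e w (xo i v))
  have h1 : a i = c₁ * sf F u₁ (xo i v) * a (xo i v) := by
    have := hu₁ (xo i v)
    rwa [xo_xo] at this
  have h2 : sf F (xo u u₁) (xo i v) = sf F (xo u u₁) (σ⁻¹ 0) * sf F w' (σ (xo i v)) := by
    have h3 := hw' (σ (xo i v))
    rw [show σ⁻¹ (σ (xo i v)) = xo i v from σ.symm_apply_apply _] at h3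
    simp only [sf]
    rw [h3]; push_cast; rfl
  rw [h1]
  have h3 : sf F (xo u u₁) (xo i v) = sf F u (xo i v) * sf F u₁ (xo i v) := sf_xo' _ _ _
  rw [h3] at h2
  linear_combination (c * c₁ * a (xo i v) * e w (xo i v)) * h2


section Nine

variable [Fintype F] (hF : Fintype.card F = 3 ^ 2)
include hF

theorem two_ne_zero_nine : (2 : F) ≠ 0 := by
  have h := FiniteField.cast_card_eq_zero F
  rw [hF] at h
  have h3 : (3 : F) = 0 := by
    have : (3 : F) ^ 2 = 0 := by exact_mod_cast h
    exact pow_eq_zero_iff (n := 2) (by norm_num) |>.1 this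
  intro h2
  have : (1 : F) = 3 - 2 := by norm_num
  rw [h3, h2, sub_zero] at this
  exact one_ne_zero this

theorem exists_i_nine : ∃ i : F, i * i = -1 := by
  have h2 := two_ne_zero_nine hF
  by_contra hcon
  push Not at hcon
  -- every nonzero x satisfies x ^ 4 = 1
  have h1 : ∀ x : F, x ≠ 0 → x ^ 4 = 1 := by
    intro x hx
    have h8 := FiniteField.pow_card_sub_one_eq_one x hx
    rw [hF] at h8
    have h9 : x ^ 4 * x ^ 4 = 1 := by
      rw [← pow_add]; exact h8
    rcases mul_self_eq_one_iff.1 h9 with h | h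
    · exact h
    · exfalso
      apply hcon (x ^ 2)
      rw [← pow_add]
      exact h
  have h3 : ∀ x : F, x ≠ 0 → x ^ 2 = 1 := by
    intro x hx
    have h9 : x ^ 2 * x ^ 2 = 1 := by
      rw [← pow_add]; exact h1 x hx
    rcases mul_self_eq_one_iff.1 h9 with h | h
    · exact h
    · exfalso
      apply hcon x
      rw [← sq]
      exact h
  have h4 : ∀ x : F, x = 0 ∨ x = 1 ∨ x = -1 := by
    intro x
    by_cases hx : x = 0
    · exact Or.inl hx
    · right
      exact mul_self_eq_one_iff.1 (by rw [← sq]; exact h3 x hx)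
  have h5 : Fintype.card F ≤ 3 := by
    classical
    have h6 : (Finset.univ : Finset F) ⊆ {0, 1, -1} := by
      intro x _
      simpa using h4 x
    calc Fintype.card F = (Finset.univ : Finset F).card := rfl
      _ ≤ ({0, 1, -1} : Finset F).card := Finset.card_le_card h6
      _ ≤ 3 := Finset.card_le_three
  omega

/-- `SU_4(3)`: the monomial group lies in a class 6 group. -/
theorem lines_nine_le {D : Fin 4 → Submodule F (Fin 4 → F)}
    (hD : IsNondegenerateMDecomposition (hermForm 4 F 3) 1 D) :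
    ∃ R : Subgroup (Matrix.GeneralLinearGroup (Fin 4) F), IsSymplecticTypeGroup 2 R ∧
      ActsAbsolutelyIrreducibly (matrixSet R) ∧ R ≤ similarityGroup (hermForm 4 F 3) ∧
      Nat.card R = 64 ∧ Nat.card (Subgroup.center R) = 4 ∧
      decompositionStabilizer D ⊓ SG 4 F 3 ≤ subgroupNormalizer R := by
  have h2 := two_ne_zero_nine hF
  obtain ⟨i0, hi⟩ := exists_i_nine hF
  obtain ⟨b', hb1', hbD', -, hort'⟩ := exists_adapted_ON hF hD
  -- the orthonormal basis
  let u : Fin 4 → Fin 4 → F := fun i => b' i 0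
  have hu : IsON 3 u := by
    intro i j
    by_cases hij : i = j
    · subst hij
      rw [if_pos rfl]
      have := hb1' i 0 0
      rwa [if_pos rfl] at this
    · rw [if_neg hij]
      exact hort' i j 0 0 hij
  have hli := hu.linearIndependent hF
  let B : Module.Basis (Fin 4) F (Fin 4 → F) :=
    basisOfLinearIndependentOfCardEqFinrank hli (by rw [Fintype.card_fin, Module.finrank_fin_fun])
  have hB : ∀ i, B i = u i := fun i => by
    simp only [B, coe_basisOfLinearIndependentOfCardEqFinrank]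
  let η : (Σ _ : Fin 4, Fin 1) ≃ Fin 4 :=
    { toFun := fun x => x.1
      invFun := fun i => ⟨i, 0⟩
      left_inv := by rintro ⟨i, a⟩; rw [Subsingleton.elim a 0]
      right_inv := fun i => rfl }
  let b := B.reindex η.symm
  have hbe : ∀ i a, b ⟨i, a⟩ = u i := by
    intro i a
    simp only [b, Module.Basis.reindex_apply, hB]
    rfl
  have hDspan : ∀ i, D i = Submodule.span F {u i} := by
    intro i
    symm
    apply Submodule.eq_of_le_of_finrank_eq
    · rw [Submodule.span_singleton_le_iff_mem]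
      exact hbD' i 0
    · rw [finrank_span_singleton (hli.ne_zero i), hD.decomp.finrank_eq]
  have hb : ∀ i a, b ⟨i, a⟩ ∈ D i := by
    intro i a
    rw [hbe]
    exact hbD' i 0
  have hb' : ∀ i x, x ∈ D i → ∀ j, j ≠ i → ∀ a, b.repr x ⟨j, a⟩ = 0 := by
    intro i x hx j hji a
    rw [hDspan] at hx
    obtain ⟨c, rfl⟩ := Submodule.mem_span_singleton.1 hx
    rw [← hbe i 0, map_smul, Finsupp.smul_apply, Module.Basis.repr_self,
      Finsupp.single_eq_of_ne (by
        intro h
        apply hji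
        exact congrArg (fun z : (Σ _ : Fin 4, Fin 1) => z.1) h), smul_zero]
  let e : (Fin 4 → F) ≃ₗ[F] (Fin 4 → F) := B.equivFun
  have he : ∀ x i, e x i = b.repr x ⟨i, 0⟩ := by
    intro x i
    simp only [e, b, Module.Basis.equivFun_apply, Module.Basis.repr_reindex_apply]
    rfl
  have hform : ∀ x y, hermForm 4 F 3 x y = ∑ i, e x i * (e y i) ^ 3 := by
    intro x y
    have hx : x = ∑ i, e x i • u i := by
      conv_lhs => rw [← B.sum_equivFun x]
      exact Finset.sum_congr rfl fun i _ => by rw [hB]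
    have hy : y = ∑ i, e y i • u i := by
      conv_lhs => rw [← B.sum_equivFun y]
      exact Finset.sum_congr rfl fun i _ => by rw [hB]
    conv_lhs => rw [hx, hy]
    rw [hermForm_sum_left]
    refine Finset.sum_congr rfl fun i _ => ?_
    rw [hermForm_sum_right (q := 3) hF, Finset.sum_eq_single i]
    · rw [hermForm_smul_left, hermForm_smul_right, hu, if_pos rfl, mul_one]
    · intro j _ hji
      rw [hermForm_smul_left, hermForm_smul_right, hu, if_neg hji.symm, mul_zero, mul_zero]
    · intro h; exact absurd (Finset.mem_univ _) h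
  refine ⟨Rg e, type_Rg e h2 hi, absIrred_Rg e h2, ?_, card_Rg e h2 hi, card_center_Rg e h2 hi, ?_⟩
  · rintro g ⟨c, w, v, hc, hg⟩
    refine ⟨1, fun x y => ?_⟩
    rw [Units.val_one, one_mul, hform, hform, hg, hg]
    have h3 : ∀ j, Tm c w v (e x) j * Tm c w v (e y) j ^ 3 = e x (xo j v) * e y (xo j v) ^ 3 := by
      intro j
      simp only [Tm]
      have h4 := sf_four (F := F) w (xo j v)
      linear_combination (sf F w (xo j v) ^ 4 * e x (xo j v) * e y (xo j v) ^ 3) * hc +
        (e x (xo j v) * e y (xo j v) ^ 3) * h4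
    rw [Finset.sum_congr rfl fun j _ => h3 j]
    have h4 : Function.Bijective (fun j => xo j v) := by
      refine Function.Involutive.bijective fun j => xo_xo j v
    exact h4.sum_comp (fun j => e x j * e y j ^ 3)
  · have key : ∀ g ∈ decompositionStabilizer D ⊓ SG 4 F 3, ∀ h ∈ Rg e, g * h * g⁻¹ ∈ Rg e := by
      rintro g ⟨hg, hgS⟩ h hh
      have hg1' : (g : Matrix (Fin 4) (Fin 4) F).det = 1 := mem_specialLinear.mp hgS.2
      obtain ⟨σ, hσ⟩ := mem_decompositionStabilizer.mp hg
      obtain ⟨A, hA, hA'', hA'⟩ := decStab_coord b hb hb' g σ hσ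
      have hdet := det_decStab b hb hb' g σ hσ A hA''
      have hcoord : ∀ x i, e ((g : Matrix (Fin 4) (Fin 4) F) *ᵥ x) (σ i) = (A i).det * e x i := by
        intro x i
        rw [he, he, hA', Matrix.det_unique]
        simp
      refine conj_mem_Rg e h2 g σ (fun i => (A i).det) ?_ ?_ hcoord h hh
      · intro i
        have h5 : hermForm 4 F 3 ((g : Matrix (Fin 4) (Fin 4) F) *ᵥ u i)
            ((g : Matrix (Fin 4) (Fin 4) F) *ᵥ u i) = 1 := by
          have h6 : ∀ x y, hermForm 4 F 3 ((g : Matrix (Fin 4) (Fin 4) F) *ᵥ x)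
            ((g : Matrix (Fin 4) (Fin 4) F) *ᵥ y) = hermForm 4 F 3 x y := hgS.1
          rw [h6, hu, if_pos rfl]
        have h7 : ∀ j, e (u i) j = if j = i then 1 else 0 := by
          intro j
          rw [← hB]
          have h9 := B.equivFun_self i j
          rw [show e (B i) j = B.equivFun (B i) j from rfl, h9]
          by_cases hij : i = j
          · rw [if_pos hij, if_pos hij.symm]
          · rw [if_neg hij, if_neg (Ne.symm hij)]
        rw [hform, ← Equiv.sum_comp σ] at h5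
        have h8 : ∀ j, e ((g : Matrix (Fin 4) (Fin 4) F) *ᵥ u i) (σ j) *
            e ((g : Matrix (Fin 4) (Fin 4) F) *ᵥ u i) (σ j) ^ 3 =
            if j = i then (A i).det ^ 4 else 0 := by
          intro j
          rw [hcoord, h7]
          split_ifs with h
          · rw [h]; ring
          · ring
        rw [Finset.sum_congr rfl fun j _ => h8 j, Finset.sum_ite_eq' Finset.univ i] at h5
        simpa using h5
      · rw [← hdet, hg1', mul_one]
        rcases Int.units_eq_one_or (Equiv.Perm.sign (blockPerm 1 σ)) with h1 | h1 <;> rw [h1] <;> simp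
    intro g hg
    show g ∈ Subgroup.normalizer (Rg e : Set _)
    rw [Subgroup.mem_normalizer_iff]
    intro h
    refine ⟨key g hg h, fun h1 => ?_⟩
    have h2 := key g⁻¹ (Subgroup.inv_mem _ hg) _ h1
    rw [inv_inv] at h2
    have h3 : g⁻¹ * (g * h * g⁻¹) * g = h := by group
    rwa [h3] at h2

end Nine

end LN

end Cfsg.Agent.UCase
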