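import Mathlib
import Cfsg.Agent.UCase.FourMain
import Cfsg.Agent.Asch.FormOrth
import Cfsg.Agent.Asch.FormSubfield
import Cfsg.Agent.UCase.LinesNine

set_option autoImplicit false
set_option linter.unusedSectionVars false
set_option linter.unusedVariables false

/-!
`SU_4(q)`, `q ≤ 3`: the stabiliser of a pair of totally singular planes is contained in a
subfield group.
-/

namespace Cfsg.Agent.UCase

open scoped Matrix
open Cfsg.Geo Cfsg.Agent.Uni Cfsg.Agent.AschCases
open Matrix (GeneralLinearGroup)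

variable {F : Type*} [Field F] [Fintype F] {q n : ℕ}

/-- The fixed field of `x ↦ x ^ q`. -/
def fixF (hF : Fintype.card F = q ^ 2) : Subfield F :=
  RingHom.eqLocusField (conjHom hF) (RingHom.id F)

theorem mem_fixF (hF : Fintype.card F = q ^ 2) {x : F} : x ∈ fixF hF ↔ x ^ q = x := Iff.rfl

theorem card_fixF (hF : Fintype.card F = q ^ 2) : Nat.card (fixF hF) = q :=
  card_fixed hF

/-- Invariance of a rational structure up to a scalar. -/
theorem mem_subfieldSubgroup_of_cols {F₀ : Subfield F} {g P : GL (Fin n) F} {c : F} (hc : c ≠ 0)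
    (h : ∀ j, ∃ y : Fin n → F, (∀ i, y i ∈ F₀) ∧
      (g : Matrix (Fin n) (Fin n) F) *ᵥ ((P : Matrix (Fin n) (Fin n) F) *ᵥ Pi.single j 1) =
        c • ((P : Matrix (Fin n) (Fin n) F) *ᵥ y)) : g ∈ subfieldSubgroup F₀ P := by
  choose y hy hgy using h
  let s : GL (Fin n) F := Asch.scGL (Fin n) F (Units.mk0 c hc)
  have hsP : s ∈ subfieldSubgroup F₀ P := by
    refine ⟨s, Subgroup.mem_sup_right ⟨Units.mk0 c hc, rfl⟩, ?_⟩
    change P * s * P⁻¹ = s
    have h1 : P * s = s * P := by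
      apply Units.ext
      rw [Units.val_mul, Units.val_mul, Asch.scGL_val, Matrix.mul_smul, Matrix.smul_mul,
        Matrix.mul_one, Matrix.one_mul]
    rw [h1, mul_assoc, mul_inv_cancel, mul_one]
  have hg : g = s * (s⁻¹ * g) := by group
  rw [hg]
  refine Subgroup.mul_mem _ hsP (Asch.mem_subfieldSubgroup_of_entries fun i j => ?_)
  have h1 : ((P⁻¹ * (s⁻¹ * g) * P : GL (Fin n) F) : Matrix (Fin n) (Fin n) F) *ᵥ Pi.single j 1 =
      y j := by
    have h2 : ((s⁻¹ * g * P : GL (Fin n) F) : Matrix (Fin n) (Fin n) F) *ᵥ Pi.single j 1 =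
        (P : Matrix (Fin n) (Fin n) F) *ᵥ y j := by
      have h3 : ((s * (s⁻¹ * g * P) : GL (Fin n) F) : Matrix (Fin n) (Fin n) F) *ᵥ Pi.single j 1 =
          c • ((P : Matrix (Fin n) (Fin n) F) *ᵥ y j) := by
        rw [show s * (s⁻¹ * g * P) = g * P by group, Units.val_mul, ← Matrix.mulVec_mulVec, hgy]
      rw [Asch.scGL_mul_mulVec, Units.val_mk0] at h3
      exact smul_right_injective _ hc h3
    rw [show P⁻¹ * (s⁻¹ * g) * P = P⁻¹ * (s⁻¹ * g * P) by group, Units.val_mul,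
      ← Matrix.mulVec_mulVec, h2, Matrix.mulVec_mulVec, ← Units.val_mul, inv_mul_cancel,
      Units.val_one, Matrix.one_mulVec]
  have h4 := congrFun h1 i
  rw [Matrix.mulVec_single_one, Matrix.col_apply] at h4
  rw [h4]
  exact hy j i

/-- In a decomposition into two totally singular subspaces there are dual bases. -/
theorem exists_dual_bases (hF : Fintype.card F = q ^ 2) {k : ℕ}
    {D : Fin 2 → Submodule F (Fin n → F)} (hD : IsMDecomposition k D)
    (hts : ∀ i, IsTotallySingularFor (hermForm n F q) (D i)) :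
    ∃ u v : Fin k → Fin n → F, (∀ i, u i ∈ D 0) ∧ (∀ i, v i ∈ D 1) ∧
      (∀ i j, hermForm n F q (v i) (u j) = if i = j then 1 else 0) ∧
      (∀ x ∈ D 0, ∃ c : Fin k → F, x = ∑ i, c i • u i) ∧
      (∀ x ∈ D 1, ∃ c : Fin k → F, x = ∑ i, c i • v i) := by
  have htop : D 0 ⊔ D 1 = ⊤ := by
    rw [eq_top_iff, ← hD.iSup_eq_top]
    refine iSup_le fun i => ?_
    fin_cases i
    · exact le_sup_left
    · exact le_sup_right
  let b : Module.Basis (Fin k) F (D 0) := Module.finBasisOfFinrankEq F (D 0) (hD.finrank_eq 0)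
  let u : Fin k → Fin n → F := fun i => (b i : Fin n → F)
  have hspan0 : ∀ x ∈ D 0, ∃ c : Fin k → F, x = ∑ i, c i • u i := by
    intro x hx
    refine ⟨fun i => b.repr ⟨x, hx⟩ i, ?_⟩
    have h1 := b.sum_repr ⟨x, hx⟩
    have h2 := congrArg (fun y : D 0 => (y : Fin n → F)) h1
    simp only [AddSubmonoidClass.coe_finsetSum, Submodule.coe_smul] at h2
    exact h2.symm
  let T : D 1 →ₗ[F] (Fin k → F) :=
    { toFun := fun x j => hermForm n F q (x : Fin n → F) (u j)
      map_add' := fun x y => by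
        funext j
        simp only [Submodule.coe_add, hermForm_add_left, Pi.add_apply]
      map_smul' := fun c x => by
        funext j
        simp only [Submodule.coe_smul, hermForm_smul_left, Pi.smul_apply, smul_eq_mul,
          RingHom.id_apply] }
  have hTinj : Function.Injective T := by
    rw [← LinearMap.ker_eq_bot, LinearMap.ker_eq_bot']
    intro x hx
    have h1 : ∀ y, hermForm n F q (x : Fin n → F) y = 0 := by
      intro y
      have hy : y ∈ D 0 ⊔ D 1 := by rw [htop]; exact Submodule.mem_top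
      obtain ⟨y0, hy0, y1, hy1, rfl⟩ := Submodule.mem_sup.1 hy
      rw [hermForm_add_right hF, hts 1 _ x.2 _ hy1, add_zero]
      obtain ⟨c, rfl⟩ := hspan0 y0 hy0
      rw [hermForm_sum_right hF]
      refine Finset.sum_eq_zero fun i _ => ?_
      rw [hermForm_smul_right]
      have h2 : hermForm n F q (x : Fin n → F) (u i) = 0 := congrFun hx i
      rw [h2, mul_zero]
    apply Subtype.ext
    funext i
    have := h1 (Pi.single i 1)
    rw [hermForm_single_right' hF] at this
    exact this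
  have hTsurj : Function.Surjective T := by
    rw [← LinearMap.injective_iff_surjective_of_finrank_eq_finrank]
    · exact hTinj
    · rw [hD.finrank_eq, Module.finrank_fin_fun]
  choose v hv using fun i : Fin k => hTsurj (Pi.single i 1)
  have hvu : ∀ i j, hermForm n F q (v i : Fin n → F) (u j) = if i = j then 1 else 0 := by
    intro i j
    have h1 := congrFun (hv i) j
    rw [Pi.single_apply] at h1
    change hermForm n F q (v i : Fin n → F) (u j) = _ at h1
    rw [h1]
    by_cases hij : j = i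
    · rw [if_pos hij, if_pos hij.symm]
    · rw [if_neg hij, if_neg (Ne.symm hij)]
  refine ⟨u, fun i => (v i : Fin n → F), fun i => (b i).2, fun i => (v i).2, hvu, hspan0, ?_⟩
  intro x hx
  refine ⟨T ⟨x, hx⟩, ?_⟩
  have h1 : (⟨x, hx⟩ : D 1) = ∑ i, T ⟨x, hx⟩ i • v i := by
    apply hTinj
    rw [map_sum]
    funext j
    rw [Finset.sum_apply, Finset.sum_eq_single j]
    · rw [map_smul, Pi.smul_apply, hv, Pi.single_eq_same, smul_eq_mul, mul_one]
    · intro i _ hij
      rw [map_smul, Pi.smul_apply, hv, Pi.single_eq_of_ne hij.symm, smul_zero]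
    · intro h; exact absurd (Finset.mem_univ _) h
  have h2 := congrArg (fun y : D 1 => (y : Fin n → F)) h1
  simp only [AddSubmonoidClass.coe_finsetSum, Submodule.coe_smul] at h2
  exact h2


section Four

variable (hF : Fintype.card F = q ^ 2) {u v : Fin 2 → Fin 4 → F}

/-- The matrix with given columns. -/
def colM (p : Fin 4 → Fin 4 → F) : Matrix (Fin 4) (Fin 4) F := Matrix.of fun i j => p j i

theorem colM_mulVec (p : Fin 4 → Fin 4 → F) (c : Fin 4 → F) :
    colM p *ᵥ c = c 0 • p 0 + c 1 • p 1 + c 2 • p 2 + c 3 • p 3 := by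
  funext i
  simp only [colM, Matrix.mulVec, dotProduct, Matrix.of_apply, Fin.sum_univ_four, Pi.add_apply,
    Pi.smul_apply, smul_eq_mul]
  ring

include hF

theorem coef (hu : ∀ i j, hermForm 4 F q (u i) (u j) = 0) (hv : ∀ i j, hermForm 4 F q (v i) (v j) = 0)
    (hvu : ∀ i j, hermForm 4 F q (v i) (u j) = if i = j then 1 else 0) (a0 a1 b0 b1 : F) :
    hermForm 4 F q (a0 • u 0 + a1 • u 1 + b0 • v 0 + b1 • v 1) (v 0) = a0 ∧
    hermForm 4 F q (a0 • u 0 + a1 • u 1 + b0 • v 0 + b1 • v 1) (v 1) = a1 ∧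
    hermForm 4 F q (a0 • u 0 + a1 • u 1 + b0 • v 0 + b1 • v 1) (u 0) = b0 ∧
    hermForm 4 F q (a0 • u 0 + a1 • u 1 + b0 • v 0 + b1 • v 1) (u 1) = b1 := by
  have huv : ∀ i j, hermForm 4 F q (u i) (v j) = if i = j then 1 else 0 := by
    intro i j
    rw [← hermForm_symm hF, hvu]
    by_cases h : i = j
    · rw [if_pos h, if_pos h.symm, one_pow]
    · rw [if_neg h, if_neg (Ne.symm h), zero_pow_q hF]
  refine ⟨?_, ?_, ?_, ?_⟩ <;>
    simp only [hermForm_add_left, hermForm_smul_left, hu, hv, huv, hvu] <;> simp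

theorem colM_det_ne_zero (hu : ∀ i j, hermForm 4 F q (u i) (u j) = 0)
    (hv : ∀ i j, hermForm 4 F q (v i) (v j) = 0)
    (hvu : ∀ i j, hermForm 4 F q (v i) (u j) = if i = j then 1 else 0) :
    (colM ![u 0, u 1, v 0, v 1]).det ≠ 0 := by
  intro h0
  obtain ⟨c, hc, hc0⟩ := Matrix.exists_mulVec_eq_zero_iff.2 h0
  apply hc
  rw [colM_mulVec] at hc0
  change c 0 • u 0 + c 1 • u 1 + c 2 • v 0 + c 3 • v 1 = 0 at hc0
  obtain ⟨h1, h2, h3, h4⟩ := coef hF hu hv hvu (c 0) (c 1) (c 2) (c 3)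
  rw [hc0, hermForm_zero_left] at h1 h2 h3 h4
  funext i
  fin_cases i
  · exact h1.symm
  · exact h2.symm
  · exact h3.symm
  · exact h4.symm

omit hF in
/-- The `F_q`-linear map. -/
def wv (q : ℕ) (u v : Fin 2 → Fin 4 → F) (x y : F) : Fin 4 → F :=
  x • u 0 + y • u 1 + y ^ q • v 0 + (-(x ^ q)) • v 1

theorem wv_form (hu : ∀ i j, hermForm 4 F q (u i) (u j) = 0) (hv : ∀ i j, hermForm 4 F q (v i) (v j) = 0)
    (hvu : ∀ i j, hermForm 4 F q (v i) (u j) = if i = j then 1 else 0) (x y x' y' : F) :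
    hermForm 4 F q (wv q u v x y) (wv q u v x' y') = (x * y' - y * x') - (x * y' - y * x') ^ q := by
  obtain ⟨h1, h2, h3, h4⟩ := coef hF hu hv hvu x y (y ^ q) (-(x ^ q))
  change hermForm 4 F q (wv q u v x y) (v 0) = x at h1
  change hermForm 4 F q (wv q u v x y) (v 1) = y at h2
  change hermForm 4 F q (wv q u v x y) (u 0) = y ^ q at h3
  change hermForm 4 F q (wv q u v x y) (u 1) = -(x ^ q) at h4
  conv_lhs => rw [show wv q u v x' y' = x' • u 0 + y' • u 1 + y' ^ q • v 0 + (-(x' ^ q)) • v 1 from rfl]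
  rw [hermForm_add_right hF, hermForm_add_right hF, hermForm_add_right hF, hermForm_smul_right,
    hermForm_smul_right, hermForm_smul_right, hermForm_smul_right, h1, h2, h3, h4, pow_q_pow_q hF,
    neg_pow_q hF, pow_q_pow_q hF, sub_pow_q hF, mul_pow, mul_pow]
  ring

end Four

theorem exists_fix_decomp (hF : Fintype.card F = q ^ 2) {θ : F} (hθ : θ ^ q ≠ θ) (x : F) :
    ∃ c d : F, c ^ q = c ∧ d ^ q = d ∧ x = c + d * θ := by
  have h1 : θ - θ ^ q ≠ 0 := sub_ne_zero.2 hθ.symm
  have hd : ((x - x ^ q) / (θ - θ ^ q)) ^ q = (x - x ^ q) / (θ - θ ^ q) := by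
    rw [div_pow, sub_pow_q hF, sub_pow_q hF, pow_q_pow_q hF, pow_q_pow_q hF,
      div_eq_div_iff (by rw [sub_ne_zero]; exact hθ) h1]
    ring
  refine ⟨x - (x - x ^ q) / (θ - θ ^ q) * θ, (x - x ^ q) / (θ - θ ^ q), ?_, hd, by ring⟩
  rw [sub_pow_q hF, mul_pow, hd]
  field_simp
  ring

theorem exists_lambda (hF : Fintype.card F = q ^ 2) (hq : q = 2 ∨ q = 3) {d : F} (hd : d ^ q = d)
    (hd0 : d ≠ 0) : ∃ c : F, c ≠ 0 ∧ c ^ q = d * c := by
  rcases hq with rfl | rfl
  · obtain rfl : d = 1 := four_fixed hF hd hd0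
    exact ⟨1, one_ne_zero, by norm_num⟩
  · have h1 : d * d = 1 := by
      have : d * (d * d) = d * 1 := by rw [mul_one]; rw [← sq, ← pow_succ']; exact hd
      exact mul_left_cancel₀ hd0 this
    rcases mul_self_eq_one_iff.1 h1 with rfl | rfl
    · exact ⟨1, one_ne_zero, by norm_num⟩
    · obtain ⟨i, hi⟩ := LN.exists_i_nine hF
      refine ⟨i, ?_, ?_⟩
      · rintro rfl
        rw [mul_zero] at hi
        exact (neg_ne_zero.2 one_ne_zero) hi.symm
      · calc i ^ 3 = i * i * i := by ring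
          _ = -1 * i := by rw [hi]


/-- Solving the unitarity relations for a `2 × 2` block. -/
theorem block_rel (hF : Fintype.card F = q ^ 2) {a b c d a' b' c' d' : F}
    (h00 : a' * a ^ q + c' * c ^ q = 1) (h01 : a' * b ^ q + c' * d ^ q = 0)
    (h10 : b' * a ^ q + d' * c ^ q = 0) (h11 : b' * b ^ q + d' * d ^ q = 1)
    (hdet : (a * d - b * c) * (a' * d' - b' * c') = 1) :
    (a * d - b * c) ≠ 0 ∧ (a * d - b * c) ^ q = (a * d - b * c) ∧ a' * (a * d - b * c) = d ^ q ∧
      c' * (a * d - b * c) = -b ^ q ∧ b' * (a * d - b * c) = -c ^ q ∧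
      d' * (a * d - b * c) = a ^ q := by
  have hδ : (a * d - b * c) ^ q = a ^ q * d ^ q - b ^ q * c ^ q := by
    rw [sub_pow_q hF, mul_pow, mul_pow]
  have h1 : (a' * d' - b' * c') * (a * d - b * c) ^ q = 1 := by
    rw [hδ]
    linear_combination (b' * b ^ q + d' * d ^ q) * h00 + h11 - (b' * a ^ q + d' * c ^ q) * h01
  have h2 : (a' * d' - b' * c') ≠ 0 := by
    intro h
    rw [h, mul_zero] at hdet
    exact zero_ne_one hdet
  have h3 : (a * d - b * c) ≠ 0 := by
    intro h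
    rw [h, zero_mul] at hdet
    exact zero_ne_one hdet
  have h4 : (a * d - b * c) ^ q = (a * d - b * c) := by
    apply mul_left_cancel₀ h2
    rw [h1, mul_comm, hdet]
  refine ⟨h3, h4, ?_, ?_, ?_, ?_⟩
  · rw [← h4, hδ]
    linear_combination d ^ q * h00 - c ^ q * h01
  · rw [← h4, hδ]
    linear_combination a ^ q * h01 - b ^ q * h00
  · rw [← h4, hδ]
    linear_combination d ^ q * h10 - c ^ q * h11
  · rw [← h4, hδ]
    linear_combination a ^ q * h11 - b ^ q * h10

theorem det_diag_blocks (a b c d a' b' c' d' : F) :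
    (!![a, b, 0, 0; c, d, 0, 0; 0, 0, a', b'; 0, 0, c', d'] : Matrix (Fin 4) (Fin 4) F).det =
      (a * d - b * c) * (a' * d' - b' * c') := by
  rw [Matrix.det_succ_row_zero, Fin.sum_univ_four, Matrix.det_fin_three, Matrix.det_fin_three,
    Matrix.det_fin_three, Matrix.det_fin_three]
  simp [Fin.succAbove]
  ring

theorem det_anti_blocks (a b c d a' b' c' d' : F) :
    (!![0, 0, a', b'; 0, 0, c', d'; a, b, 0, 0; c, d, 0, 0] : Matrix (Fin 4) (Fin 4) F).det =
      (a * d - b * c) * (a' * d' - b' * c') := by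
  rw [Matrix.det_succ_row_zero, Fin.sum_univ_four, Matrix.det_fin_three, Matrix.det_fin_three,
    Matrix.det_fin_three, Matrix.det_fin_three]
  simp [Fin.succAbove]
  ring

/-- The matrix of a linear map in a basis. -/
theorem mul_colM (A M : Matrix (Fin 4) (Fin 4) F) (p : Fin 4 → Fin 4 → F)
    (h : ∀ j, A *ᵥ p j = M 0 j • p 0 + M 1 j • p 1 + M 2 j • p 2 + M 3 j • p 3) :
    A * colM p = colM p * M := by
  ext i j
  have h1 := congrFun (h j) i
  have h2 : (A * colM p) i j = (A *ᵥ p j) i := by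
    rw [Matrix.mul_apply]; rfl
  rw [h2, h1, Matrix.mul_apply, Fin.sum_univ_four]
  simp only [colM, Matrix.of_apply, Pi.add_apply, Pi.smul_apply, smul_eq_mul]
  ring

/-- For `q ≤ 3` the stabiliser of a pair of complementary totally singular planes is contained in
a subfield group. -/
theorem ti_four_le (hF : Fintype.card F = q ^ 2) (hq : q = 2 ∨ q = 3)
    {D : Fin 2 → Submodule F (Fin 4 → F)} (hD : IsMDecomposition 2 D)
    (hts : ∀ i, IsTotallySingularFor (hermForm 4 F q) (D i)) :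
    ∃ (F₀ : Subfield F) (P : GL (Fin 4) F) (ζ : F), Fintype.card F = Nat.card F₀ ^ 2 ∧ ζ ≠ 0 ∧
      ζ + ζ ^ q = 0 ∧ IsFormRationalStructure (hermForm 4 F q) F₀ ζ P ∧
      (∀ u : Fin 4 → F, (∀ i, u i ∈ F₀) →
        (hermForm 4 F q) (Matrix.mulVec (P : Matrix (Fin 4) (Fin 4) F) u)
          (Matrix.mulVec (P : Matrix (Fin 4) (Fin 4) F) u) = 0) ∧
      decompositionStabilizer D ⊓ SG 4 F q ≤ subfieldSubgroup F₀ P := by
  obtain ⟨u, v, huD, hvD, hvu, hsu, hsv⟩ := exists_dual_bases hF hD hts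
  have hu : ∀ i j, hermForm 4 F q (u i) (u j) = 0 := fun i j => hts 0 _ (huD i) _ (huD j)
  have hv : ∀ i j, hermForm 4 F q (v i) (v j) = 0 := fun i j => hts 1 _ (hvD i) _ (hvD j)
  have huv : ∀ i j, hermForm 4 F q (u i) (v j) = if i = j then 1 else 0 := by
    intro i j
    rw [← hermForm_symm hF, hvu]
    by_cases h : i = j
    · rw [if_pos h, if_pos h.symm, one_pow]
    · rw [if_neg h, if_neg (Ne.symm h), zero_pow_q hF]
  obtain ⟨θ, hθ⟩ := exists_pow_q_ne (F := F) hF
  obtain ⟨ζ, hζ0, hζ⟩ := exists_skew (F := F) hF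
  let p : Fin 4 → Fin 4 → F := ![wv q u v 1 0, wv q u v θ 0, wv q u v 0 1, wv q u v 0 θ]
  have hp : ∀ c : Fin 4 → F, colM p *ᵥ c = (c 0 + c 1 * θ) • u 0 + (c 2 + c 3 * θ) • u 1 +
      (c 2 + c 3 * θ ^ q) • v 0 + (-(c 0 + c 1 * θ ^ q)) • v 1 := by
    intro c
    rw [colM_mulVec]
    funext i
    simp only [p, wv, Pi.add_apply, Pi.smul_apply, smul_eq_mul, Matrix.cons_val_zero,
      Matrix.cons_val_one, Matrix.cons_val, zero_pow_q hF, one_pow]
    ring
  have hpw : ∀ c : Fin 4 → F, (∀ i, c i ^ q = c i) →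
      colM p *ᵥ c = wv q u v (c 0 + c 1 * θ) (c 2 + c 3 * θ) := by
    intro c hc
    rw [hp, wv, add_pow_q hF, add_pow_q hF, mul_pow, mul_pow, hc, hc, hc, hc]
  have hdetp : (colM p).det ≠ 0 := by
    intro h0
    obtain ⟨c, hc, hc0⟩ := Matrix.exists_mulVec_eq_zero_iff.2 h0
    apply hc
    rw [hp] at hc0
    obtain ⟨h1, h2, h3, h4⟩ := coef hF hu hv hvu (c 0 + c 1 * θ) (c 2 + c 3 * θ) (c 2 + c 3 * θ ^ q)
      (-(c 0 + c 1 * θ ^ q))
    rw [hc0, hermForm_zero_left] at h1 h2 h3 h4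
    have hθ' : θ ^ q - θ ≠ 0 := sub_ne_zero.2 hθ
    have hc1 : c 1 = 0 := by
      have : c 1 * (θ ^ q - θ) = 0 := by linear_combination h1 + h4
      exact (mul_eq_zero.1 this).resolve_right hθ'
    have hc3 : c 3 = 0 := by
      have : c 3 * (θ ^ q - θ) = 0 := by linear_combination h2 - h3
      exact (mul_eq_zero.1 this).resolve_right hθ'
    have hc00 : c 0 = 0 := by rw [hc1] at h1; linear_combination -h1
    have hc2 : c 2 = 0 := by rw [hc3] at h2; linear_combination -h2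
    funext i
    fin_cases i
    · exact hc00
    · exact hc1
    · exact hc2
    · exact hc3
  let P : GL (Fin 4) F := Matrix.GeneralLinearGroup.mkOfDetNeZero (colM p) hdetp
  have hP : (P : Matrix (Fin 4) (Fin 4) F) = colM p := rfl
  refine ⟨fixF hF, P, ζ, by rw [card_fixF, hF], hζ0, by rw [hζ]; ring, ?_, ?_, ?_⟩
  · intro x y hx hy
    rw [hP, hpw x hx, hpw y hy, wv_form hF hu hv hvu, mem_fixF, mul_pow, hζ, sub_pow_q hF,
      pow_q_pow_q hF]
    ring
  · intro x hx
    rw [hP, hpw x hx, wv_form hF hu hv hvu]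
    rw [show (x 0 + x 1 * θ) * (x 2 + x 3 * θ) - (x 2 + x 3 * θ) * (x 0 + x 1 * θ) = 0 by ring,
      zero_pow_q hF, sub_zero]
  rintro g ⟨⟨σ, hσ⟩, hg⟩
  have hgf : ∀ x y, hermForm 4 F q ((g : Matrix (Fin 4) (Fin 4) F) *ᵥ x)
    ((g : Matrix (Fin 4) (Fin 4) F) *ᵥ y) = hermForm 4 F q x y := hg.1
  have hgd : (g : Matrix (Fin 4) (Fin 4) F).det = 1 := mem_specialLinear.1 hg.2
  have hmap : ∀ i, ∀ x ∈ D i, (g : Matrix (Fin 4) (Fin 4) F) *ᵥ x ∈ D (σ i) := by
    intro i x hx
    rw [← hσ]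
    exact ⟨x, hx, Matrix.toLin'_apply _ _⟩
  have hQ := colM_det_ne_zero hF hu hv hvu
  -- the key: images of the `wv` vectors
  have key : ∃ c : F, c ≠ 0 ∧ ∀ x y, ∃ x' y',
      (g : Matrix (Fin 4) (Fin 4) F) *ᵥ wv q u v x y = c • wv q u v x' y' := by
    have hgw : ∀ x y, (g : Matrix (Fin 4) (Fin 4) F) *ᵥ wv q u v x y =
        x • ((g : Matrix (Fin 4) (Fin 4) F) *ᵥ u 0) + y • ((g : Matrix (Fin 4) (Fin 4) F) *ᵥ u 1) +
        y ^ q • ((g : Matrix (Fin 4) (Fin 4) F) *ᵥ v 0) +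
        (-(x ^ q)) • ((g : Matrix (Fin 4) (Fin 4) F) *ᵥ v 1) := by
      intro x y
      rw [wv, Matrix.mulVec_add, Matrix.mulVec_add, Matrix.mulVec_add, Matrix.mulVec_smul,
        Matrix.mulVec_smul, Matrix.mulVec_smul, Matrix.mulVec_smul]
    have hcase : (σ 0 = 0 ∧ σ 1 = 1) ∨ (σ 0 = 1 ∧ σ 1 = 0) := by
      have : ∀ τ : Equiv.Perm (Fin 2), (τ 0 = 0 ∧ τ 1 = 1) ∨ (τ 0 = 1 ∧ τ 1 = 0) := by decide
      exact this σ
    rcases hcase with ⟨h0, h1⟩ | ⟨h0, h1⟩
    · obtain ⟨a, ha⟩ := hsu _ (h0 ▸ hmap 0 _ (huD 0))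
      obtain ⟨b, hb⟩ := hsu _ (h0 ▸ hmap 0 _ (huD 1))
      obtain ⟨a', ha'⟩ := hsv _ (h1 ▸ hmap 1 _ (hvD 0))
      obtain ⟨b', hb'⟩ := hsv _ (h1 ▸ hmap 1 _ (hvD 1))
      rw [Fin.sum_univ_two] at ha hb ha' hb'
      have r00 := hgf (v 0) (u 0)
      have r01 := hgf (v 0) (u 1)
      have r10 := hgf (v 1) (u 0)
      have r11 := hgf (v 1) (u 1)
      rw [ha, ha'] at r00
      rw [hb, ha'] at r01
      rw [ha, hb'] at r10
      rw [hb, hb'] at r11
      simp only [hermForm_add_left, hermForm_add_right hF, hermForm_smul_left, hermForm_smul_right,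
        hvu] at r00 r01 r10 r11
      have hdet : (a 0 * b 1 - b 0 * a 1) * (a' 0 * b' 1 - b' 0 * a' 1) = 1 := by
        have h2 : (g : Matrix (Fin 4) (Fin 4) F) * colM ![u 0, u 1, v 0, v 1] =
            colM ![u 0, u 1, v 0, v 1] *
              !![a 0, b 0, 0, 0; a 1, b 1, 0, 0; 0, 0, a' 0, b' 0; 0, 0, a' 1, b' 1] := by
          apply mul_colM
          intro j
          fin_cases j
          · change (g : Matrix (Fin 4) (Fin 4) F) *ᵥ u 0 =
              a 0 • u 0 + a 1 • u 1 + (0 : F) • v 0 + (0 : F) • v 1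
            rw [ha, zero_smul, zero_smul, add_zero, add_zero]
          · change (g : Matrix (Fin 4) (Fin 4) F) *ᵥ u 1 =
              b 0 • u 0 + b 1 • u 1 + (0 : F) • v 0 + (0 : F) • v 1
            rw [hb, zero_smul, zero_smul, add_zero, add_zero]
          · change (g : Matrix (Fin 4) (Fin 4) F) *ᵥ v 0 =
              (0 : F) • u 0 + (0 : F) • u 1 + a' 0 • v 0 + a' 1 • v 1
            rw [ha', zero_smul, zero_smul, zero_add, zero_add]
          · change (g : Matrix (Fin 4) (Fin 4) F) *ᵥ v 1 =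
              (0 : F) • u 0 + (0 : F) • u 1 + b' 0 • v 0 + b' 1 • v 1
            rw [hb', zero_smul, zero_smul, zero_add, zero_add]
        have h3 := congrArg Matrix.det h2
        rw [Matrix.det_mul, Matrix.det_mul, hgd, one_mul] at h3
        have h4 := mul_left_cancel₀ hQ ((mul_one _).trans h3)
        rw [← det_diag_blocks, ← h4]
      simp at r00 r01 r10 r11
      obtain ⟨hδ0, hδ, e1, e2, e3, e4⟩ := block_rel hF (a := a 0) (b := b 0) (c := a 1) (d := b 1)
        (a' := a' 0) (b' := b' 0) (c' := a' 1) (d' := b' 1) (by linear_combination r00)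
        (by linear_combination r01) (by linear_combination r10) (by linear_combination r11) hdet
      set δ := a 0 * b 1 - b 0 * a 1 with hδdef
      obtain ⟨c, hc0, hc⟩ := exists_lambda hF hq hδ hδ0
      refine ⟨c, hc0, fun x y => ⟨(a 0 * x + b 0 * y) / c, (a 1 * x + b 1 * y) / c, ?_⟩⟩
      rw [hgw, ha, hb, ha', hb']
      have f1 : c * ((a 0 * x + b 0 * y) / c) = a 0 * x + b 0 * y := by field_simp
      have f2 : c * ((a 1 * x + b 1 * y) / c) = a 1 * x + b 1 * y := by field_simp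
      have f3 : c * ((a 1 * x + b 1 * y) / c) ^ q = y ^ q * a' 0 - x ^ q * b' 0 := by
        apply mul_left_cancel₀ hδ0
        rw [div_pow, hc, add_pow_q hF, mul_pow, mul_pow]
        field_simp
        linear_combination x ^ q * e3 - y ^ q * e1
      have f4 : c * ((a 0 * x + b 0 * y) / c) ^ q = -(y ^ q * a' 1 - x ^ q * b' 1) := by
        apply mul_left_cancel₀ hδ0
        rw [div_pow, hc, add_pow_q hF, mul_pow, mul_pow]
        field_simp
        linear_combination y ^ q * e2 - x ^ q * e4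
      funext i
      simp only [wv, Pi.add_apply, Pi.smul_apply, smul_eq_mul]
      linear_combination (-u 0 i) * f1 - u 1 i * f2 - v 0 i * f3 + v 1 i * f4
    · obtain ⟨a, ha⟩ := hsv _ (h0 ▸ hmap 0 _ (huD 0))
      obtain ⟨b, hb⟩ := hsv _ (h0 ▸ hmap 0 _ (huD 1))
      obtain ⟨a', ha'⟩ := hsu _ (h1 ▸ hmap 1 _ (hvD 0))
      obtain ⟨b', hb'⟩ := hsu _ (h1 ▸ hmap 1 _ (hvD 1))
      rw [Fin.sum_univ_two] at ha hb ha' hb'
      have r00 := hgf (v 0) (u 0)
      have r01 := hgf (v 0) (u 1)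
      have r10 := hgf (v 1) (u 0)
      have r11 := hgf (v 1) (u 1)
      rw [ha, ha'] at r00
      rw [hb, ha'] at r01
      rw [ha, hb'] at r10
      rw [hb, hb'] at r11
      simp only [hermForm_add_left, hermForm_add_right hF, hermForm_smul_left, hermForm_smul_right,
        huv, hvu] at r00 r01 r10 r11
      have hdet : (a 0 * b 1 - b 0 * a 1) * (a' 0 * b' 1 - b' 0 * a' 1) = 1 := by
        have h2 : (g : Matrix (Fin 4) (Fin 4) F) * colM ![u 0, u 1, v 0, v 1] =
            colM ![u 0, u 1, v 0, v 1] *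
              !![0, 0, a' 0, b' 0; 0, 0, a' 1, b' 1; a 0, b 0, 0, 0; a 1, b 1, 0, 0] := by
          apply mul_colM
          intro j
          fin_cases j
          · change (g : Matrix (Fin 4) (Fin 4) F) *ᵥ u 0 =
              (0 : F) • u 0 + (0 : F) • u 1 + a 0 • v 0 + a 1 • v 1
            rw [ha, zero_smul, zero_smul, zero_add, zero_add]
          · change (g : Matrix (Fin 4) (Fin 4) F) *ᵥ u 1 =
              (0 : F) • u 0 + (0 : F) • u 1 + b 0 • v 0 + b 1 • v 1
            rw [hb, zero_smul, zero_smul, zero_add, zero_add]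
          · change (g : Matrix (Fin 4) (Fin 4) F) *ᵥ v 0 =
              a' 0 • u 0 + a' 1 • u 1 + (0 : F) • v 0 + (0 : F) • v 1
            rw [ha', zero_smul, zero_smul, add_zero, add_zero]
          · change (g : Matrix (Fin 4) (Fin 4) F) *ᵥ v 1 =
              b' 0 • u 0 + b' 1 • u 1 + (0 : F) • v 0 + (0 : F) • v 1
            rw [hb', zero_smul, zero_smul, add_zero, add_zero]
        have h3 := congrArg Matrix.det h2
        rw [Matrix.det_mul, Matrix.det_mul, hgd, one_mul] at h3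
        have h4 := mul_left_cancel₀ hQ ((mul_one _).trans h3)
        rw [← det_anti_blocks, ← h4]
      simp at r00 r01 r10 r11
      obtain ⟨hδ0, hδ, e1, e2, e3, e4⟩ := block_rel hF (a := a 0) (b := b 0) (c := a 1) (d := b 1)
        (a' := a' 0) (b' := b' 0) (c' := a' 1) (d' := b' 1) (by linear_combination r00)
        (by linear_combination r01) (by linear_combination r10) (by linear_combination r11) hdet
      set δ := a 0 * b 1 - b 0 * a 1 with hδdef
      obtain ⟨c, hc0, hc⟩ := exists_lambda hF hq (d := -(δ⁻¹)) (by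
        rw [neg_pow_q hF, inv_pow, hδ]) (neg_ne_zero.2 (inv_ne_zero hδ0))
      have hcδ : δ * c ^ q = -c := by
        rw [hc]; field_simp
      refine ⟨c, hc0, fun x y => ⟨(y ^ q * a' 0 - x ^ q * b' 0) / c,
        (y ^ q * a' 1 - x ^ q * b' 1) / c, ?_⟩⟩
      rw [hgw, ha, hb, ha', hb']
      have f1 : c * ((y ^ q * a' 0 - x ^ q * b' 0) / c) = y ^ q * a' 0 - x ^ q * b' 0 := by
        field_simp
      have f2 : c * ((y ^ q * a' 1 - x ^ q * b' 1) / c) = y ^ q * a' 1 - x ^ q * b' 1 := by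
        field_simp
      have f3 : c * ((y ^ q * a' 1 - x ^ q * b' 1) / c) ^ q = a 0 * x + b 0 * y := by
        have g1 : (y ^ q * a' 1 - x ^ q * b' 1) * δ = -(a 0 * x + b 0 * y) ^ q := by
          rw [add_pow_q hF, mul_pow, mul_pow]
          linear_combination y ^ q * e2 - x ^ q * e4
        have g2 : (y ^ q * a' 1 - x ^ q * b' 1) ^ q * δ = -(a 0 * x + b 0 * y) := by
          have := congrArg (fun z => z ^ q) g1
          rw [mul_pow, hδ, neg_pow_q hF, pow_q_pow_q hF] at this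
          exact this
        rw [div_pow]
        have hcq : c ^ q ≠ 0 := pow_ne_zero _ hc0
        rw [mul_div_assoc', div_eq_iff hcq]
        apply mul_left_cancel₀ hδ0
        linear_combination c * g2 - (a 0 * x + b 0 * y) * hcδ
      have f4 : c * ((y ^ q * a' 0 - x ^ q * b' 0) / c) ^ q = -(a 1 * x + b 1 * y) := by
        have g1 : (y ^ q * a' 0 - x ^ q * b' 0) * δ = (a 1 * x + b 1 * y) ^ q := by
          rw [add_pow_q hF, mul_pow, mul_pow]
          linear_combination y ^ q * e1 - x ^ q * e3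
        have g2 : (y ^ q * a' 0 - x ^ q * b' 0) ^ q * δ = (a 1 * x + b 1 * y) := by
          have := congrArg (fun z => z ^ q) g1
          rw [mul_pow, hδ, pow_q_pow_q hF] at this
          exact this
        rw [div_pow]
        have hcq : c ^ q ≠ 0 := pow_ne_zero _ hc0
        rw [mul_div_assoc', div_eq_iff hcq]
        apply mul_left_cancel₀ hδ0
        linear_combination c * g2 + (a 1 * x + b 1 * y) * hcδ
      funext i
      simp only [wv, Pi.add_apply, Pi.smul_apply, smul_eq_mul]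
      linear_combination (-u 0 i) * f1 - u 1 i * f2 - v 0 i * f3 + v 1 i * f4
  obtain ⟨c, hc0, hc⟩ := key
  apply mem_subfieldSubgroup_of_cols hc0
  have hrep : ∀ x y, ∃ z : Fin 4 → F, (∀ i, z i ∈ fixF hF) ∧
      wv q u v x y = (P : Matrix (Fin 4) (Fin 4) F) *ᵥ z := by
    intro x y
    obtain ⟨c0, c1, h0, h1, rfl⟩ := exists_fix_decomp hF hθ x
    obtain ⟨c2, c3, h2, h3, rfl⟩ := exists_fix_decomp hF hθ y
    refine ⟨![c0, c1, c2, c3], ?_, ?_⟩
    · intro i
      fin_cases i
      · exact h0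
      · exact h1
      · exact h2
      · exact h3
    · rw [hP, hpw]
      · rfl
      · intro i
        fin_cases i
        · exact h0
        · exact h1
        · exact h2
        · exact h3
  have hcol : ∀ j, ∃ x y, (P : Matrix (Fin 4) (Fin 4) F) *ᵥ Pi.single j 1 = wv q u v x y := by
    intro j
    have h1 : (P : Matrix (Fin 4) (Fin 4) F) *ᵥ Pi.single j 1 = p j := by
      rw [Matrix.mulVec_single_one]
      rfl
    rw [h1]
    fin_cases j
    · exact ⟨1, 0, rfl⟩
    · exact ⟨θ, 0, rfl⟩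
    · exact ⟨0, 1, rfl⟩
    · exact ⟨0, θ, rfl⟩
  intro j
  obtain ⟨x, y, hxy⟩ := hcol j
  obtain ⟨x', y', hxy'⟩ := hc x y
  obtain ⟨z, hz, hz'⟩ := hrep x' y'
  exact ⟨z, hz, by rw [hxy, hxy', hz']⟩

end Cfsg.Agent.UCase
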