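import Mathlib
import Cfsg.Agent.UCase.TIFour

set_option autoImplicit false
set_option linter.unusedSectionVars false
set_option linter.unusedVariables false

/-!
Descent: the fixed points of a semilinear involution form a rational structure.
-/

namespace Cfsg.Agent.UCase

open scoped Matrix
open Cfsg.Geo Cfsg.Agent.Uni Cfsg.Agent.AschCases
open Matrix (GeneralLinearGroup)

variable {F : Type*} [Field F] [Fintype F] {q n : ℕ}

/-- Descent for a semilinear involution. -/
theorem exists_descent (hF : Fintype.card F = q ^ 2) (τ : (Fin n → F) → (Fin n → F))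
    (hadd : ∀ x y, τ (x + y) = τ x + τ y) (hsmul : ∀ (c : F) x, τ (c • x) = c ^ q • τ x)
    (hinv : ∀ x, τ (τ x) = x) :
    ∃ P : GL (Fin n) F, ∀ x, τ x = x ↔
      ∃ y : Fin n → F, (∀ i, y i ∈ fixF hF) ∧ x = (P : Matrix (Fin n) (Fin n) F) *ᵥ y := by
  classical
  let S : Set (Fin n → F) := {x | τ x = x}
  have hspan : Submodule.span F S = ⊤ := by
    rw [eq_top_iff]
    intro v _
    obtain ⟨θ, hθ⟩ := exists_pow_q_ne (F := F) hF
    have h1 : v + τ v ∈ S := by
      change τ (v + τ v) = v + τ v
      rw [hadd, hinv, add_comm]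
    have h2 : θ • v + θ ^ q • τ v ∈ S := by
      change τ (θ • v + θ ^ q • τ v) = θ • v + θ ^ q • τ v
      rw [hadd, hsmul, hsmul, hinv, pow_q_pow_q hF, add_comm]
    have h3 : v = (θ ^ q - θ)⁻¹ • (θ ^ q • (v + τ v) - (θ • v + θ ^ q • τ v)) := by
      have h4 : θ ^ q • (v + τ v) - (θ • v + θ ^ q • τ v) = (θ ^ q - θ) • v := by
        rw [smul_add, sub_smul]; abel
      rw [h4, smul_smul, inv_mul_cancel₀ (sub_ne_zero.2 hθ), one_smul]
    rw [h3]
    exact Submodule.smul_mem _ _ (Submodule.sub_mem _
      (Submodule.smul_mem _ _ (Submodule.subset_span h1)) (Submodule.subset_span h2))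
  obtain ⟨b, hbS, hbspan, hbli⟩ := exists_linearIndependent F S
  rw [hspan] at hbspan
  let B : Module.Basis b F (Fin n → F) := Module.Basis.mk hbli (by rw [Subtype.range_coe, hbspan])
  have hcard : Nat.card b = n := by
    have := Module.finrank_eq_nat_card_basis B
    rw [Module.finrank_fin_fun] at this
    exact this.symm
  have hfin : Finite b := Module.Finite.finite_basis B
  let η : b ≃ Fin n := (Finite.equivFin b).trans (finCongr hcard)
  let B' : Module.Basis (Fin n) F (Fin n → F) := B.reindex η
  have hB' : ∀ i, τ (B' i) = B' i := by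
    intro i
    have : B' i ∈ S := by
      simp only [B', Module.Basis.reindex_apply, B, Module.Basis.mk_apply]
      exact hbS (Subtype.coe_prop _)
    exact this
  let P0 : Matrix (Fin n) (Fin n) F := Matrix.of fun i j => B' j i
  have hP0 : ∀ y : Fin n → F, P0 *ᵥ y = ∑ j, y j • B' j := by
    intro y
    funext i
    simp only [P0, Matrix.mulVec, dotProduct, Matrix.of_apply, Finset.sum_apply, Pi.smul_apply,
      smul_eq_mul]
    exact Finset.sum_congr rfl fun j _ => mul_comm _ _
  have hdet : P0.det ≠ 0 := by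
    intro h0
    obtain ⟨c, hc, hc0⟩ := Matrix.exists_mulVec_eq_zero_iff.2 h0
    apply hc
    rw [hP0] at hc0
    have := Fintype.linearIndependent_iff.1 B'.linearIndependent c hc0
    funext i
    exact this i
  have hτ0 : τ 0 = 0 := by
    have := hsmul 0 0
    rw [zero_smul, zero_pow_q hF, zero_smul] at this
    exact this
  have hτsum : ∀ y : Fin n → F, τ (∑ j, y j • B' j) = ∑ j, (y j) ^ q • B' j := by
    intro y
    have : ∀ s : Finset (Fin n), τ (∑ j ∈ s, y j • B' j) = ∑ j ∈ s, (y j) ^ q • B' j := by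
      intro s
      induction s using Finset.induction_on with
      | empty => simpa using hτ0
      | insert a s ha ih => rw [Finset.sum_insert ha, Finset.sum_insert ha, hadd, ih, hsmul, hB']
    exact this _
  refine ⟨Matrix.GeneralLinearGroup.mkOfDetNeZero P0 hdet, fun x => ⟨fun hx => ?_, ?_⟩⟩
  · refine ⟨fun i => B'.repr x i, fun i => ?_, ?_⟩
    · have h1 := B'.sum_repr x
      have h2 : ∑ j, (B'.repr x j) ^ q • B' j = ∑ j, (B'.repr x j) • B' j := by
        rw [← hτsum, h1, hx]
      have h3 : ∑ j, ((B'.repr x j) ^ q - B'.repr x j) • B' j = 0 := by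
        simp only [sub_smul, Finset.sum_sub_distrib]
        rw [h2, sub_self]
      have h4 := Fintype.linearIndependent_iff.1 B'.linearIndependent _ h3 i
      exact sub_eq_zero.1 h4
    · change x = P0 *ᵥ _
      rw [hP0, B'.sum_repr]
  · rintro ⟨y, hy, rfl⟩
    change τ (P0 *ᵥ y) = P0 *ᵥ y
    rw [hP0, hτsum]
    exact Finset.sum_congr rfl fun j _ => by rw [(mem_fixF hF).1 (hy j)]

end Cfsg.Agent.UCase
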