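import Mathlib
import Cfsg.Agent.UCase.Descent
import Cfsg.Agent.UCase.F4
import Cfsg.Agent.Asch.FormField
import Cfsg.Agent.AschCases.FieldSub

set_option autoImplicit false
set_option linter.unusedSectionVars false
set_option linter.unusedVariables false

/-!
`SU_6(2)`: the normaliser of an adjoint-closed cubic field extension is contained in a subfield
group.
-/

namespace Cfsg.Agent.UCase

open scoped Matrix
open Cfsg.Geo Cfsg.Agent.Uni Cfsg.Agent.AschCases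
open Matrix (GeneralLinearGroup)

namespace FS

variable {F K : Type*} [Field F] [Fintype F] [Field K] [Fintype K] [Algebra F K]

/-- Functionals on a cubic extension. -/
theorem exists_mul_of_functional [FiniteDimensional F K] {T T' : K →ₗ[F] F} (hT : T ≠ 0) :
    ∃ b : K, ∀ k, T' k = T (k * b) := by
  let Φ : K →ₗ[F] (K →ₗ[F] F) :=
    { toFun := fun b => T ∘ₗ LinearMap.mulRight F b
      map_add' := fun b b' => by
        ext k
        simp [mul_add]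
      map_smul' := fun c b => by
        ext k
        simp }
  have hΦ : Function.Injective Φ := by
    rw [← LinearMap.ker_eq_bot, LinearMap.ker_eq_bot']
    intro b hb
    by_contra hb0
    apply hT
    ext k
    have := congrArg (fun f : K →ₗ[F] F => f (k * b⁻¹)) hb
    simp only [Φ, LinearMap.coe_mk, AddHom.coe_mk, LinearMap.comp_apply, LinearMap.mulRight_apply,
      LinearMap.zero_apply, mul_assoc, inv_mul_cancel₀ hb0, mul_one] at this
    rw [this, LinearMap.zero_apply]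
  have hsurj : Function.Surjective Φ := by
    rw [← LinearMap.injective_iff_surjective_of_finrank_eq_finrank]
    · exact hΦ
    · rw [Module.finrank_linearMap, Module.finrank_self, mul_one]
  obtain ⟨b, hb⟩ := hsurj T'
  refine ⟨b, fun k => ?_⟩
  rw [← hb]
  rfl

theorem functional_nondeg {T : K →ₗ[F] F} (hT : T ≠ 0) {m : K} (hm : ∀ k, T (k * m) = 0) :
    m = 0 := by
  by_contra hm0
  apply hT
  ext k
  have := hm (k * m⁻¹)
  rw [mul_assoc, inv_mul_cancel₀ hm0, mul_one] at this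
  rw [this, LinearMap.zero_apply]

section Act

variable (ρ : K →ₐ[F] Matrix (Fin 6) (Fin 6) F)

theorem act_mul (k l : K) (v : Fin 6 → F) : ρ (k * l) *ᵥ v = ρ k *ᵥ (ρ l *ᵥ v) := by
  rw [map_mul, Matrix.mulVec_mulVec]

theorem act_add (k l : K) (v : Fin 6 → F) : ρ (k + l) *ᵥ v = ρ k *ᵥ v + ρ l *ᵥ v := by
  rw [map_add, Matrix.add_mulVec]

theorem act_algebraMap (c : F) (v : Fin 6 → F) : ρ (algebraMap F K c) *ᵥ v = c • v := by
  rw [AlgHom.commutes, Algebra.algebraMap_eq_smul_one, Matrix.smul_mulVec, Matrix.one_mulVec]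

theorem act_smul (c : F) (k : K) (v : Fin 6 → F) : ρ (c • k) *ᵥ v = c • (ρ k *ᵥ v) := by
  rw [map_smul, Matrix.smul_mulVec]

theorem act_one (v : Fin 6 → F) : ρ 1 *ᵥ v = v := by
  rw [map_one, Matrix.one_mulVec]

theorem act_zero_left (v : Fin 6 → F) : ρ 0 *ᵥ v = 0 := by
  rw [map_zero, Matrix.zero_mulVec]

theorem act_eq_zero {k : K} {v : Fin 6 → F} (h : ρ k *ᵥ v = 0) : k = 0 ∨ v = 0 := by
  by_cases hk : k = 0
  · exact Or.inl hk
  · right
    have := congrArg (fun x => ρ k⁻¹ *ᵥ x) h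
    simp only [Matrix.mulVec_zero] at this
    rwa [← act_mul, inv_mul_cancel₀ hk, act_one] at this

end Act

section Main

variable (ρ : K →ₐ[F] Matrix (Fin 6) (Fin 6) F) (hF : Fintype.card F = 2 ^ 2)
  (hK : Fintype.card K = 8 ^ 2)
  (hadj : ∀ (k : K) (u v : Fin 6 → F),
    hermForm 6 F 2 (ρ k *ᵥ u) v = hermForm 6 F 2 u (ρ (k ^ 8) *ᵥ v))

/-- The functional attached to two vectors. -/
def fn (x y : Fin 6 → F) : K →ₗ[F] F where
  toFun k := hermForm 6 F 2 (ρ k *ᵥ x) y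
  map_add' k l := by rw [act_add, hermForm_add_left]
  map_smul' c k := by rw [act_smul, hermForm_smul_left]; rfl

theorem fn_apply (x y : Fin 6 → F) (k : K) : fn ρ x y k = hermForm 6 F 2 (ρ k *ᵥ x) y := rfl

include hF hK hadj

theorem adj' (k l : K) (u v : Fin 6 → F) :
    hermForm 6 F 2 (ρ k *ᵥ u) (ρ l *ᵥ v) = hermForm 6 F 2 (ρ (k * l ^ 8) *ᵥ u) v := by
  rw [mul_comm, act_mul, hadj (l ^ 8), pow_q_pow_q hK]

theorem fn_swap (x y : Fin 6 → F) (k : K) : fn ρ y x k = (fn ρ x y (k ^ 8)) ^ 2 := by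
  rw [fn_apply, fn_apply, hermForm_symm hF, hadj k, ]


omit hK hadj in
theorem eq_zero_of_form {y : Fin 6 → F} (h : ∀ v, hermForm 6 F 2 y v = 0) : y = 0 := by
  funext i
  have := h (Pi.single i 1)
  rw [hermForm_single_right' hF] at this
  exact this

omit hF hadj in
theorem pow8_surj (k : K) : ∃ l : K, l ^ 8 = k := ⟨k ^ 8, pow_q_pow_q hK k⟩

end Main

/-- Hyperbolic data. -/
structure Hyp (ρ : K →ₐ[F] Matrix (Fin 6) (Fin 6) F) (T : K →ₗ[F] F) (e e' : Fin 6 → F) :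
    Prop where
  hee : ∀ k, hermForm 6 F 2 (ρ k *ᵥ e) e = 0
  he'e' : ∀ k, hermForm 6 F 2 (ρ k *ᵥ e') e' = 0
  hee' : ∀ k, hermForm 6 F 2 (ρ k *ᵥ e) e' = T k
  he'e : ∀ k, hermForm 6 F 2 (ρ k *ᵥ e') e = T k
  hT : T ≠ 0
  hTs : ∀ k, T (k ^ 8) = (T k) ^ 2
  span : ∀ v, ∃ α β, v = ρ α *ᵥ e + ρ β *ᵥ e'

theorem exists_hyp [FiniteDimensional F K] (h3 : Module.finrank F K = 3)
    (ρ : K →ₐ[F] Matrix (Fin 6) (Fin 6) F) (hF : Fintype.card F = 2 ^ 2)
    (hK : Fintype.card K = 8 ^ 2)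
    (hadj : ∀ (k : K) (u v : Fin 6 → F),
      hermForm 6 F 2 (ρ k *ᵥ u) v = hermForm 6 F 2 u (ρ (k ^ 8) *ᵥ v)) :
    ∃ (T : K →ₗ[F] F) (e e' : Fin 6 → F), Hyp ρ T e e' := by
  have h2 := four_two_eq_zero hF
  have h2' : ∀ x : F, x + x = 0 := fun x => by rw [← two_mul, h2, zero_mul]
  let x : Fin 6 → F := Pi.single 0 1
  let T := fn ρ x x
  have hxx : hermForm 6 F 2 x x = 1 := by
    simp only [x]
    rw [hermForm_single_left, Pi.single_eq_same, one_pow]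
  have hT1 : T 1 = 1 := by
    change hermForm 6 F 2 (ρ 1 *ᵥ x) x = 1
    rw [act_one, hxx]
  have hT : T ≠ 0 := by
    intro h
    rw [h, LinearMap.zero_apply] at hT1
    exact zero_ne_one hT1
  have hTs : ∀ z : Fin 6 → F, ∀ k, fn ρ z z (k ^ 8) = (fn ρ z z k) ^ 2 := by
    intro z k
    have := fn_swap ρ hF hK hadj z z (k ^ 8)
    rwa [pow_q_pow_q hK] at this
  -- a vector orthogonal to the first line
  obtain ⟨y, hy0, hyx⟩ : ∃ y : Fin 6 → F, y ≠ 0 ∧ ∀ k, hermForm 6 F 2 y (ρ k *ᵥ x) = 0 := by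
    let b := Module.finBasisOfFinrankEq F K h3
    let L : (Fin 6 → F) →ₗ[F] (Fin 3 → F) :=
      { toFun := fun z i => hermForm 6 F 2 z (ρ (b i) *ᵥ x)
        map_add' := fun z z' => by funext i; simp only [hermForm_add_left, Pi.add_apply]
        map_smul' := fun c z => by
          funext i
          simp only [hermForm_smul_left, Pi.smul_apply, smul_eq_mul, RingHom.id_apply] }
    have hker : LinearMap.ker L ≠ ⊥ := by
      apply LinearMap.ker_ne_bot_of_finrank_lt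
      rw [Module.finrank_fin_fun, Module.finrank_fin_fun]
      norm_num
    obtain ⟨y, hy, hy0⟩ := (Submodule.ne_bot_iff _).1 hker
    refine ⟨y, hy0, fun k => ?_⟩
    have h4 : ∀ i, hermForm 6 F 2 y (ρ (b i) *ᵥ x) = 0 := fun i => congrFun (LinearMap.mem_ker.1 hy) i
    rw [← b.sum_repr k, map_sum, Matrix.sum_mulVec, hermForm_sum_right (q := 2) hF]
    refine Finset.sum_eq_zero fun i _ => ?_
    rw [act_smul, hermForm_smul_right, h4, mul_zero]
  have hyx' : ∀ k, hermForm 6 F 2 (ρ k *ᵥ y) x = 0 := by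
    intro k
    rw [hadj]
    exact hyx _
  have hxy' : ∀ k, hermForm 6 F 2 (ρ k *ᵥ x) y = 0 := by
    intro k
    rw [← hermForm_symm (q := 2) hF, hyx, zero_pow (by norm_num)]
  -- the span
  have hspan : ∀ v, ∃ α β, v = ρ α *ᵥ x + ρ β *ᵥ y := by
    let Ψ : (K × K) →ₗ[F] (Fin 6 → F) :=
      { toFun := fun p => ρ p.1 *ᵥ x + ρ p.2 *ᵥ y
        map_add' := fun p p' => by
          simp only [Prod.fst_add, Prod.snd_add, act_add]; abel
        map_smul' := fun c p => by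
          simp only [Prod.smul_fst, Prod.smul_snd, act_smul, smul_add, RingHom.id_apply] }
    have hinj : Function.Injective Ψ := by
      rw [← LinearMap.ker_eq_bot, LinearMap.ker_eq_bot']
      rintro ⟨α, β⟩ h
      change ρ α *ᵥ x + ρ β *ᵥ y = 0 at h
      have hα : α = 0 := by
        apply functional_nondeg hT
        intro k
        have h5 := congrArg (fun z => hermForm 6 F 2 (ρ k *ᵥ z) x) h
        simp only [Matrix.mulVec_add, Matrix.mulVec_zero, hermForm_add_left, hermForm_zero_left] at h5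
        rw [← act_mul, ← act_mul, hyx', add_zero] at h5
        exact h5
      subst hα
      rw [act_zero_left, zero_add] at h
      rcases act_eq_zero ρ h with h | h
      · rw [h]; rfl
      · exact absurd h hy0
    have hsurj : Function.Surjective Ψ := by
      rw [← LinearMap.injective_iff_surjective_of_finrank_eq_finrank]
      · exact hinj
      · rw [Module.finrank_prod, h3, Module.finrank_fin_fun]
    intro v
    obtain ⟨⟨α, β⟩, h⟩ := hsurj v
    exact ⟨α, β, h.symm⟩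
  let Ty := fn ρ y y
  have hTy : Ty ≠ 0 := by
    intro h
    apply hy0
    apply eq_zero_of_form hF
    intro v
    obtain ⟨α, β, rfl⟩ := hspan v
    have h5 : hermForm 6 F 2 y (ρ β *ᵥ y) = 0 := by
      have h6 : hermForm 6 F 2 (ρ (β ^ 8) *ᵥ y) y = 0 := by
        change Ty (β ^ 8) = 0
        rw [h, LinearMap.zero_apply]
      rw [hadj, pow_q_pow_q hK] at h6
      exact h6
    rw [hermForm_add_right (q := 2) hF, hyx, h5, add_zero]
  obtain ⟨b, hb⟩ := exists_mul_of_functional (T' := Ty) hT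
  have hb0 : b ≠ 0 := by
    rintro rfl
    apply hTy
    ext k
    rw [hb, mul_zero, map_zero, LinearMap.zero_apply]
  have hb8 : b ^ 8 = b := by
    have h5 : ∀ k, T (k * (b ^ 8 - b)) = 0 := by
      intro k
      obtain ⟨l, rfl⟩ := pow8_surj hK k
      rw [mul_sub, map_sub, ← mul_pow, hTs x (l * b)]
      change (T (l * b)) ^ 2 - T (l ^ 8 * b) = 0
      rw [← hb, ← hb, sub_eq_zero]
      exact (hTs y l).symm
    exact sub_eq_zero.1 (functional_nondeg hT h5)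
  obtain ⟨a, ha⟩ := exists_norm_eq hK hb8
  have ha0 : a ≠ 0 := by
    rintro rfl
    rw [zero_pow (by norm_num)] at ha
    exact hb0 ha.symm
  -- the second vector
  let y' : Fin 6 → F := ρ a⁻¹ *ᵥ y
  have hy'y' : ∀ k, hermForm 6 F 2 (ρ k *ᵥ y') y' = T k := by
    intro k
    simp only [y']
    rw [← act_mul, adj' ρ hF hK hadj]
    change Ty (k * a⁻¹ * a⁻¹ ^ 8) = T k
    rw [hb]
    congr 1
    have : a⁻¹ * a⁻¹ ^ 8 * b = 1 := by
      rw [← pow_succ', inv_pow, ha, inv_mul_cancel₀ hb0]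
    rw [mul_assoc k, mul_assoc k, this, mul_one]
  have hxy1 : ∀ k, hermForm 6 F 2 (ρ k *ᵥ x) y' = 0 := by
    intro k
    simp only [y']
    rw [adj' ρ hF hK hadj]
    exact hxy' _
  have hyx1 : ∀ k, hermForm 6 F 2 (ρ k *ᵥ y') x = 0 := by
    intro k
    simp only [y']
    rw [← act_mul]
    exact hyx' _
  have hxx1 : ∀ k, hermForm 6 F 2 (ρ k *ᵥ x) x = T k := fun k => rfl
  obtain ⟨w, hw⟩ := F4.exists_w hF
  refine ⟨T, x + y', w • x + (w + 1) • y', ?_, ?_, ?_, ?_, hT, hTs x, ?_⟩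
  · intro k
    rw [Matrix.mulVec_add, hermForm_add_left, hermForm_add_right (q := 2) hF,
      hermForm_add_right (q := 2) hF, hxx1, hxy1, hyx1, hy'y', add_zero, zero_add, h2']
  · intro k
    rw [Matrix.mulVec_add, Matrix.mulVec_smul, Matrix.mulVec_smul, hermForm_add_left,
      hermForm_add_right (q := 2) hF, hermForm_add_right (q := 2) hF]
    simp only [hermForm_smul_left, hermForm_smul_right, hxx1, hxy1, hyx1, hy'y']
    linear_combination (T k * (2 * (w + 1) + 3)) * hw + (T k * (5 * w + 3)) * h2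
  · intro k
    rw [Matrix.mulVec_add, hermForm_add_left,
      hermForm_add_right (q := 2) hF, hermForm_add_right (q := 2) hF]
    simp only [hermForm_smul_left, hermForm_smul_right, hxx1, hxy1, hyx1, hy'y']
    linear_combination (T k * (w ^ 2 + w)) * h2
  · intro k
    rw [Matrix.mulVec_add, Matrix.mulVec_smul, Matrix.mulVec_smul, hermForm_add_left,
      hermForm_add_right (q := 2) hF, hermForm_add_right (q := 2) hF]
    simp only [hermForm_smul_left, hermForm_smul_right, hxx1, hxy1, hyx1, hy'y']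
    linear_combination (T k * w) * h2
  · intro v
    obtain ⟨α, β, rfl⟩ := hspan v
    have hy : y = ρ a *ᵥ y' := by
      simp only [y']
      rw [← act_mul, mul_inv_cancel₀ ha0, act_one]
    have ex : x = (1 + w) • (x + y') + (w • x + (w + 1) • y') := by
      funext i
      simp only [Pi.add_apply, Pi.smul_apply, smul_eq_mul]
      linear_combination (-(w * x i) - (w + 1) * y' i) * h2
    have ey : y' = w • (x + y') + (w • x + (w + 1) • y') := by
      funext i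
      simp only [Pi.add_apply, Pi.smul_apply, smul_eq_mul]
      linear_combination (-(w * x i) - w * y' i) * h2
    refine ⟨(1 + w) • α + w • (β * a), α + β * a, ?_⟩
    obtain ⟨e0, he0⟩ : ∃ e0, e0 = x + y' := ⟨_, rfl⟩
    obtain ⟨e1, he1⟩ : ∃ e1, e1 = w • x + (w + 1) • y' := ⟨_, rfl⟩
    rw [← he0, ← he1] at ex ey ⊢
    have k1 : ρ α *ᵥ x = (1 + w) • (ρ α *ᵥ e0) + ρ α *ᵥ e1 := by
      conv_lhs => rw [ex]
      rw [Matrix.mulVec_add, Matrix.mulVec_smul]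
    have k2 : ρ β *ᵥ y = w • (ρ (β * a) *ᵥ e0) + ρ (β * a) *ᵥ e1 := by
      rw [hy, ← act_mul]
      conv_lhs => rw [ey]
      rw [Matrix.mulVec_add, Matrix.mulVec_smul]
    rw [k1, k2, act_add, act_add, act_smul, act_smul]
    abel


section HypL

variable {ρ : K →ₐ[F] Matrix (Fin 6) (Fin 6) F} {T : K →ₗ[F] F} {e e' : Fin 6 → F}
  (H : Hyp ρ T e e') (hF : Fintype.card F = 2 ^ 2) (hK : Fintype.card K = 8 ^ 2)
  (hadj : ∀ (k : K) (u v : Fin 6 → F),
    hermForm 6 F 2 (ρ k *ᵥ u) v = hermForm 6 F 2 u (ρ (k ^ 8) *ᵥ v))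

include H

theorem Hyp.eq_zero {α β : K} (h : ρ α *ᵥ e + ρ β *ᵥ e' = 0) : α = 0 ∧ β = 0 := by
  constructor
  · apply functional_nondeg H.hT
    intro k
    have h5 := congrArg (fun z => hermForm 6 F 2 (ρ k *ᵥ z) e') h
    simp only [Matrix.mulVec_add, Matrix.mulVec_zero, hermForm_add_left, hermForm_zero_left] at h5
    rw [← act_mul, ← act_mul, H.he'e', H.hee', add_zero] at h5
    exact h5
  · apply functional_nondeg H.hT
    intro k
    have h5 := congrArg (fun z => hermForm 6 F 2 (ρ k *ᵥ z) e) h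
    simp only [Matrix.mulVec_add, Matrix.mulVec_zero, hermForm_add_left, hermForm_zero_left] at h5
    rw [← act_mul, ← act_mul, H.hee, H.he'e, zero_add] at h5
    exact h5

theorem Hyp.uniq {α β α₁ β₁ : K} (h : ρ α *ᵥ e + ρ β *ᵥ e' = ρ α₁ *ᵥ e + ρ β₁ *ᵥ e') :
    α = α₁ ∧ β = β₁ := by
  have h1 : ρ (α - α₁) *ᵥ e + ρ (β - β₁) *ᵥ e' = 0 := by
    rw [map_sub, map_sub, Matrix.sub_mulVec, Matrix.sub_mulVec]
    rw [← sub_eq_zero] at h
    rw [← h]; abel
  obtain ⟨h2, h3⟩ := H.eq_zero h1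
  exact ⟨sub_eq_zero.1 h2, sub_eq_zero.1 h3⟩

include hF hK

theorem pow8_add (x y : K) : (x + y) ^ 8 = x ^ 8 + y ^ 8 := add_pow_q hK x y

theorem Hyp.exists_tau : ∃ τ : (Fin 6 → F) → (Fin 6 → F),
    (∀ α β, τ (ρ α *ᵥ e + ρ β *ᵥ e') = ρ (α ^ 8) *ᵥ e + ρ (β ^ 8) *ᵥ e') ∧
    (∀ x y, τ (x + y) = τ x + τ y) ∧ (∀ (c : F) x, τ (c • x) = c ^ 2 • τ x) ∧
    (∀ x, τ (τ x) = x) := by
  choose a b hab using H.span
  let τ : (Fin 6 → F) → (Fin 6 → F) := fun v => ρ ((a v) ^ 8) *ᵥ e + ρ ((b v) ^ 8) *ᵥ e'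
  have h1 : ∀ α β, τ (ρ α *ᵥ e + ρ β *ᵥ e') = ρ (α ^ 8) *ᵥ e + ρ (β ^ 8) *ᵥ e' := by
    intro α β
    obtain ⟨h2, h3⟩ := H.uniq (hab (ρ α *ᵥ e + ρ β *ᵥ e')).symm
    simp only [τ]
    rw [h2, h3]
  have hc8 : ∀ c : F, (algebraMap F K c) ^ 8 = algebraMap F K (c ^ 2) := by
    intro c
    rw [← map_pow]
    congr 1
    by_cases hc : c = 0
    · rw [hc]; norm_num
    · have := four_pow_three hF hc
      calc c ^ 8 = (c ^ 3) ^ 2 * c ^ 2 := by ring
        _ = c ^ 2 := by rw [this]; ring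
  refine ⟨τ, h1, ?_, ?_, ?_⟩
  · intro x y
    conv_lhs => rw [hab x, hab y]
    have h2 : ρ (a x) *ᵥ e + ρ (b x) *ᵥ e' + (ρ (a y) *ᵥ e + ρ (b y) *ᵥ e') =
        ρ (a x + a y) *ᵥ e + ρ (b x + b y) *ᵥ e' := by
      rw [act_add, act_add]; abel
    rw [h2, h1, add_pow_q hK, add_pow_q hK, act_add, act_add]
    simp only [τ]
    abel
  · intro c x
    conv_lhs => rw [hab x]
    have h2 : c • (ρ (a x) *ᵥ e + ρ (b x) *ᵥ e') =
        ρ (algebraMap F K c * a x) *ᵥ e + ρ (algebraMap F K c * b x) *ᵥ e' := by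
      rw [act_mul, act_mul, act_algebraMap, act_algebraMap, smul_add]
    rw [h2, h1, mul_pow, mul_pow, hc8, act_mul, act_mul, act_algebraMap, act_algebraMap, ← smul_add]
  · intro x
    obtain ⟨α, β, rfl⟩ : ∃ α β, x = ρ α *ᵥ e + ρ β *ᵥ e' := ⟨_, _, hab x⟩
    have h2 := h1 α β
    rw [h2, h1, pow_q_pow_q hK, pow_q_pow_q hK]

include hadj

/-- Values of the form. -/
theorem Hyp.form (α β γ δ : K) :
    hermForm 6 F 2 (ρ α *ᵥ e + ρ β *ᵥ e') (ρ γ *ᵥ e + ρ δ *ᵥ e') =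
      T (α * δ ^ 8 + β * γ ^ 8) := by
  rw [hermForm_add_left, hermForm_add_right (q := 2) hF, hermForm_add_right (q := 2) hF,
    adj' ρ hF hK hadj, adj' ρ hF hK hadj, adj' ρ hF hK hadj, adj' ρ hF hK hadj, H.hee, H.he'e',
    H.hee', H.he'e, zero_add, add_zero, map_add]

omit H hadj hF in
theorem colE {a b : K} (h : a * b ^ 8 = b * a ^ 8) (h0 : ¬ (a = 0 ∧ b = 0)) :
    ∃ z a₁ b₁ : K, z ≠ 0 ∧ a₁ ^ 8 = a₁ ∧ b₁ ^ 8 = b₁ ∧ a = z * a₁ ∧ b = z * b₁ := by
  by_cases hb : b = 0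
  · subst hb
    have ha : a ≠ 0 := fun h => h0 ⟨h, rfl⟩
    exact ⟨a, 1, 0, ha, one_pow 8, zero_pow (by norm_num), (mul_one a).symm, (mul_zero a).symm⟩
  · refine ⟨b, a / b, 1, hb, ?_, one_pow 8, (mul_div_cancel₀ a hb).symm, (mul_one b).symm⟩
    rw [div_pow, div_eq_div_iff (pow_ne_zero _ hb) hb]
    rw [mul_comm, ← h]

/-- Elements normalising the field: up to a norm one scalar they preserve the rational structure. -/
theorem Hyp.exists_mu {g : (Fin 6 → F) → (Fin 6 → F)} (hga : ∀ x y, g (x + y) = g x + g y)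
    (hgi : ∀ x y, hermForm 6 F 2 (g x) (g y) = hermForm 6 F 2 x y) {σ : K →+* K}
    (hgσ : ∀ k x, g (ρ k *ᵥ x) = ρ (σ k) *ᵥ g x) :
    ∃ μ : K, μ ^ 9 = 1 ∧ ∀ α β : K, α ^ 8 = α → β ^ 8 = β → ∃ γ δ : K, γ ^ 8 = γ ∧ δ ^ 8 = δ ∧
      g (ρ α *ᵥ e + ρ β *ᵥ e') = ρ μ *ᵥ (ρ γ *ᵥ e + ρ δ *ᵥ e') := by
  have hc2 : ∀ x : K, x + x = 0 := by
    intro x
    have h2 := four_two_eq_zero hF
    have : (2 : K) = 0 := by
      have := congrArg (algebraMap F K) h2
      rwa [map_ofNat, map_zero] at this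
    rw [← two_mul, this, zero_mul]
  have hσ : Function.Surjective σ := Finite.injective_iff_surjective.1 σ.injective
  obtain ⟨a, b, hab⟩ := H.span (g e)
  obtain ⟨c, d, hcd⟩ := H.span (g e')
  have hgk : ∀ k x y, hermForm 6 F 2 (ρ (σ k) *ᵥ g x) (g y) = hermForm 6 F 2 (ρ k *ᵥ x) y := by
    intro k x y
    rw [← hgσ, hgi]
  have hex : ∀ (m α β γ δ : K), hermForm 6 F 2 (ρ m *ᵥ (ρ α *ᵥ e + ρ β *ᵥ e'))
      (ρ γ *ᵥ e + ρ δ *ᵥ e') = T (m * (α * δ ^ 8 + β * γ ^ 8)) := by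
    intro m α β γ δ
    rw [Matrix.mulVec_add, ← act_mul, ← act_mul, H.form hF hK hadj]
    congr 1
    ring
  have r1 : a * b ^ 8 = b * a ^ 8 := by
    have h1 : a * b ^ 8 + b * a ^ 8 = 0 := by
      apply functional_nondeg H.hT
      intro k
      obtain ⟨l, rfl⟩ := hσ k
      rw [← hex, ← hab, hgk, H.hee]
    have h2 := hc2 (b * a ^ 8)
    exact add_right_cancel (h1.trans h2.symm)
  have r2 : c * d ^ 8 = d * c ^ 8 := by
    have h1 : c * d ^ 8 + d * c ^ 8 = 0 := by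
      apply functional_nondeg H.hT
      intro k
      obtain ⟨l, rfl⟩ := hσ k
      rw [← hex, ← hcd, hgk, H.he'e']
    have h2 := hc2 (d * c ^ 8)
    exact add_right_cancel (h1.trans h2.symm)
  set m := a * d ^ 8 + b * c ^ 8 with hm
  have r3 : ∀ k, T (σ k * m) = T k := by
    intro k
    rw [hm, ← hex, ← hab, ← hcd, hgk, H.hee']
  have hm0 : m ≠ 0 := by
    intro h
    apply H.hT
    ext k
    rw [← r3 k, h, mul_zero, map_zero, LinearMap.zero_apply]
  have hm8 : m ^ 8 = m := by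
    have h1 : m - m ^ 8 = 0 := by
      apply functional_nondeg H.hT
      intro k
      obtain ⟨l, rfl⟩ := pow8_surj hK k
      obtain ⟨j, rfl⟩ := hσ l
      rw [mul_sub, map_sub, ← mul_pow, H.hTs, r3, ← map_pow, r3, H.hTs, sub_self]
    exact (sub_eq_zero.1 h1).symm
  obtain ⟨z₁, a₁, b₁, hz₁, ha₁, hb₁, rfl, rfl⟩ := colE hK r1 (by
    rintro ⟨rfl, rfl⟩
    apply hm0
    rw [hm, zero_mul, zero_mul, add_zero])
  obtain ⟨z₂, c₁, d₁, hz₂, hc₁, hd₁, rfl, rfl⟩ := colE hK r2 (by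
    rintro ⟨rfl, rfl⟩
    apply hm0
    rw [hm, zero_pow (by norm_num), mul_zero, mul_zero, add_zero])
  have hz : z₁ * z₂ ^ 8 * (a₁ * d₁ + b₁ * c₁) = m := by
    rw [hm, mul_pow, mul_pow, hc₁, hd₁]; ring
  have hn0 : a₁ * d₁ + b₁ * c₁ ≠ 0 := by
    intro h
    apply hm0
    rw [← hz, h, mul_zero]
  have hn8 : (a₁ * d₁ + b₁ * c₁) ^ 8 = a₁ * d₁ + b₁ * c₁ := by
    rw [add_pow_q hK, mul_pow, mul_pow, ha₁, hb₁, hc₁, hd₁]
  have hzz : z₁ ^ 8 * z₂ = z₁ * z₂ ^ 8 := by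
    have h1 : (z₁ * z₂ ^ 8) ^ 8 = z₁ * z₂ ^ 8 := by
      apply mul_right_cancel₀ hn0
      conv_lhs => rw [← hn8]
      rw [← mul_pow, hz, hm8]
    rw [mul_pow, pow_q_pow_q hK] at h1
    exact h1
  have hz7 : z₁ ^ 7 = z₂ ^ 7 := by
    apply mul_left_cancel₀ (mul_ne_zero hz₁ hz₂)
    calc z₁ * z₂ * z₁ ^ 7 = z₁ ^ 8 * z₂ := by ring
      _ = z₁ * z₂ ^ 8 := hzz
      _ = z₁ * z₂ * z₂ ^ 7 := by ring
  have hz63 : z₁ ^ 63 = 1 := by
    have := FiniteField.pow_card_sub_one_eq_one z₁ hz₁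
    rw [hK] at this
    exact this
  have hμ0 : z₁ ^ 28 ≠ 0 := pow_ne_zero _ hz₁
  have hμ7 : (z₁ ^ 28) ^ 7 = z₁ ^ 7 := by
    calc (z₁ ^ 28) ^ 7 = (z₁ ^ 63) ^ 3 * z₁ ^ 7 := by ring
      _ = z₁ ^ 7 := by rw [hz63, one_pow, one_mul]
  have hE : ∀ z, z ^ 7 = z₁ ^ 7 → ((z₁ ^ 28)⁻¹ * z) ^ 8 = (z₁ ^ 28)⁻¹ * z := by
    intro z hz
    have h1 : ((z₁ ^ 28)⁻¹ * z) ^ 7 = 1 := by
      rw [mul_pow, inv_pow, hμ7, hz, inv_mul_cancel₀ (pow_ne_zero _ hz₁)]
    calc ((z₁ ^ 28)⁻¹ * z) ^ 8 = ((z₁ ^ 28)⁻¹ * z) ^ 7 * ((z₁ ^ 28)⁻¹ * z) := by ring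
      _ = _ := by rw [h1, one_mul]
  have hE1 := hE z₁ rfl
  have hE2 := hE z₂ hz7.symm
  have hσ8 : ∀ α : K, α ^ 8 = α → (σ α) ^ 8 = σ α := by
    intro α hα
    rw [← map_pow, hα]
  have hq : ∀ z x y : K, ((z₁ ^ 28)⁻¹ * z) ^ 8 = (z₁ ^ 28)⁻¹ * z → x ^ 8 = x → y ^ 8 = y →
      ((z₁ ^ 28)⁻¹ * z * (x * y)) ^ 8 = (z₁ ^ 28)⁻¹ * z * (x * y) := by
    intro z x y h1 h2 h3
    rw [mul_pow ((z₁ ^ 28)⁻¹ * z) (x * y), h1, mul_pow x y, h2, h3]
  refine ⟨z₁ ^ 28, ?_, ?_⟩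
  · calc (z₁ ^ 28) ^ 9 = (z₁ ^ 63) ^ 4 := by ring
      _ = 1 := by rw [hz63, one_pow]
  · intro α β hα hβ
    refine ⟨(z₁ ^ 28)⁻¹ * z₁ * (σ α * a₁) + (z₁ ^ 28)⁻¹ * z₂ * (σ β * c₁),
      (z₁ ^ 28)⁻¹ * z₁ * (σ α * b₁) + (z₁ ^ 28)⁻¹ * z₂ * (σ β * d₁), ?_, ?_, ?_⟩
    · rw [add_pow_q hK, hq _ _ _ hE1 (hσ8 α hα) ha₁, hq _ _ _ hE2 (hσ8 β hβ) hc₁]
    · rw [add_pow_q hK, hq _ _ _ hE1 (hσ8 α hα) hb₁, hq _ _ _ hE2 (hσ8 β hβ) hd₁]
    · rw [hga, hgσ, hgσ, hab, hcd, Matrix.mulVec_add, Matrix.mulVec_add, Matrix.mulVec_add,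
        ← act_mul, ← act_mul, ← act_mul, ← act_mul, ← act_mul, ← act_mul]
      have e1 : z₁ ^ 28 * ((z₁ ^ 28)⁻¹ * z₁ * (σ α * a₁) + (z₁ ^ 28)⁻¹ * z₂ * (σ β * c₁)) =
          σ α * (z₁ * a₁) + σ β * (z₂ * c₁) := by
        field_simp
      have e2 : z₁ ^ 28 * ((z₁ ^ 28)⁻¹ * z₁ * (σ α * b₁) + (z₁ ^ 28)⁻¹ * z₂ * (σ β * d₁)) =
          σ α * (z₁ * b₁) + σ β * (z₂ * d₁) := by
        field_simp
      rw [e1, e2, act_add, act_add]
      abel

end HypL


section Det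

variable {ρ : K →ₐ[F] Matrix (Fin 6) (Fin 6) F} {T : K →ₗ[F] F} {e e' : Fin 6 → F}

theorem two_K (hF : Fintype.card F = 2 ^ 2) : (2 : K) = 0 := by
  have h2 := four_two_eq_zero hF
  have := congrArg (algebraMap F K) h2
  rwa [map_ofNat, map_zero] at this

theorem cube_root (hF : Fintype.card F = 2 ^ 2) {x : K} (hx : x ^ 3 = 1) :
    ∃ c : F, x = algebraMap F K c := by
  have h2 := two_K (K := K) hF
  obtain ⟨w, hw⟩ := F4.exists_w hF
  have hW : algebraMap F K w * algebraMap F K w = algebraMap F K w + 1 := by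
    rw [← map_mul, hw, map_add, map_one]
  generalize hWe : algebraMap F K w = W at hW
  have h1 : (x - 1) * ((x - W) * (x - (W + 1))) = 0 := by
    linear_combination hx + (x - 1) * hW + (2 * W * x + x - x ^ 2 - W * x ^ 2 - W) * h2
  rcases mul_eq_zero.1 h1 with h | h
  · exact ⟨1, by rw [map_one]; exact sub_eq_zero.1 h⟩
  · rcases mul_eq_zero.1 h with h | h
    · exact ⟨w, by rw [hWe]; exact sub_eq_zero.1 h⟩
    · exact ⟨w + 1, by rw [map_add, map_one, hWe]; exact sub_eq_zero.1 h⟩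

/-- Independence of the powers of a cubic irrationality. -/
theorem indep_cubic (hF : Fintype.card F = 2 ^ 2) {μ : K} {c : F} (hμ : μ ^ 3 = algebraMap F K c)
    (hc3 : c ^ 3 = 1) (hc1 : c ≠ 1) {x y z : F}
    (h : algebraMap F K x + algebraMap F K y * μ + algebraMap F K z * μ ^ 2 = 0) :
    x = 0 ∧ y = 0 ∧ z = 0 := by
  have hinj := (algebraMap F K).injective
  have hcube : ∀ t : F, t ^ 3 = 0 ∨ t ^ 3 = 1 := by
    intro t
    by_cases ht : t = 0
    · left; rw [ht]; norm_num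
    · right; exact four_pow_three hF ht
  have hnot : ∀ t : F, t ^ 3 ≠ c := by
    intro t ht
    rcases hcube t with h | h
    · rw [h] at ht
      rw [← ht] at hc3
      norm_num at hc3
    · rw [h] at ht
      exact hc1 ht.symm
  have hμF : ∀ t : F, μ ≠ algebraMap F K t := by
    intro t ht
    rw [ht, ← map_pow] at hμ
    exact hnot t (hinj hμ)
  have hz : z = 0 := by
    by_contra hz
    set a := x / z with ha
    set b := y / z with hb
    have hx' : x = a * z := (div_mul_cancel₀ x hz).symm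
    have hy' : y = b * z := (div_mul_cancel₀ y hz).symm
    have h1 : μ ^ 2 = -(algebraMap F K a + algebraMap F K b * μ) := by
      have hzK : algebraMap F K z ≠ 0 := fun h0 => hz (hinj (by rw [h0, map_zero]))
      rw [hx', hy', map_mul, map_mul] at h
      apply mul_left_cancel₀ hzK
      linear_combination h
    have h2 : algebraMap F K (b ^ 2 - a) * μ = algebraMap F K (c - a * b) := by
      rw [map_sub, map_sub, map_pow, map_mul, ← hμ]
      linear_combination (-(μ - algebraMap F K b)) * h1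
    by_cases h3 : b ^ 2 - a = 0
    · rw [h3, map_zero, zero_mul] at h2
      have h4 : c - a * b = 0 := hinj (by rw [← h2, map_zero])
      apply hnot b
      linear_combination b * h3 - h4
    · apply hμF ((c - a * b) / (b ^ 2 - a))
      rw [map_div₀, eq_div_iff (fun h0 => h3 (hinj (by rw [h0, map_zero])))]
      rw [mul_comm]; exact h2
  subst hz
  rw [map_zero, zero_mul, add_zero] at h
  have hy : y = 0 := by
    by_contra hy
    apply hμF (-x / y)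
    rw [map_div₀, map_neg, eq_div_iff (fun h0 => hy (hinj (by rw [h0, map_zero])))]
    linear_combination h
  subst hy
  rw [map_zero, zero_mul, add_zero] at h
  exact ⟨hinj (by rw [h, map_zero]), rfl, rfl⟩

/-- The matrix with given columns. -/
def colN {n : ℕ} (p : Fin n → Fin n → F) : Matrix (Fin n) (Fin n) F := Matrix.of fun i j => p j i

theorem colN_mulVec {n : ℕ} (p : Fin n → Fin n → F) (y : Fin n → F) :
    colN p *ᵥ y = ∑ j, y j • p j := by
  funext i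
  simp only [colN, Matrix.mulVec, dotProduct, Matrix.of_apply, Finset.sum_apply, Pi.smul_apply,
    smul_eq_mul]
  exact Finset.sum_congr rfl fun j _ => mul_comm _ _

theorem mul_colN {n : ℕ} (A M : Matrix (Fin n) (Fin n) F) (p : Fin n → Fin n → F)
    (h : ∀ j, A *ᵥ p j = ∑ k, M k j • p k) : A * colN p = colN p * M := by
  ext i j
  have h1 := congrFun (h j) i
  have h2 : (A * colN p) i j = (A *ᵥ p j) i := by
    rw [Matrix.mul_apply]; rfl
  rw [h2, h1, Matrix.mul_apply, Finset.sum_apply]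
  exact Finset.sum_congr rfl fun k _ => by
    simp only [colN, Matrix.of_apply, Pi.smul_apply, smul_eq_mul]
    ring

theorem det_six (c : F) : (!![0,0,c,0,0,0; 1,0,0,0,0,0; 0,1,0,0,0,0; 0,0,0,0,0,c; 0,0,0,1,0,0;
    0,0,0,0,1,0] : Matrix (Fin 6) (Fin 6) F).det = c * c := by
  simp [Matrix.det_succ_row_zero, Fin.sum_univ_succ, Fin.succAbove]

theorem Hyp.scalar_of_det (H : Hyp ρ T e e') (hF : Fintype.card F = 2 ^ 2) {μ : K}
    (h9 : μ ^ 9 = 1) (hdet : (ρ μ).det = 1) : ∃ c : F, μ = algebraMap F K c := by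
  have h2 := four_two_eq_zero hF
  have hinj := (algebraMap F K).injective
  obtain ⟨c, hc⟩ := cube_root hF (x := μ ^ 3) (by rw [← pow_mul]; exact h9)
  have hc3 : c ^ 3 = 1 := by
    apply hinj
    rw [map_pow, ← hc, ← pow_mul, map_one]; exact h9
  by_cases hc1 : c = 1
  · apply cube_root hF
    rw [hc, hc1, map_one]
  exfalso
  let p : Fin 6 → Fin 6 → F :=
    ![e, ρ μ *ᵥ e, ρ (μ ^ 2) *ᵥ e, e', ρ μ *ᵥ e', ρ (μ ^ 2) *ᵥ e']
  have hp : ∀ y : Fin 6 → F, colN p *ᵥ y =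
      ρ (algebraMap F K (y 0) + algebraMap F K (y 1) * μ + algebraMap F K (y 2) * μ ^ 2) *ᵥ e +
      ρ (algebraMap F K (y 3) + algebraMap F K (y 4) * μ + algebraMap F K (y 5) * μ ^ 2) *ᵥ e' := by
    intro y
    rw [colN_mulVec, Fin.sum_univ_six]
    simp only [act_add, act_mul ρ (algebraMap F K _), act_algebraMap]
    change y 0 • e + y 1 • (ρ μ *ᵥ e) + y 2 • (ρ (μ ^ 2) *ᵥ e) + y 3 • e' + y 4 • (ρ μ *ᵥ e') +
      y 5 • (ρ (μ ^ 2) *ᵥ e') = _
    abel
  have hdetp : (colN p).det ≠ 0 := by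
    intro h0
    obtain ⟨y, hy, hy0⟩ := Matrix.exists_mulVec_eq_zero_iff.2 h0
    apply hy
    rw [hp] at hy0
    obtain ⟨k1, k2⟩ := H.eq_zero hy0
    obtain ⟨l0, l1, l2⟩ := indep_cubic hF hc hc3 hc1 k1
    obtain ⟨l3, l4, l5⟩ := indep_cubic hF hc hc3 hc1 k2
    funext i
    fin_cases i
    · exact l0
    · exact l1
    · exact l2
    · exact l3
    · exact l4
    · exact l5
  have hM := mul_colN (ρ μ) (!![0,0,c,0,0,0; 1,0,0,0,0,0; 0,1,0,0,0,0; 0,0,0,0,0,c; 0,0,0,1,0,0;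
    0,0,0,0,1,0]) p (by
      have e1 : ∀ v, ρ μ *ᵥ (ρ μ *ᵥ v) = ρ (μ ^ 2) *ᵥ v := fun v => by rw [← act_mul, sq]
      have e2 : ∀ v, ρ μ *ᵥ (ρ (μ ^ 2) *ᵥ v) = c • v := fun v => by
        rw [← act_mul, ← pow_succ', hc, act_algebraMap]
      intro j
      rw [Fin.sum_univ_six]
      fin_cases j
      · change ρ μ *ᵥ e = (0 : F) • e + (1 : F) • (ρ μ *ᵥ e) + (0 : F) • (ρ (μ ^ 2) *ᵥ e) +
          (0 : F) • e' + (0 : F) • (ρ μ *ᵥ e') + (0 : F) • (ρ (μ ^ 2) *ᵥ e')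
        simp only [zero_smul, one_smul, add_zero, zero_add]
      · change ρ μ *ᵥ (ρ μ *ᵥ e) = (0 : F) • e + (0 : F) • (ρ μ *ᵥ e) + (1 : F) • (ρ (μ ^ 2) *ᵥ e) +
          (0 : F) • e' + (0 : F) • (ρ μ *ᵥ e') + (0 : F) • (ρ (μ ^ 2) *ᵥ e')
        simp only [zero_smul, one_smul, add_zero, zero_add, e1]
      · change ρ μ *ᵥ (ρ (μ ^ 2) *ᵥ e) = c • e + (0 : F) • (ρ μ *ᵥ e) + (0 : F) • (ρ (μ ^ 2) *ᵥ e) +
          (0 : F) • e' + (0 : F) • (ρ μ *ᵥ e') + (0 : F) • (ρ (μ ^ 2) *ᵥ e')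
        simp only [zero_smul, one_smul, add_zero, zero_add, e2]
      · change ρ μ *ᵥ e' = (0 : F) • e + (0 : F) • (ρ μ *ᵥ e) + (0 : F) • (ρ (μ ^ 2) *ᵥ e) +
          (0 : F) • e' + (1 : F) • (ρ μ *ᵥ e') + (0 : F) • (ρ (μ ^ 2) *ᵥ e')
        simp only [zero_smul, one_smul, add_zero, zero_add]
      · change ρ μ *ᵥ (ρ μ *ᵥ e') = (0 : F) • e + (0 : F) • (ρ μ *ᵥ e) +
          (0 : F) • (ρ (μ ^ 2) *ᵥ e) + (0 : F) • e' + (0 : F) • (ρ μ *ᵥ e') +
          (1 : F) • (ρ (μ ^ 2) *ᵥ e')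
        simp only [zero_smul, one_smul, add_zero, zero_add, e1]
      · change ρ μ *ᵥ (ρ (μ ^ 2) *ᵥ e') = (0 : F) • e + (0 : F) • (ρ μ *ᵥ e) +
          (0 : F) • (ρ (μ ^ 2) *ᵥ e) + c • e' + (0 : F) • (ρ μ *ᵥ e') +
          (0 : F) • (ρ (μ ^ 2) *ᵥ e')
        simp only [zero_smul, one_smul, add_zero, zero_add, e2])
  have h3 := congrArg Matrix.det hM
  rw [Matrix.det_mul, Matrix.det_mul, hdet, one_mul, det_six] at h3
  have h4 : c * c = 1 := (mul_left_cancel₀ hdetp ((mul_one _).trans h3)).symm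
  apply hc1
  calc c = c * c * c := by rw [h4, one_mul]
    _ = c ^ 3 := by ring
    _ = 1 := hc3

end Det


section Glue

/-- The adjoint map on the field is the automorphism of order two. -/
theorem adj_pow8 (ρ : K →ₐ[F] Matrix (Fin 6) (Fin 6) F) (hF : Fintype.card F = 2 ^ 2)
    (hK : Fintype.card K = 8 ^ 2)
    (hadj : ∀ k : K, ∃ k' : K, ∀ u v : Fin 6 → F,
      hermForm 6 F 2 (ρ k *ᵥ u) v = hermForm 6 F 2 u (ρ k' *ᵥ v)) :
    ∀ (k : K) (u v : Fin 6 → F),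
      hermForm 6 F 2 (ρ k *ᵥ u) v = hermForm 6 F 2 u (ρ (k ^ 8) *ᵥ v) := by
  choose s hs using hadj
  have hρ : Function.Injective ρ := ρ.toRingHom.injective
  have huniq : ∀ k l : K, (∀ u v : Fin 6 → F, hermForm 6 F 2 u (ρ k *ᵥ v) =
      hermForm 6 F 2 u (ρ l *ᵥ v)) → k = l := by
    intro k l h
    apply hρ
    apply Matrix.ext_of_mulVec_single
    intro j
    have h1 : ∀ i, (ρ k *ᵥ Pi.single j 1) i ^ 2 = (ρ l *ᵥ Pi.single j 1) i ^ 2 := by
      intro i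
      have := h (Pi.single i 1) (Pi.single j 1)
      rwa [hermForm_single_left, hermForm_single_left] at this
    funext i
    exact (pow_q_inj (q := 2) hF).1 (h1 i)
  let S : K →+* K :=
    { toFun := s
      map_one' := huniq _ _ fun u v => by
        rw [← hs, act_one, act_one]
      map_mul' := fun x y => huniq _ _ fun u v => by
        rw [← hs, act_mul, hs, hs, ← act_mul, mul_comm]
      map_zero' := huniq _ _ fun u v => by
        rw [← hs, act_zero_left, act_zero_left, hermForm_zero_left, ← hermForm_symm (q := 2) hF,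
          hermForm_zero_left]
        norm_num
      map_add' := fun x y => huniq _ _ fun u v => by
        rw [← hs, act_add, hermForm_add_left, hs, hs, act_add, hermForm_add_right (q := 2) hF] }
  have hSS : ∀ x, S (S x) = x := by
    intro x
    refine huniq _ _ fun u v => ?_
    change hermForm 6 F 2 u (ρ (s (s x)) *ᵥ v) = _
    rw [← hs, ← hermForm_symm (q := 2) hF, ← hs, hermForm_symm (q := 2) hF]
  have hSc : ∀ c : F, S (algebraMap F K c) = algebraMap F K (c ^ 2) := by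
    intro c
    refine huniq _ _ fun u v => ?_
    change hermForm 6 F 2 u (ρ (s (algebraMap F K c)) *ᵥ v) = _
    rw [← hs, act_algebraMap, act_algebraMap, hermForm_smul_left, hermForm_smul_right, ← pow_mul]
    congr 1
    have := FiniteField.pow_card c
    rw [hF] at this
    exact this.symm
  obtain ⟨c, hc⟩ := exists_pow_q_ne (F := F) (q := 2) hF
  have h1 := Asch.ringHom_invol_unique S (conjHom hK) hSS (conjHom_involutive hK)
    ⟨algebraMap F K c, fun h => hc ((algebraMap F K).injective (by rw [← hSc, h]))⟩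
    (exists_pow_q_ne hK)
  intro k u v
  have h2 : s k = k ^ 8 := h1 k
  rw [hs, h2]

theorem main_abs [FiniteDimensional F K] (h3 : Module.finrank F K = 3)
    (ρ : K →ₐ[F] Matrix (Fin 6) (Fin 6) F) (hF : Fintype.card F = 2 ^ 2)
    (hadj : ∀ k : K, ∃ k' : K, ∀ u v : Fin 6 → F,
      hermForm 6 F 2 (ρ k *ᵥ u) v = hermForm 6 F 2 u (ρ k' *ᵥ v)) :
    ∃ (F₀ : Subfield F) (P : GL (Fin 6) F) (ζ : F), Fintype.card F = Nat.card F₀ ^ 2 ∧ ζ ≠ 0 ∧
      ζ + ζ ^ 2 = 0 ∧ IsFormRationalStructure (hermForm 6 F 2) F₀ ζ P ∧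
      (∀ u : Fin 6 → F, (∀ i, u i ∈ F₀) →
        (hermForm 6 F 2) (Matrix.mulVec (P : Matrix (Fin 6) (Fin 6) F) u)
          (Matrix.mulVec (P : Matrix (Fin 6) (Fin 6) F) u) = 0) ∧
      ∀ g ∈ SG 6 F 2, (∃ σ : K →+* K, ∀ k, (g : Matrix (Fin 6) (Fin 6) F) * ρ k *
        ((g⁻¹ : GL (Fin 6) F) : Matrix (Fin 6) (Fin 6) F) = ρ (σ k)) →
        g ∈ subfieldSubgroup F₀ P := by
  have hK : Fintype.card K = 8 ^ 2 := by
    rw [Module.card_eq_pow_finrank (K := F) (V := K), h3, hF]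
    norm_num
  have hadj8 := adj_pow8 ρ hF hK hadj
  obtain ⟨T, e, e', H⟩ := exists_hyp h3 ρ hF hK hadj8
  obtain ⟨τ, hτ1, hτ2, hτ3, hτ4⟩ := H.exists_tau hF hK
  obtain ⟨P, hP⟩ := exists_descent (q := 2) hF τ hτ2 hτ3 hτ4
  have h2 := four_two_eq_zero hF
  -- the rational vectors
  have hrat : ∀ y : Fin 6 → F, (∀ i, y i ∈ fixF (q := 2) hF) → ∃ α β : K, α ^ 8 = α ∧ β ^ 8 = β ∧
      (P : Matrix (Fin 6) (Fin 6) F) *ᵥ y = ρ α *ᵥ e + ρ β *ᵥ e' := by
    intro y hy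
    have h4 := (hP _).2 ⟨y, hy, rfl⟩
    obtain ⟨α, β, hαβ⟩ := H.span ((P : Matrix (Fin 6) (Fin 6) F) *ᵥ y)
    rw [hαβ, hτ1] at h4
    obtain ⟨h5, h6⟩ := H.uniq h4
    exact ⟨α, β, h5, h6, hαβ⟩
  have hrat' : ∀ α β : K, α ^ 8 = α → β ^ 8 = β → ∃ y : Fin 6 → F,
      (∀ i, y i ∈ fixF (q := 2) hF) ∧
      ρ α *ᵥ e + ρ β *ᵥ e' = (P : Matrix (Fin 6) (Fin 6) F) *ᵥ y := by
    intro α β hα hβ
    exact (hP _).1 (by rw [hτ1, hα, hβ])
  refine ⟨fixF hF, P, 1, by rw [card_fixF, hF], one_ne_zero, ?_, ?_, ?_, ?_⟩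
  · rw [one_pow, ← h2]; norm_num
  · intro x y hx hy
    obtain ⟨α, β, hα, hβ, h4⟩ := hrat x hx
    obtain ⟨γ, δ, hγ, hδ, h5⟩ := hrat y hy
    rw [one_mul, h4, h5, H.form hF hK hadj8, hγ, hδ, mem_fixF, ← H.hTs, add_pow_q hK, mul_pow,
      mul_pow, hα, hβ, hγ, hδ]
  · intro x hx
    obtain ⟨α, β, hα, hβ, h4⟩ := hrat x hx
    rw [h4, H.form hF hK hadj8, hα, hβ, mul_comm β α, ← two_mul, two_K hF, zero_mul, map_zero]
  · rintro g hg ⟨σ, hσ⟩
    have hgσ : ∀ k x, (g : Matrix (Fin 6) (Fin 6) F) *ᵥ (ρ k *ᵥ x) =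
        ρ (σ k) *ᵥ ((g : Matrix (Fin 6) (Fin 6) F) *ᵥ x) := by
      intro k x
      rw [← hσ, Matrix.mulVec_mulVec, Matrix.mulVec_mulVec, Matrix.mul_assoc, Matrix.mul_assoc,
        ← Units.val_mul, inv_mul_cancel, Units.val_one, Matrix.mul_one]
    obtain ⟨μ, hμ9, hμ⟩ := H.exists_mu hF hK hadj8
      (g := fun x => (g : Matrix (Fin 6) (Fin 6) F) *ᵥ x) (fun x y => Matrix.mulVec_add _ _ _)
      (fun x y => hg.1 x y) hgσ
    have hμ0 : μ ≠ 0 := by
      rintro rfl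
      norm_num at hμ9
    -- columns
    have hcol : ∀ j, ∃ y : Fin 6 → F, (∀ i, y i ∈ fixF (q := 2) hF) ∧
        (g : Matrix (Fin 6) (Fin 6) F) *ᵥ ((P : Matrix (Fin 6) (Fin 6) F) *ᵥ Pi.single j 1) =
          ρ μ *ᵥ ((P : Matrix (Fin 6) (Fin 6) F) *ᵥ y) := by
      intro j
      obtain ⟨α, β, hα, hβ, h4⟩ := hrat (Pi.single j 1) (by
        intro i
        rw [mem_fixF, Pi.single_apply]
        split_ifs <;> norm_num)
      obtain ⟨γ, δ, hγ, hδ, h5⟩ := hμ α β hα hβ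
      obtain ⟨y, hy, h6⟩ := hrat' γ δ hγ hδ
      exact ⟨y, hy, by rw [h4, ← h6]; exact h5⟩
    choose y hy hgy using hcol
    -- determinant
    have hdet : (ρ μ).det = 1 := by
      have h4 : (g : Matrix (Fin 6) (Fin 6) F) * (P : Matrix (Fin 6) (Fin 6) F) =
          ρ μ * ((P : Matrix (Fin 6) (Fin 6) F) * (Matrix.of fun i j => y j i)) := by
        apply Matrix.ext_of_mulVec_single
        intro j
        rw [← Matrix.mulVec_mulVec, ← Matrix.mulVec_mulVec, ← Matrix.mulVec_mulVec, hgy]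
        congr 2
        rw [Matrix.mulVec_single_one]
        rfl
      have h5 := congrArg Matrix.det h4
      rw [Matrix.det_mul, Matrix.det_mul, Matrix.det_mul, mem_specialLinear.1 hg.2, one_mul] at h5
      have h6 : ((Matrix.of fun i j => y j i : Matrix (Fin 6) (Fin 6) F).det) ^ 2 =
          (Matrix.of fun i j => y j i : Matrix (Fin 6) (Fin 6) F).det := by
        have h7 := RingHom.map_det (conjHom (q := 2) hF)
          (Matrix.of fun i j => y j i : Matrix (Fin 6) (Fin 6) F)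
        change ((Matrix.of fun i j => y j i : Matrix (Fin 6) (Fin 6) F).det) ^ 2 = _ at h7
        rw [h7]
        congr 1
        ext i j
        exact hy j i
      have hPd : (P : Matrix (Fin 6) (Fin 6) F).det ≠ 0 :=
        ((Matrix.isUnit_iff_isUnit_det _).1 P.isUnit).ne_zero
      have h8 : (ρ μ).det * (Matrix.of fun i j => y j i : Matrix (Fin 6) (Fin 6) F).det = 1 := by
        apply mul_left_cancel₀ hPd
        rw [mul_one]
        conv_rhs => rw [h5]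
        ring
      have h9 : (Matrix.of fun i j => y j i : Matrix (Fin 6) (Fin 6) F).det = 1 :=
        four_fixed hF h6 (fun h => by rw [h, mul_zero] at h8; exact zero_ne_one h8)
      rw [h9, mul_one] at h8
      exact h8
    obtain ⟨c, hc⟩ := H.scalar_of_det hF hμ9 hdet
    have hc0 : c ≠ 0 := by
      rintro rfl
      rw [map_zero] at hc
      exact hμ0 hc
    refine mem_subfieldSubgroup_of_cols hc0 fun j => ⟨y j, hy j, ?_⟩
    rw [hgy, hc, act_algebraMap]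

omit [Fintype K] [Field K] [Algebra F K] in
/-- The normaliser of an adjoint-closed cubic field over the field with four elements. -/
theorem field_six_le (hF : Fintype.card F = 2 ^ 2)
    {L : Subalgebra F (Matrix (Fin 6) (Fin 6) F)} (hL : IsFieldSubalgebra 3 L)
    (hadj : IsAdjointClosedFor (hermForm 6 F 2) L) :
    ∃ (F₀ : Subfield F) (P : GL (Fin 6) F) (ζ : F), Fintype.card F = Nat.card F₀ ^ 2 ∧ ζ ≠ 0 ∧
      ζ + ζ ^ 2 = 0 ∧ IsFormRationalStructure (hermForm 6 F 2) F₀ ζ P ∧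
      (∀ u : Fin 6 → F, (∀ i, u i ∈ F₀) →
        (hermForm 6 F 2) (Matrix.mulVec (P : Matrix (Fin 6) (Fin 6) F) u)
          (Matrix.mulVec (P : Matrix (Fin 6) (Fin 6) F) u) = 0) ∧
      subalgebraNormalizer L ⊓ SG 6 F 2 ≤ subfieldSubgroup F₀ P := by
  classical
  have hfin : Finite L := Finite.of_injective (fun x : L => (x : Matrix (Fin 6) (Fin 6) F))
    Subtype.val_injective
  letI : Fintype L := Fintype.ofFinite L
  obtain ⟨F₀, P, ζ, z1, z2, z3, z4, z5, z6⟩ := @main_abs F L _ _ (fieldOf hL) _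
    (inferInstanceAs (Algebra F L)) (inferInstanceAs (FiniteDimensional F L)) hL.finrank_eq L.val hF
    (fun k => by
      obtain ⟨k', hk', h⟩ := hadj k.1 k.2
      exact ⟨⟨k', hk'⟩, h⟩)
  refine ⟨F₀, P, ζ, z1, z2, z3, z4, z5, ?_⟩
  rintro g ⟨hg, hgS⟩
  apply z6 g hgS
  let iL : Field L := fieldOf hL
  have hgi : ((g⁻¹ : GL (Fin 6) F) : Matrix (Fin 6) (Fin 6) F) * (g : Matrix (Fin 6) (Fin 6) F) = 1 := by
    rw [← Units.val_mul, inv_mul_cancel, Units.val_one]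
  have hgi' : (g : Matrix (Fin 6) (Fin 6) F) * ((g⁻¹ : GL (Fin 6) F) : Matrix (Fin 6) (Fin 6) F) = 1 := by
    rw [← Units.val_mul, mul_inv_cancel, Units.val_one]
  refine ⟨@RingHom.mk L L _ _ (@MonoidHom.mk L L _ _ (@OneHom.mk L L _ _
    (fun k => ⟨(g : Matrix (Fin 6) (Fin 6) F) * k.1 * ((g⁻¹ : GL (Fin 6) F) : Matrix (Fin 6) (Fin 6) F),
      (hg k.1).1 k.2⟩) ?_) ?_) ?_ ?_, fun k => rfl⟩
  · apply Subtype.ext
    change (g : Matrix (Fin 6) (Fin 6) F) * 1 * ((g⁻¹ : GL (Fin 6) F) : Matrix (Fin 6) (Fin 6) F) = 1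
    rw [Matrix.mul_one, hgi']
  · intro x y
    apply Subtype.ext
    change (g : Matrix (Fin 6) (Fin 6) F) * (x.1 * y.1) * ((g⁻¹ : GL (Fin 6) F) : Matrix (Fin 6) (Fin 6) F) =
      (g : Matrix (Fin 6) (Fin 6) F) * x.1 * ((g⁻¹ : GL (Fin 6) F) : Matrix (Fin 6) (Fin 6) F) *
      ((g : Matrix (Fin 6) (Fin 6) F) * y.1 * ((g⁻¹ : GL (Fin 6) F) : Matrix (Fin 6) (Fin 6) F))
    calc (g : Matrix (Fin 6) (Fin 6) F) * (x.1 * y.1) * ((g⁻¹ : GL (Fin 6) F) : Matrix (Fin 6) (Fin 6) F)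
        = (g : Matrix (Fin 6) (Fin 6) F) * x.1 * 1 * y.1 * ((g⁻¹ : GL (Fin 6) F) : Matrix (Fin 6) (Fin 6) F) := by
          simp only [Matrix.mul_one, Matrix.mul_assoc]
      _ = _ := by rw [← hgi]; simp only [Matrix.mul_assoc]
  · apply Subtype.ext
    change (g : Matrix (Fin 6) (Fin 6) F) * 0 * ((g⁻¹ : GL (Fin 6) F) : Matrix (Fin 6) (Fin 6) F) = 0
    rw [Matrix.mul_zero, Matrix.zero_mul]
  · intro x y
    apply Subtype.ext
    change (g : Matrix (Fin 6) (Fin 6) F) * (x.1 + y.1) * ((g⁻¹ : GL (Fin 6) F) : Matrix (Fin 6) (Fin 6) F) =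
      (g : Matrix (Fin 6) (Fin 6) F) * x.1 * ((g⁻¹ : GL (Fin 6) F) : Matrix (Fin 6) (Fin 6) F) +
      (g : Matrix (Fin 6) (Fin 6) F) * y.1 * ((g⁻¹ : GL (Fin 6) F) : Matrix (Fin 6) (Fin 6) F)
    rw [Matrix.mul_add, Matrix.add_mul]

end Glue

end FS

end Cfsg.Agent.UCase
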