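import Mathlib
import Cfsg.Agent.UCase.FieldSix

set_option autoImplicit false
set_option linter.unusedSectionVars false
set_option linter.unusedVariables false

/-!
Adjoint-closed field subalgebras of degree `n` of the `n × n` matrices: the form is the trace form.
-/

namespace Cfsg.Agent.UCase

open scoped Matrix
open Cfsg.Geo Cfsg.Agent.Uni Cfsg.Agent.AschCases
open Matrix (GeneralLinearGroup)

namespace FN

variable {F K : Type*} [Field F] [Fintype F] [Field K] [Fintype K] [Algebra F K] {n q Q : ℕ}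

section Act

variable (ρ : K →ₐ[F] Matrix (Fin n) (Fin n) F)

theorem act_mul (k l : K) (v : Fin n → F) : ρ (k * l) *ᵥ v = ρ k *ᵥ (ρ l *ᵥ v) := by
  rw [map_mul, Matrix.mulVec_mulVec]

theorem act_add (k l : K) (v : Fin n → F) : ρ (k + l) *ᵥ v = ρ k *ᵥ v + ρ l *ᵥ v := by
  rw [map_add, Matrix.add_mulVec]

theorem act_algebraMap (c : F) (v : Fin n → F) : ρ (algebraMap F K c) *ᵥ v = c • v := by
  rw [AlgHom.commutes, Algebra.algebraMap_eq_smul_one, Matrix.smul_mulVec, Matrix.one_mulVec]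

theorem act_smul (c : F) (k : K) (v : Fin n → F) : ρ (c • k) *ᵥ v = c • (ρ k *ᵥ v) := by
  rw [map_smul, Matrix.smul_mulVec]

theorem act_one (v : Fin n → F) : ρ 1 *ᵥ v = v := by
  rw [map_one, Matrix.one_mulVec]

theorem act_zero_left (v : Fin n → F) : ρ 0 *ᵥ v = 0 := by
  rw [map_zero, Matrix.zero_mulVec]

theorem act_eq_zero {k : K} {v : Fin n → F} (h : ρ k *ᵥ v = 0) : k = 0 ∨ v = 0 := by
  by_cases hk : k = 0
  · exact Or.inl hk
  · right
    have := congrArg (fun x => ρ k⁻¹ *ᵥ x) h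
    simp only [Matrix.mulVec_zero] at this
    rwa [← act_mul, inv_mul_cancel₀ hk, act_one] at this

end Act

/-- The adjoint map on the field is the automorphism of order two. -/
theorem adj_pow (hn : 0 < n) (ρ : K →ₐ[F] Matrix (Fin n) (Fin n) F) (hF : Fintype.card F = q ^ 2)
    (hK : Fintype.card K = Q ^ 2)
    (hadj : ∀ k : K, ∃ k' : K, ∀ u v : Fin n → F,
      hermForm n F q (ρ k *ᵥ u) v = hermForm n F q u (ρ k' *ᵥ v)) :
    ∀ (k : K) (u v : Fin n → F),
      hermForm n F q (ρ k *ᵥ u) v = hermForm n F q u (ρ (k ^ Q) *ᵥ v) := by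
  have : Nonempty (Fin n) := ⟨⟨0, hn⟩⟩
  choose s hs using hadj
  have hρ : Function.Injective ρ := ρ.toRingHom.injective
  have huniq : ∀ k l : K, (∀ u v : Fin n → F, hermForm n F q u (ρ k *ᵥ v) =
      hermForm n F q u (ρ l *ᵥ v)) → k = l := by
    intro k l h
    apply hρ
    apply Matrix.ext_of_mulVec_single
    intro j
    have h1 : ∀ i, (ρ k *ᵥ Pi.single j 1) i ^ q = (ρ l *ᵥ Pi.single j 1) i ^ q := by
      intro i
      have := h (Pi.single i 1) (Pi.single j 1)
      rwa [hermForm_single_left, hermForm_single_left] at this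
    funext i
    exact (pow_q_inj (q := q) hF).1 (h1 i)
  let S : K →+* K :=
    { toFun := s
      map_one' := huniq _ _ fun u v => by
        rw [← hs, act_one, act_one]
      map_mul' := fun x y => huniq _ _ fun u v => by
        rw [← hs, act_mul, hs, hs, ← act_mul, mul_comm]
      map_zero' := huniq _ _ fun u v => by
        rw [← hs, act_zero_left, act_zero_left, hermForm_zero_left, ← hermForm_symm (q := q) hF,
          hermForm_zero_left, zero_pow]
        have := two_le_q hF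
        omega
      map_add' := fun x y => huniq _ _ fun u v => by
        rw [← hs, act_add, hermForm_add_left, hs, hs, act_add, hermForm_add_right (q := q) hF] }
  have hSS : ∀ x, S (S x) = x := by
    intro x
    refine huniq _ _ fun u v => ?_
    change hermForm n F q u (ρ (s (s x)) *ᵥ v) = _
    rw [← hs, ← hermForm_symm (q := q) hF, ← hs, hermForm_symm (q := q) hF]
  have hSc : ∀ c : F, S (algebraMap F K c) = algebraMap F K (c ^ q) := by
    intro c
    refine huniq _ _ fun u v => ?_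
    change hermForm n F q u (ρ (s (algebraMap F K c)) *ᵥ v) = _
    rw [← hs, act_algebraMap, act_algebraMap, hermForm_smul_left, hermForm_smul_right, pow_q_pow_q hF]
  obtain ⟨c, hc⟩ := exists_pow_q_ne (F := F) (q := q) hF
  have h1 := Asch.ringHom_invol_unique S (conjHom hK) hSS (conjHom_involutive hK)
    ⟨algebraMap F K c, fun h => hc ((algebraMap F K).injective (by rw [← hSc, h]))⟩
    (exists_pow_q_ne hK)
  intro k u v
  have h2 : s k = k ^ Q := h1 k
  rw [hs, h2]

theorem trace_pow (hK : Fintype.card K = Q ^ 2) (hQ : ∀ c : F, c ^ Q = c ^ q) (x : K) :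
    Algebra.trace F K (x ^ Q) = (Algebra.trace F K x) ^ q := by
  apply (algebraMap F K).injective
  rw [← hQ, map_pow (algebraMap F K), FiniteField.algebraMap_trace_eq_sum_pow, FiniteField.algebraMap_trace_eq_sum_pow]
  have := map_sum (conjHom hK) (fun i => x ^ (Nat.card F ^ i)) (Finset.range (Module.finrank F K))
  refine Eq.trans (Finset.sum_congr rfl fun i _ => ?_) this.symm
  change _ = (x ^ _) ^ Q
  rw [← pow_mul, ← pow_mul, mul_comm]

theorem trace_hom (σ : K →+* K) (hσ : ∀ c : F, σ (algebraMap F K c) = algebraMap F K c) (x : K) :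
    Algebra.trace F K (σ x) = Algebra.trace F K x := by
  apply (algebraMap F K).injective
  rw [← hσ (Algebra.trace F K x), FiniteField.algebraMap_trace_eq_sum_pow,
    FiniteField.algebraMap_trace_eq_sum_pow, map_sum]
  exact Finset.sum_congr rfl fun i _ => (map_pow σ x _).symm

theorem trace_ne (F K : Type*) [Field F] [Fintype F] [Field K] [Fintype K] [Algebra F K] :
    Algebra.trace F K ≠ 0 := by
  intro h
  obtain ⟨x, hx⟩ := Algebra.trace_surjective F K 1
  rw [h, LinearMap.zero_apply] at hx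
  exact zero_ne_one hx

/-- The form is a trace form. -/
theorem exists_cyclic (hn0 : 0 < n) (hn : Module.finrank F K = n)
    (ρ : K →ₐ[F] Matrix (Fin n) (Fin n) F) (hF : Fintype.card F = q ^ 2)
    (hK : Fintype.card K = Q ^ 2) (hQ : ∀ c : F, c ^ Q = c ^ q)
    (hadj : ∀ (k : K) (u v : Fin n → F),
      hermForm n F q (ρ k *ᵥ u) v = hermForm n F q u (ρ (k ^ Q) *ᵥ v)) :
    ∃ v : Fin n → F, v ≠ 0 ∧ (∀ x, ∃ k, x = ρ k *ᵥ v) ∧
      ∀ k l, hermForm n F q (ρ k *ᵥ v) (ρ l *ᵥ v) = Algebra.trace F K (k * l ^ Q) := by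
  have : FiniteDimensional F K := FiniteDimensional.of_finrank_pos (by rw [hn]; exact hn0)
  -- surjectivity
  have hspan : ∀ v : Fin n → F, v ≠ 0 → ∀ x, ∃ k, x = ρ k *ᵥ v := by
    intro v hv
    let φ : K →ₗ[F] (Fin n → F) :=
      { toFun := fun k => ρ k *ᵥ v
        map_add' := fun k l => act_add ρ k l v
        map_smul' := fun c k => act_smul ρ c k v }
    have hφ : Function.Injective φ := by
      rw [← LinearMap.ker_eq_bot, LinearMap.ker_eq_bot']
      intro k hk
      exact (act_eq_zero ρ hk).resolve_right hv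
    have hs : Function.Surjective φ := by
      rw [← LinearMap.injective_iff_surjective_of_finrank_eq_finrank]
      · exact hφ
      · rw [hn, Module.finrank_fintype_fun_eq_card, Fintype.card_fin]
    intro x
    obtain ⟨k, hk⟩ := hs x
    exact ⟨k, hk.symm⟩
  let u : Fin n → F := Pi.single ⟨0, hn0⟩ 1
  have hu : u ≠ 0 := by
    intro h
    have := congrFun h ⟨0, hn0⟩
    simp [u] at this
  have hadj2 : ∀ (k l : K) (x y : Fin n → F),
      hermForm n F q (ρ k *ᵥ x) (ρ l *ᵥ y) = hermForm n F q (ρ (k * l ^ Q) *ᵥ x) y := by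
    intro k l x y
    rw [mul_comm, act_mul, hadj (l ^ Q), pow_q_pow_q hK]
  let L : K →ₗ[F] F :=
    { toFun := fun k => hermForm n F q (ρ k *ᵥ u) u
      map_add' := fun k l => by rw [act_add, hermForm_add_left]
      map_smul' := fun c k => by rw [act_smul, hermForm_smul_left]; rfl }
  have hL : ∀ k, L k = hermForm n F q (ρ k *ᵥ u) u := fun k => rfl
  obtain ⟨b, hb⟩ := FS.exists_mul_of_functional (T := Algebra.trace F K) (T' := L) (trace_ne F K)
  have hb0 : b ≠ 0 := by
    rintro rfl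
    apply hu
    have h1 : ∀ x, hermForm n F q x u = 0 := by
      intro x
      obtain ⟨k, rfl⟩ := hspan u hu x
      rw [← hL, hb, mul_zero, map_zero]
    funext i
    have h2 := h1 (Pi.single i 1)
    rw [hermForm_single_left] at h2
    exact pow_eq_zero_iff (by have := two_le_q hF; omega) |>.1 h2
  have hbQ : b ^ Q = b := by
    have h1 : ∀ k, (L k) ^ q = L (k ^ Q) := by
      intro k
      rw [hL, hL, hermForm_symm (q := q) hF]
      rw [hadj (k ^ Q), pow_q_pow_q hK]
    have h2 : b ^ Q - b = 0 := by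
      refine FS.functional_nondeg (T := Algebra.trace F K) (trace_ne F K) fun x => ?_
      have h3 := h1 (x ^ Q)
      rw [hb, hb, ← trace_pow hK hQ, mul_pow, pow_q_pow_q hK] at h3
      rw [mul_sub, map_sub, h3, sub_self]
    exact sub_eq_zero.1 h2
  obtain ⟨c, hc⟩ := exists_norm_eq (F := K) (q := Q) hK (c := b⁻¹) (by rw [inv_pow, hbQ])
  have hc0 : c ≠ 0 := by
    rintro rfl
    rw [zero_pow (by omega)] at hc
    exact inv_ne_zero hb0 hc.symm
  have hv : ρ c *ᵥ u ≠ 0 := fun h => (act_eq_zero ρ h).elim hc0 hu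
  refine ⟨ρ c *ᵥ u, hv, hspan _ hv, fun k l => ?_⟩
  rw [← act_mul, ← act_mul, hadj2, ← hL, hb]
  congr 1
  have h3 : c * c ^ Q * b = 1 := by
    rw [← pow_succ', hc, inv_mul_cancel₀ hb0]
  calc k * c * (l * c) ^ Q * b = k * l ^ Q * (c * c ^ Q * b) := by ring
    _ = k * l ^ Q := by rw [h3, mul_one]

/-- The elements normalising the field. -/
theorem exists_normal {ρ : K →ₐ[F] Matrix (Fin n) (Fin n) F} 
    (hK : Fintype.card K = Q ^ 2) {v : Fin n → F} (hv : v ≠ 0)
    (hspan : ∀ x, ∃ k, x = ρ k *ᵥ v)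
    (hT : ∀ k l, hermForm n F q (ρ k *ᵥ v) (ρ l *ᵥ v) = Algebra.trace F K (k * l ^ Q))
    {g : GL (Fin n) F} (hg : g ∈ GU n F q) {σ : K →+* K}
    (hσ : ∀ k, (g : Matrix (Fin n) (Fin n) F) * ρ k * ((g⁻¹ : GL (Fin n) F) : Matrix (Fin n) (Fin n) F)
      = ρ (σ k)) :
    (∀ c : F, σ (algebraMap F K c) = algebraMap F K c) ∧
    ∃ c : K, c ^ (Q + 1) = 1 ∧
      ∀ k, (g : Matrix (Fin n) (Fin n) F) *ᵥ (ρ k *ᵥ v) = ρ (σ k * c) *ᵥ v := by
  have hρ0 : ∀ k l : K, ρ k *ᵥ v = ρ l *ᵥ v → k = l := by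
    intro k l h
    have : ρ (k - l) *ᵥ v = 0 := by
      rw [map_sub, Matrix.sub_mulVec, h, sub_self]
    exact sub_eq_zero.1 ((act_eq_zero ρ this).resolve_right hv)
  have hgσ : ∀ k x, (g : Matrix (Fin n) (Fin n) F) *ᵥ (ρ k *ᵥ x) =
      ρ (σ k) *ᵥ ((g : Matrix (Fin n) (Fin n) F) *ᵥ x) := by
    intro k x
    rw [← hσ, Matrix.mulVec_mulVec, Matrix.mulVec_mulVec, Matrix.mul_assoc, Matrix.mul_assoc,
      ← Units.val_mul, inv_mul_cancel, Units.val_one, Matrix.mul_one]
  obtain ⟨c, hc⟩ := hspan ((g : Matrix (Fin n) (Fin n) F) *ᵥ v)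
  have hgk : ∀ k, (g : Matrix (Fin n) (Fin n) F) *ᵥ (ρ k *ᵥ v) = ρ (σ k * c) *ᵥ v := by
    intro k
    rw [hgσ, hc, act_mul]
  have hc0 : c ≠ 0 := by
    rintro rfl
    have h1 := hgk 1
    rw [mul_zero, act_zero_left, act_one] at h1
    apply hv
    have h2 := congrArg (fun x => ((g⁻¹ : GL (Fin n) F) : Matrix (Fin n) (Fin n) F) *ᵥ x) h1
    simp only [Matrix.mulVec_zero] at h2
    rwa [Matrix.mulVec_mulVec, ← Units.val_mul, inv_mul_cancel, Units.val_one,
      Matrix.one_mulVec] at h2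
  have hfix : ∀ c : F, σ (algebraMap F K c) = algebraMap F K c := by
    intro a
    have h1 := hgk (algebraMap F K a)
    have h2 := hgk 1
    rw [act_algebraMap, Matrix.mulVec_smul] at h1
    rw [act_one, map_one, one_mul] at h2
    rw [h2, ← act_algebraMap ρ, ← act_mul] at h1
    exact (mul_right_cancel₀ hc0 (hρ0 _ _ h1)).symm
  refine ⟨hfix, c, ?_, hgk⟩
  have hσs : Function.Surjective σ := Finite.surjective_of_injective σ.injective
  have h1 : c ^ (Q + 1) - 1 = 0 := by
    refine FS.functional_nondeg (T := Algebra.trace F K) (trace_ne F K) fun x => ?_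
    obtain ⟨k, rfl⟩ := hσs x
    have h2 : hermForm n F q ((g : Matrix (Fin n) (Fin n) F) *ᵥ (ρ k *ᵥ v))
        ((g : Matrix (Fin n) (Fin n) F) *ᵥ (ρ 1 *ᵥ v)) = hermForm n F q (ρ k *ᵥ v) (ρ 1 *ᵥ v) :=
      hg _ _
    rw [hgk, hgk, hT, hT, map_one, one_mul, one_pow, mul_one, mul_assoc, ← pow_succ'] at h2
    rw [mul_sub, mul_one, map_sub, h2, trace_hom σ hfix, sub_self]
  exact sub_eq_zero.1 h1

end FN

end Cfsg.Agent.UCase
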