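import Mathlib
import Cfsg.Agent.UCase.FieldN
import Cfsg.Agent.UCase.Six

set_option autoImplicit false
set_option linter.unusedSectionVars false
set_option linter.unusedVariables false

/-!
`SU_5(2)`: the normaliser of a field of degree five is not maximal.
-/

namespace Cfsg.Agent.UCase

open scoped Matrix
open Cfsg.Geo Cfsg.Agent.Uni Cfsg.Agent.AschCases
open Matrix (GeneralLinearGroup)

namespace FV

open F4 Finset

section Beta

variable {F K : Type*} [Field F] [Fintype F] [Field K] [Fintype K] [Algebra F K]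

theorem exists_beta (h2 : (2 : K) = 0) (hK : Fintype.card K = 32 ^ 2) :
    ∃ β : K, β ^ 5 + β ^ 2 + 1 = 0 := by
  classical
  by_contra hne
  push Not at hne
  let s : Finset K := univ.filter (fun x => x ^ 32 = x)
  have hs : s.card = 32 := by
    have h1 := card_fixF hK
    have h2 : Nat.card (fixF hK) = Nat.card {x : K // x ^ 32 = x} := rfl
    rw [h2, Nat.card_eq_fintype_card, Fintype.card_subtype] at h1
    exact h1
  let Q : Polynomial K := Polynomial.X ^ 27 + Polynomial.X ^ 24 + Polynomial.X ^ 22 +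
    Polynomial.X ^ 21 + Polynomial.X ^ 18 + Polynomial.X ^ 17 + Polynomial.X ^ 16 +
    Polynomial.X ^ 15 + Polynomial.X ^ 14 + Polynomial.X ^ 10 + Polynomial.X ^ 9 +
    Polynomial.X ^ 7 + Polynomial.X ^ 6 + Polynomial.X ^ 5 + Polynomial.X ^ 3 + Polynomial.X
  have hQe : ∀ x ∈ s, Q.eval x = 0 := by
    intro x hx
    have hx1 : x ^ 32 = x := (mem_filter.1 hx).2
    have h3 : (x ^ 5 + x ^ 2 + 1) * Q.eval x = 0 := by
      simp only [Q, Polynomial.eval_add, Polynomial.eval_pow, Polynomial.eval_X]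
      linear_combination hx1 - (- x^1 - x^3 - x^5 - x^6 - x^7 - x^8 - x^9 - x^10 - x^11 - x^12 - x^14 - x^15 - x^16 - x^17 - x^18 - x^19 - x^20 - x^21 - x^22 - x^23 - x^24 - x^26 - x^27 - x^29) * h2
    exact (mul_eq_zero.1 h3).resolve_left (hne x)
  have hQ0 : Q ≠ 0 := by
    intro h
    have h3 : Q.coeff 27 = 1 := by
      simp [Q, Polynomial.coeff_X, Polynomial.coeff_X_pow]
    rw [h, Polynomial.coeff_zero] at h3
    exact zero_ne_one h3
  have hdeg : Q.natDegree ≤ 27 := by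
    simp only [Q]
    compute_degree
  have h3 : s.val ⊆ Q.roots := by
    intro x hx
    rw [Polynomial.mem_roots hQ0]
    exact hQe x hx
  have h4 := Polynomial.card_le_degree_of_subset_roots h3
  omega

theorem root_iff (h2 : (2 : K) = 0) {β : K} (hβ : β ^ 5 + β ^ 2 + 1 = 0) (y : K) :
    y ^ 5 + y ^ 2 + 1 = 0 ↔ y = β ∨ y = β ^ 2 ∨ y = β ^ 4 ∨ y = β ^ 3 + β ^ 2 + 1 ∨
      y = β ^ 4 + β ^ 3 + β + 1 := by
  have hprod : (y - β) * (y - β ^ 2) * (y - β ^ 4) * (y - (β ^ 3 + β ^ 2 + 1)) *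
      (y - (β ^ 4 + β ^ 3 + β + 1)) = y ^ 5 + y ^ 2 + 1 := by
    linear_combination (- 1 + β^2 + 2*β^3 + β^4 - β^5 - β^6 - β^7 - 2*β^8 - β^9 - 4*y^1 - 4*y^1*β^1 - 2*y^1*β^2 + y^1*β^3 + 5*y^1*β^4 + 5*y^1*β^5 + 4*y^1*β^6 + 3*y^1*β^7 + y^1*β^8 + y^2 - 3*y^2*β^1 - 7*y^2*β^2 - 7*y^2*β^3 - 5*y^2*β^4 - 3*y^2*β^5 - y^2*β^6 + 5*y^3 + 5*y^3*β^1 + 3*y^3*β^2 + y^3*β^3) * hβ + (- β^3 - β^4 + 2*y^1 + 2*y^1*β^1 + 3*y^1*β^2 + 2*y^1*β^3 - y^1*β^4 - y^2 + y^2*β^1 + 2*y^2*β^2 + 3*y^2*β^3 + 3*y^2*β^4 - 2*y^3 - y^3*β^1 - 2*y^3*β^2 + 2*y^3*β^4 - y^4 - y^4*β^1 - y^4*β^2 - y^4*β^3 - y^4*β^4) * h2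
  rw [← hprod]
  simp only [mul_eq_zero, sub_eq_zero]
  tauto

theorem e8 (h2 : (2 : K) = 0) {β : K} (hβ : β ^ 5 + β ^ 2 + 1 = 0) :
    β ^ 8 = β ^ 3 + β ^ 2 + 1 := by
  linear_combination (- 1 + β^3) * hβ + (- β^3) * h2

theorem e16 (h2 : (2 : K) = 0) {β : K} (hβ : β ^ 5 + β ^ 2 + 1 = 0) :
    β ^ 16 = β ^ 4 + β ^ 3 + β + 1 := by
  have h8 := e8 h2 hβ
  have : β ^ 16 = (β ^ 8) ^ 2 := by ring
  rw [this, h8]
  linear_combination (2 + β^1) * hβ + (- 1 - β^1) * h2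

theorem e32 (h2 : (2 : K) = 0) {β : K} (hβ : β ^ 5 + β ^ 2 + 1 = 0) : β ^ 32 = β := by
  have h16 := e16 h2 hβ
  have : β ^ 32 = (β ^ 16) ^ 2 := by ring
  rw [this, h16]
  linear_combination (1 + β^1 + 2*β^2 + β^3) * hβ + (- β^2 + β^4) * h2

/-- The trace, explicitly. -/
theorem trace_eq (hF : Fintype.card F = 2 ^ 2) (h5 : Module.finrank F K = 5) (x : K) :
    algebraMap F K (Algebra.trace F K x) = x + x ^ 4 + x ^ 16 + x ^ 64 + x ^ 256 := by
  rw [FiniteField.algebraMap_trace_eq_sum_pow, h5, Nat.card_eq_fintype_card, hF]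
  simp only [Finset.sum_range_succ, Finset.sum_range_zero]
  norm_num

theorem tr_0 (hF : Fintype.card F = 2 ^ 2) (h5 : Module.finrank F K = 5) (h2 : (2 : K) = 0) :
    Algebra.trace F K 1 = 1 := by
  apply (algebraMap F K).injective
  rw [trace_eq hF h5, map_one]
  linear_combination 2 * h2

variable {β : K} (hF : Fintype.card F = 2 ^ 2) (h5 : Module.finrank F K = 5) (h2 : (2 : K) = 0)
  (hβ : β ^ 5 + β ^ 2 + 1 = 0)
include hF h5 h2 hβ

theorem tr_1 : Algebra.trace F K β = 0 := by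
  apply (algebraMap F K).injective
  have h32 := e32 h2 hβ
  have h64 : β ^ 64 = β ^ 2 := by
    calc β ^ 64 = (β ^ 32) ^ 2 := by ring
      _ = β ^ 2 := by rw [h32]
  have h256 : β ^ 256 = β ^ 3 + β ^ 2 + 1 := by
    calc β ^ 256 = (β ^ 32) ^ 8 := by ring
      _ = _ := by rw [h32, e8 h2 hβ]
  rw [trace_eq hF h5, map_zero, h64, h256, e16 h2 hβ]
  linear_combination (β + β ^ 4 + β ^ 3 + 1 + β ^ 2) * h2

theorem tr_2 : Algebra.trace F K (β ^ 2) = 0 := by
  apply (algebraMap F K).injective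
  have h1 := trace_eq (F := F) hF h5 β
  rw [tr_1 hF h5 h2 hβ, map_zero] at h1
  rw [trace_eq hF h5, map_zero]
  linear_combination (-(β + β ^ 4 + β ^ 16 + β ^ 64 + β ^ 256)) * h1 -
    (β * (β ^ 4 + β ^ 16 + β ^ 64 + β ^ 256) + β ^ 4 * (β ^ 16 + β ^ 64 + β ^ 256) +
      β ^ 16 * (β ^ 64 + β ^ 256) + β ^ 64 * β ^ 256) * h2

theorem tr_4 : Algebra.trace F K (β ^ 4) = 0 := by
  apply (algebraMap F K).injective
  have h1 := trace_eq (F := F) hF h5 (β ^ 2)
  rw [tr_2 hF h5 h2 hβ, map_zero] at h1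
  rw [trace_eq hF h5, map_zero]
  linear_combination (-(β^2 + (β^2) ^ 4 + (β^2) ^ 16 + (β^2) ^ 64 + (β^2) ^ 256)) * h1 -
    (β^2 * ((β^2) ^ 4 + (β^2) ^ 16 + (β^2) ^ 64 + (β^2) ^ 256) + (β^2) ^ 4 * ((β^2) ^ 16 + (β^2) ^ 64 + (β^2) ^ 256) +
      (β^2) ^ 16 * ((β^2) ^ 64 + (β^2) ^ 256) + (β^2) ^ 64 * (β^2) ^ 256) * h2

theorem tr_3 : Algebra.trace F K (β ^ 3) = 1 := by
  apply (algebraMap F K).injective
  have h32 := e32 h2 hβ
  have h12 : (β ^ 3) ^ 4 = β^1 + β^2 + β^3 := by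
    linear_combination (β^1 - β^2 - β^4 + β^7) * hβ + (- β^1 - β^3 + β^4) * h2
  have h48 : (β ^ 3) ^ 16 = 1 + β + β ^ 4 := by
    calc (β ^ 3) ^ 16 = (β ^ 16) ^ 3 := by ring
      _ = _ := by
        rw [e16 h2 hβ]
        linear_combination (5*β^2 + 6*β^3 + 3*β^4 + 3*β^5 + 3*β^6 + β^7) * hβ + (β^1 - β^2 - β^3) * h2
  have h192 : (β ^ 3) ^ 64 = β ^ 3 + β := by
    calc (β ^ 3) ^ 64 = (β ^ 32) ^ 6 := by ring
      _ = β ^ 6 := by rw [h32]
      _ = _ := by linear_combination (β^1) * hβ + (- β^1 - β^3) * h2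
  have h768 : (β ^ 3) ^ 256 = β + β ^ 2 + β ^ 3 + β ^ 4 := by
    calc (β ^ 3) ^ 256 = ((β ^ 32) ^ 8) ^ 3 := by ring
      _ = _ := by
        rw [h32, e8 h2 hβ]
        linear_combination (3 + 3*β^1 + 3*β^2 + 3*β^3 + β^4) * hβ + (- 1 - 2*β^1 - 2*β^2 - 2*β^3 - β^4) * h2
  rw [trace_eq hF h5, map_one, h12, h48, h192, h768]
  linear_combination (2 * β + β ^ 2 + 2 * β ^ 3 + β ^ 4) * h2

theorem tr_5 : Algebra.trace F K (β ^ 5) = 1 := by
  have h : β ^ 5 = β ^ 2 + 1 := by linear_combination (1) * hβ + (- 1 - β^2) * h2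
  rw [h, map_add, tr_2 hF h5 h2 hβ, tr_0 hF h5 h2, zero_add]

theorem tr_6 : Algebra.trace F K (β ^ 6) = 1 := by
  have h : β ^ 6 = β ^ 3 + β := by linear_combination (β^1) * hβ + (- β^1 - β^3) * h2
  rw [h, map_add, tr_3 hF h5 h2 hβ, tr_1 hF h5 h2 hβ, add_zero]

theorem tr_7 : Algebra.trace F K (β ^ 7) = 0 := by
  have h : β ^ 7 = β ^ 4 + β ^ 2 := by linear_combination (β^2) * hβ + (- β^2 - β^4) * h2
  rw [h, map_add, tr_4 hF h5 h2 hβ, tr_2 hF h5 h2 hβ, add_zero]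

theorem tr_8 : Algebra.trace F K (β ^ 8) = 0 := by
  rw [e8 h2 hβ, map_add, map_add, tr_3 hF h5 h2 hβ, tr_2 hF h5 h2 hβ, tr_0 hF h5 h2, add_zero]
  apply (algebraMap F K).injective
  rw [map_zero, map_add, map_one]
  linear_combination h2

end Beta

section Ev

variable {F K : Type*} [Field F] [Fintype F] [Field K] [Fintype K] [Algebra F K]

/-- The element with given coordinates. -/
def ev (F : Type*) {K : Type*} [Field F] [Field K] [Algebra F K] (β : K) (a b c d e : F) : K :=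
  algebraMap F K a + algebraMap F K b * β + algebraMap F K c * β ^ 2 + algebraMap F K d * β ^ 3 +
    algebraMap F K e * β ^ 4

theorem tr_smul (c : F) (x : K) : Algebra.trace F K (algebraMap F K c * x) =
    c * Algebra.trace F K x := by
  rw [← Algebra.smul_def, map_smul, smul_eq_mul]

variable {β : K} (hF : Fintype.card F = 2 ^ 2) (h5 : Module.finrank F K = 5) (h2 : (2 : K) = 0)
  (hβ : β ^ 5 + β ^ 2 + 1 = 0)
include hF h5 h2 hβ

theorem tr_ev (a b c d e : F) : Algebra.trace F K (ev F β a b c d e) = a + d := by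
  have h1 : ev F β a b c d e = algebraMap F K a * 1 + algebraMap F K b * β + algebraMap F K c * β ^ 2
    + algebraMap F K d * β ^ 3 + algebraMap F K e * β ^ 4 := by rw [ev, mul_one]
  rw [h1, map_add, map_add, map_add, map_add, tr_smul, tr_smul, tr_smul, tr_smul, tr_smul,
    tr_0 hF h5 h2, tr_1 hF h5 h2 hβ, tr_2 hF h5 h2 hβ, tr_3 hF h5 h2 hβ, tr_4 hF h5 h2 hβ]
  ring

theorem tr_ev1 (a b c d e : F) : Algebra.trace F K (ev F β a b c d e * β) = c + e := by
  have h1 : ev F β a b c d e * β = algebraMap F K a * β + algebraMap F K b * β ^ 2 +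
    algebraMap F K c * β ^ 3 + algebraMap F K d * β ^ 4 + algebraMap F K e * β ^ 5 := by
    rw [ev]; ring
  rw [h1, map_add, map_add, map_add, map_add, tr_smul, tr_smul, tr_smul, tr_smul, tr_smul,
    tr_5 hF h5 h2 hβ, tr_1 hF h5 h2 hβ, tr_2 hF h5 h2 hβ, tr_3 hF h5 h2 hβ, tr_4 hF h5 h2 hβ]
  ring

theorem tr_ev2 (a b c d e : F) : Algebra.trace F K (ev F β a b c d e * β ^ 2) = b + d + e := by
  have h1 : ev F β a b c d e * β ^ 2 = algebraMap F K a * β ^ 2 + algebraMap F K b * β ^ 3 +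
    algebraMap F K c * β ^ 4 + algebraMap F K d * β ^ 5 + algebraMap F K e * β ^ 6 := by
    rw [ev]; ring
  rw [h1, map_add, map_add, map_add, map_add, tr_smul, tr_smul, tr_smul, tr_smul, tr_smul,
    tr_5 hF h5 h2 hβ, tr_6 hF h5 h2 hβ, tr_2 hF h5 h2 hβ, tr_3 hF h5 h2 hβ, tr_4 hF h5 h2 hβ]
  ring

theorem tr_ev3 (a b c d e : F) : Algebra.trace F K (ev F β a b c d e * β ^ 3) = a + c + d := by
  have h1 : ev F β a b c d e * β ^ 3 = algebraMap F K a * β ^ 3 + algebraMap F K b * β ^ 4 +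
    algebraMap F K c * β ^ 5 + algebraMap F K d * β ^ 6 + algebraMap F K e * β ^ 7 := by
    rw [ev]; ring
  rw [h1, map_add, map_add, map_add, map_add, tr_smul, tr_smul, tr_smul, tr_smul, tr_smul,
    tr_5 hF h5 h2 hβ, tr_6 hF h5 h2 hβ, tr_7 hF h5 h2 hβ, tr_3 hF h5 h2 hβ, tr_4 hF h5 h2 hβ]
  ring

theorem tr_ev4 (a b c d e : F) : Algebra.trace F K (ev F β a b c d e * β ^ 4) = b + c := by
  have h1 : ev F β a b c d e * β ^ 4 = algebraMap F K a * β ^ 4 + algebraMap F K b * β ^ 5 +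
    algebraMap F K c * β ^ 6 + algebraMap F K d * β ^ 7 + algebraMap F K e * β ^ 8 := by
    rw [ev]; ring
  rw [h1, map_add, map_add, map_add, map_add, tr_smul, tr_smul, tr_smul, tr_smul, tr_smul,
    tr_5 hF h5 h2 hβ, tr_6 hF h5 h2 hβ, tr_7 hF h5 h2 hβ, tr_8 hF h5 h2 hβ, tr_4 hF h5 h2 hβ]
  ring

theorem ev_zero {a b c d e : F} (h : ev F β a b c d e = 0) :
    a = 0 ∧ b = 0 ∧ c = 0 ∧ d = 0 ∧ e = 0 := by
  have h20 := four_two_eq_zero hF
  have t0 := tr_ev hF h5 h2 hβ a b c d e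
  have t1 := tr_ev1 hF h5 h2 hβ a b c d e
  have t2 := tr_ev2 hF h5 h2 hβ a b c d e
  have t3 := tr_ev3 hF h5 h2 hβ a b c d e
  have t4 := tr_ev4 hF h5 h2 hβ a b c d e
  rw [h, zero_mul, map_zero] at t1 t2 t3 t4
  rw [h, map_zero] at t0
  have hc : c = 0 := by linear_combination t0 - t3
  subst hc
  have he : e = 0 := by linear_combination -t1
  have hb : b = 0 := by linear_combination -t4
  subst he hb
  have hd : d = 0 := by linear_combination -t2
  subst hd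
  exact ⟨by linear_combination -t0, rfl, rfl, rfl, rfl⟩

theorem ev_sub (a b c d e a' b' c' d' e' : F) : ev F β (a - a') (b - b') (c - c') (d - d') (e - e') =
    ev F β a b c d e - ev F β a' b' c' d' e' := by
  simp only [ev, map_sub]
  ring

theorem ev_inj {a b c d e a' b' c' d' e' : F} (h : ev F β a b c d e = ev F β a' b' c' d' e') :
    a = a' ∧ b = b' ∧ c = c' ∧ d = d' ∧ e = e' := by
  have h1 := ev_sub hF h5 h2 hβ a b c d e a' b' c' d' e'
  rw [h, sub_self] at h1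
  obtain ⟨h3, h4, h5, h6, h7⟩ := ev_zero hF h5 h2 hβ h1
  exact ⟨sub_eq_zero.1 h3, sub_eq_zero.1 h4, sub_eq_zero.1 h5, sub_eq_zero.1 h6, sub_eq_zero.1 h7⟩

theorem ev_surj (x : K) : ∃ a b c d e : F, x = ev F β a b c d e := by
  have : FiniteDimensional F K := FiniteDimensional.of_finrank_pos (by rw [h5]; norm_num)
  let φ : (Fin 5 → F) →ₗ[F] K :=
    { toFun := fun y => ev F β (y 0) (y 1) (y 2) (y 3) (y 4)
      map_add' := fun y z => by simp only [ev, Pi.add_apply, map_add]; ring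
      map_smul' := fun a y => by
        simp only [ev, Pi.smul_apply, smul_eq_mul, map_mul, Algebra.smul_def, RingHom.id_apply]; ring }
  have hφ : Function.Injective φ := by
    rw [← LinearMap.ker_eq_bot, LinearMap.ker_eq_bot']
    intro y hy
    obtain ⟨y0, y1, y2, y3, y4⟩ := ev_zero hF h5 h2 hβ hy
    funext i
    fin_cases i
    · exact y0
    · exact y1
    · exact y2
    · exact y3
    · exact y4
  have hs : Function.Surjective φ := by
    rw [← LinearMap.injective_iff_surjective_of_finrank_eq_finrank]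
    · exact hφ
    · rw [h5, Module.finrank_fintype_fun_eq_card, Fintype.card_fin]
  obtain ⟨y, hy⟩ := hs x
  exact ⟨_, _, _, _, _, hy.symm⟩

theorem ev_norm (hK : Fintype.card K = 32 ^ 2) (a b c d e : F) : (ev F β a b c d e) ^ 33 =
    ev F β
      (a * a ^ 2 + (b * e ^ 2 + c * d ^ 2 + d * c ^ 2 + e * b ^ 2) + e * e ^ 2)
      (a * b ^ 2 + b * a ^ 2 + (c * e ^ 2 + d * d ^ 2 + e * c ^ 2))
      (a * c ^ 2 + b * b ^ 2 + c * a ^ 2 + (b * e ^ 2 + c * d ^ 2 + d * c ^ 2 + e * b ^ 2) +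
        (d * e ^ 2 + e * d ^ 2) + e * e ^ 2)
      (a * d ^ 2 + b * c ^ 2 + c * b ^ 2 + d * a ^ 2 + (c * e ^ 2 + d * d ^ 2 + e * c ^ 2) + e * e ^ 2)
      (a * e ^ 2 + b * d ^ 2 + c * c ^ 2 + d * b ^ 2 + e * a ^ 2 + (d * e ^ 2 + e * d ^ 2)) := by
  have hc : ∀ x : F, (algebraMap F K x) ^ 32 = (algebraMap F K x) ^ 2 := by
    intro x
    rw [← map_pow, ← map_pow]
    congr 1
    have h1 := FiniteField.pow_card x
    rw [hF] at h1
    calc x ^ 32 = ((x ^ 2 ^ 2) ^ 2 ^ 2) ^ 2 := by ring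
      _ = x ^ 2 := by rw [h1, h1]
  have h32 : (ev F β a b c d e) ^ 32 = ev F β (a ^ 2) (b ^ 2) (c ^ 2) (d ^ 2) (e ^ 2) := by
    have h1 : (ev F β a b c d e) ^ 32 = conjHom hK (ev F β a b c d e) := rfl
    rw [h1]
    have hb : ∀ j, (β ^ j) ^ 32 = β ^ j := by
      intro j
      rw [← pow_mul, mul_comm, pow_mul, e32 h2 hβ]
    simp only [ev, map_add, map_mul, conjHom_apply]
    rw [e32 h2 hβ, hc, hc, hc, hc, hc, hb, hb, hb]
    simp only [map_pow]
  rw [pow_succ, h32]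
  simp only [ev, map_add, map_mul, map_pow]
  generalize algebraMap F K a = A
  generalize algebraMap F K b = B
  generalize algebraMap F K c = C
  generalize algebraMap F K d = D
  generalize algebraMap F K e = E
  linear_combination ((B * E ^ 2 + C * D ^ 2 + D * C ^ 2 + E * B ^ 2) * 1 +
      (C * E ^ 2 + D * D ^ 2 + E * C ^ 2) * β +
      (D * E ^ 2 + E * D ^ 2) * β ^ 2 + E * E ^ 2 * (- 1 + β^3)) * hβ +
    ((B * E ^ 2 + C * D ^ 2 + D * C ^ 2 + E * B ^ 2) * (- 1 - β^2) +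
      (C * E ^ 2 + D * D ^ 2 + E * C ^ 2) * (- β^1 - β^3) +
      (D * E ^ 2 + E * D ^ 2) * (- β^2 - β^4) + E * E ^ 2 * (- β^3)) * h2

end Ev

/-! ### The decidable model -/

def n0 (a b c d e : Fin 4) : Fin 4 :=
  ad (ad (ml a (ml a a)) (ad (ad (ad (ml b (ml e e)) (ml c (ml d d))) (ml d (ml c c))) (ml e (ml b b))))
    (ml e (ml e e))
def n1 (a b c d e : Fin 4) : Fin 4 :=
  ad (ad (ml a (ml b b)) (ml b (ml a a))) (ad (ad (ml c (ml e e)) (ml d (ml d d))) (ml e (ml c c)))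
def n2 (a b c d e : Fin 4) : Fin 4 :=
  ad (ad (ad (ad (ad (ml a (ml c c)) (ml b (ml b b))) (ml c (ml a a)))
    (ad (ad (ad (ml b (ml e e)) (ml c (ml d d))) (ml d (ml c c))) (ml e (ml b b))))
    (ad (ml d (ml e e)) (ml e (ml d d)))) (ml e (ml e e))
def n3 (a b c d e : Fin 4) : Fin 4 :=
  ad (ad (ad (ad (ad (ml a (ml d d)) (ml b (ml c c))) (ml c (ml b b))) (ml d (ml a a)))
    (ad (ad (ml c (ml e e)) (ml d (ml d d))) (ml e (ml c c)))) (ml e (ml e e))
def n4 (a b c d e : Fin 4) : Fin 4 :=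
  ad (ad (ad (ad (ad (ml a (ml e e)) (ml b (ml d d))) (ml c (ml c c))) (ml d (ml b b))) (ml e (ml a a)))
    (ad (ml d (ml e e)) (ml e (ml d d)))

/-- Comparison of five coordinates. -/
def eq5 (a b c d e a' b' c' d' e' : Fin 4) : Bool :=
  decide (a = a') && decide (b = b') && decide (c = c') && decide (d = d') && decide (e = e')

/-- The test. -/
def tst (a b c d e : Fin 4) : Bool :=
  eq5 (n0 a b c d e) (n1 a b c d e) (n2 a b c d e) (n3 a b c d e) (n4 a b c d e) 0 1 0 0 0 ||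
  eq5 (n0 a b c d e) (n1 a b c d e) (n2 a b c d e) (n3 a b c d e) (n4 a b c d e) 0 0 1 0 0 ||
  eq5 (n0 a b c d e) (n1 a b c d e) (n2 a b c d e) (n3 a b c d e) (n4 a b c d e) 0 0 0 0 1 ||
  eq5 (n0 a b c d e) (n1 a b c d e) (n2 a b c d e) (n3 a b c d e) (n4 a b c d e) 1 0 1 1 0 ||
  eq5 (n0 a b c d e) (n1 a b c d e) (n2 a b c d e) (n3 a b c d e) (n4 a b c d e) 1 1 0 1 1

theorem tst_T : ∀ a b c d e : Fin 4, tst a b c d e = true →
    tst a (ad d e) (ad c d) d (ad b d) = true := by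
  decide +kernel

theorem tst_beta4 : tst 0 0 0 0 1 = true := by decide +kernel
theorem tst_beta14 : tst 0 1 0 0 1 = false := by decide +kernel

section Tst

variable {F K : Type*} [Field F] [Fintype F] [Field K] [Fintype K] [Algebra F K]
variable {β : K} (hF : Fintype.card F = 2 ^ 2) (h5 : Module.finrank F K = 5) (h2 : (2 : K) = 0)
  (hβ : β ^ 5 + β ^ 2 + 1 = 0) {w : F} (h2F : (2 : F) = 0) (hw : w * w = w + 1)
include hF h5 h2 hβ hw h2F

theorem eq5_iff (a b c d e a' b' c' d' e' : Fin 4) : eq5 a b c d e a' b' c' d' e' = true ↔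
    ev F β (psi w a) (psi w b) (psi w c) (psi w d) (psi w e) =
      ev F β (psi w a') (psi w b') (psi w c') (psi w d') (psi w e') := by
  simp only [eq5, Bool.and_eq_true, decide_eq_true_eq]
  constructor
  · rintro ⟨⟨⟨⟨rfl, rfl⟩, rfl⟩, rfl⟩, rfl⟩
    rfl
  · intro h
    obtain ⟨t1, t2, t3, t4, t5⟩ := ev_inj hF h5 h2 hβ h
    exact ⟨⟨⟨⟨psi_inj h2F hw t1, psi_inj h2F hw t2⟩, psi_inj h2F hw t3⟩, psi_inj h2F hw t4⟩,
      psi_inj h2F hw t5⟩

theorem tst_iff (hK : Fintype.card K = 32 ^ 2) (a b c d e : Fin 4) : tst a b c d e = true ↔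
    (ev F β (psi w a) (psi w b) (psi w c) (psi w d) (psi w e) ^ 33) ^ 5 +
      (ev F β (psi w a) (psi w b) (psi w c) (psi w d) (psi w e) ^ 33) ^ 2 + 1 = 0 := by
  have hn : ev F β (psi w a) (psi w b) (psi w c) (psi w d) (psi w e) ^ 33 =
      ev F β (psi w (n0 a b c d e)) (psi w (n1 a b c d e)) (psi w (n2 a b c d e))
        (psi w (n3 a b c d e)) (psi w (n4 a b c d e)) := by
    rw [ev_norm hF h5 h2 hβ hK]
    simp only [n0, n1, n2, n3, n4, psi_ad h2F hw, psi_ml h2F hw, sq]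
  have v1 : ev F β (psi w 0) (psi w 1) (psi w 0) (psi w 0) (psi w 0) = β := by
    simp only [psi_zero, psi_one, ev, map_zero, map_one]; ring
  have v2 : ev F β (psi w 0) (psi w 0) (psi w 1) (psi w 0) (psi w 0) = β ^ 2 := by
    simp only [psi_zero, psi_one, ev, map_zero, map_one]; ring
  have v3 : ev F β (psi w 0) (psi w 0) (psi w 0) (psi w 0) (psi w 1) = β ^ 4 := by
    simp only [psi_zero, psi_one, ev, map_zero, map_one]; ring
  have v4 : ev F β (psi w 1) (psi w 0) (psi w 1) (psi w 1) (psi w 0) = β ^ 3 + β ^ 2 + 1 := by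
    simp only [psi_zero, psi_one, ev, map_zero, map_one]; ring
  have v5 : ev F β (psi w 1) (psi w 1) (psi w 0) (psi w 1) (psi w 1) = β ^ 4 + β ^ 3 + β + 1 := by
    simp only [psi_zero, psi_one, ev, map_zero, map_one]; ring
  rw [root_iff h2 hβ, hn]
  simp only [tst, Bool.or_eq_true, eq5_iff hF h5 h2 hβ h2F hw, v1, v2, v3, v4, v5]
  tauto

end Tst

/-- The normaliser of the field is not maximal. -/
theorem main_abs {F K : Type*} [Field F] [Fintype F] [Field K] [Fintype K] [Algebra F K]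
    (h5 : Module.finrank F K = 5)
    (ρ : K →ₐ[F] Matrix (Fin 5) (Fin 5) F) (hF : Fintype.card F = 2 ^ 2)
    (hadj : ∀ k : K, ∃ k' : K, ∀ u v : Fin 5 → F,
      hermForm 5 F 2 (ρ k *ᵥ u) v = hermForm 5 F 2 u (ρ k' *ᵥ v)) :
    ∃ S : (Fin 5 → F) → Prop,
      (∀ g ∈ SG 5 F 2, (∃ σ : K →+* K, ∀ k, (g : Matrix (Fin 5) (Fin 5) F) * ρ k *
        ((g⁻¹ : GL (Fin 5) F) : Matrix (Fin 5) (Fin 5) F) = ρ (σ k)) → g ∈ Six.KK 5 F 2 S) ∧
      (∃ g ∈ Six.KK 5 F 2 S, ¬ ∃ σ : K →+* K, ∀ k, (g : Matrix (Fin 5) (Fin 5) F) * ρ k *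
        ((g⁻¹ : GL (Fin 5) F) : Matrix (Fin 5) (Fin 5) F) = ρ (σ k)) ∧
      Six.KK 5 F 2 S ≠ SG 5 F 2 := by
  have hK : Fintype.card K = 32 ^ 2 := by
    have : FiniteDimensional F K := FiniteDimensional.of_finrank_pos (by rw [h5]; norm_num)
    rw [Module.card_eq_pow_finrank (K := F) (V := K), h5, hF]
    norm_num
  have hQ : ∀ c : F, c ^ 32 = c ^ 2 := by
    intro x
    have h1 := FiniteField.pow_card x
    rw [hF] at h1
    calc x ^ 32 = ((x ^ 2 ^ 2) ^ 2 ^ 2) ^ 2 := by ring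
      _ = x ^ 2 := by rw [h1, h1]
  have h2F := four_two_eq_zero hF
  have h2 : (2 : K) = 0 := by
    have := congrArg (algebraMap F K) h2F
    rwa [map_zero, map_ofNat] at this
  have hone : (1 : F) ^ 2 = -1 := by
    rw [one_pow]; exact eq_neg_of_add_eq_zero_left (by linear_combination h2F)
  have hadjQ := FN.adj_pow (by norm_num) ρ hF hK hadj
  obtain ⟨v, hv, hspan, hT⟩ := FN.exists_cyclic (by norm_num) h5 ρ hF hK hQ hadjQ
  obtain ⟨β, hβ⟩ := exists_beta h2 hK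
  obtain ⟨w, hw⟩ := exists_w hF
  have hsurj := psi_surj (w := w) h2F hw (by rw [hF]; norm_num)
  have huniq : ∀ k l : K, ρ k *ᵥ v = ρ l *ᵥ v → k = l := by
    intro k l h
    have : ρ (k - l) *ᵥ v = 0 := by
      rw [map_sub, Matrix.sub_mulVec, h, sub_self]
    exact sub_eq_zero.1 ((FN.act_eq_zero ρ this).resolve_right hv)
  let S : (Fin 5 → F) → Prop := fun x => ∃ k : K, x = ρ k *ᵥ v ∧ (k ^ 33) ^ 5 + (k ^ 33) ^ 2 + 1 = 0
  have hS : ∀ k, S (ρ k *ᵥ v) ↔ (k ^ 33) ^ 5 + (k ^ 33) ^ 2 + 1 = 0 := by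
    intro k
    constructor
    · rintro ⟨l, h1, h3⟩
      rw [huniq _ _ h1]; exact h3
    · intro h
      exact ⟨k, rfl, h⟩
  have h32 := e32 h2 hβ
  -- the transvections
  have hiso : ∀ k : K, k ^ 32 = k → Algebra.trace F K (k * k) = 0 →
      ∃ g ∈ SG 5 F 2, ∀ l, (g : Matrix (Fin 5) (Fin 5) F) *ᵥ (ρ l *ᵥ v) =
        ρ (l + algebraMap F K (Algebra.trace F K (l * k)) * k) *ᵥ v := by
    intro k hk h0
    obtain ⟨g, hg, hgx⟩ := exists_transv_SG (c := 1) (u := ρ k *ᵥ v) hF (by rw [hT, hk, h0]) hone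
    refine ⟨g, hg, fun l => ?_⟩
    rw [hgx, hT, hk, one_mul, FN.act_add, FN.act_mul, FN.act_algebraMap]
  have hsq : ∀ k : K, Algebra.trace F K (k * k) = (Algebra.trace F K k) ^ 2 := by
    intro k
    apply (algebraMap F K).injective
    rw [map_pow, trace_eq hF h5, trace_eq hF h5]
    linear_combination (- (k * (k ^ 4 + k ^ 16 + k ^ 64 + k ^ 256) + k ^ 4 * (k ^ 16 + k ^ 64 + k ^ 256) +
      k ^ 16 * (k ^ 64 + k ^ 256) + k ^ 64 * k ^ 256)) * h2
  have hβ4 : β ^ 4 = ev F β 0 0 0 0 1 := by simp [ev]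
  have hβ1 : β = ev F β 0 1 0 0 0 := by simp [ev]
  have hb4 : (β ^ 4) ^ 32 = β ^ 4 := by rw [← pow_mul, mul_comm, pow_mul, h32]
  have hb2 : (β ^ 2) ^ 32 = β ^ 2 := by rw [← pow_mul, mul_comm, pow_mul, h32]
  refine ⟨S, ?_, ?_, ?_⟩
  · rintro g hg ⟨σ, hσ⟩
    refine Six.mem_KK.2 ⟨hg, fun x => ?_⟩
    obtain ⟨hfix, c, hc, hgk⟩ := FN.exists_normal hK hv hspan hT hg.1 hσ
    obtain ⟨k, rfl⟩ := hspan x
    rw [hgk, hS, hS]
    have h1 : (σ k * c) ^ 33 = σ (k ^ 33) := by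
      rw [mul_pow, hc, mul_one, map_pow]
    rw [h1, ← map_pow, ← map_pow, ← map_one σ, ← map_add, ← map_add, map_one]
    exact map_eq_zero σ
  · -- the extra element
    have tra : Algebra.trace F K (β + β ^ 4) = 0 := by
      rw [map_add, tr_1 hF h5 h2 hβ, tr_4 hF h5 h2 hβ, add_zero]
    have trb : Algebra.trace F K (β + β ^ 2 + β ^ 4) = 0 := by
      rw [map_add, map_add, tr_1 hF h5 h2 hβ, tr_2 hF h5 h2 hβ, tr_4 hF h5 h2 hβ, add_zero, add_zero]
    obtain ⟨g₁, hg₁, hg₁k⟩ := hiso (β + β ^ 4) (by rw [add_pow_q hK, hb4, h32])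
      (by rw [hsq, tra]; norm_num)
    obtain ⟨g₂, hg₂, hg₂k⟩ := hiso (β + β ^ 2 + β ^ 4)
      (by rw [add_pow_q hK, add_pow_q hK, hb4, hb2, h32])
      (by rw [hsq, trb]; norm_num)
    have hgk : ∀ a b c d e : F, ((g₁ * g₂ : GL (Fin 5) F) : Matrix (Fin 5) (Fin 5) F) *ᵥ
        (ρ (ev F β a b c d e) *ᵥ v) = ρ (ev F β a (d + e) (c + d) d (b + d)) *ᵥ v := by
      intro a b c d e
      rw [Units.val_mul, ← Matrix.mulVec_mulVec, hg₂k, hg₁k]
      have t1 : Algebra.trace F K (ev F β a b c d e * (β + β ^ 2 + β ^ 4)) = d := by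
        rw [mul_add, mul_add, map_add, map_add, tr_ev1 hF h5 h2 hβ, tr_ev2 hF h5 h2 hβ,
          tr_ev4 hF h5 h2 hβ]
        linear_combination (b + c + e) * h2F
      have t2 : ev F β a b c d e + algebraMap F K d * (β + β ^ 2 + β ^ 4) =
          ev F β a (b + d) (c + d) d (e + d) := by
        simp only [ev, map_add]; ring
      rw [t1, t2]
      have t3 : Algebra.trace F K (ev F β a (b + d) (c + d) d (e + d) * (β + β ^ 4)) = b + e := by
        rw [mul_add, map_add, tr_ev1 hF h5 h2 hβ, tr_ev4 hF h5 h2 hβ]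
        linear_combination (c + 2 * d) * h2F
      rw [t3]
      congr 2
      simp only [ev, map_add]
      linear_combination (algebraMap F K b * β + algebraMap F K e * β ^ 4) * h2
    have hS1 : ∀ x, S x → S (((g₁ * g₂ : GL (Fin 5) F) : Matrix (Fin 5) (Fin 5) F) *ᵥ x) := by
      intro x hx
      obtain ⟨k, rfl⟩ := hspan x
      obtain ⟨a, b, c, d, e, rfl⟩ := ev_surj hF h5 h2 hβ k
      obtain ⟨a, rfl⟩ := hsurj a
      obtain ⟨b, rfl⟩ := hsurj b
      obtain ⟨c, rfl⟩ := hsurj c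
      obtain ⟨d, rfl⟩ := hsurj d
      obtain ⟨e, rfl⟩ := hsurj e
      rw [hS, ← tst_iff hF h5 h2 hβ h2F hw hK] at hx
      have := tst_T a b c d e hx
      rw [tst_iff hF h5 h2 hβ h2F hw hK, psi_ad h2F hw, psi_ad h2F hw, psi_ad h2F hw] at this
      rw [hgk, hS]
      exact this
    have hinv : ∀ x, ((g₁ * g₂ : GL (Fin 5) F) : Matrix (Fin 5) (Fin 5) F) *ᵥ
        (((g₁ * g₂ : GL (Fin 5) F) : Matrix (Fin 5) (Fin 5) F) *ᵥ x) = x := by
      intro x
      obtain ⟨k, rfl⟩ := hspan x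
      obtain ⟨a, b, c, d, e, rfl⟩ := ev_surj hF h5 h2 hβ k
      rw [hgk, hgk]
      congr 2
      simp only [ev, map_add]
      linear_combination (algebraMap F K d * β + algebraMap F K d * β ^ 2 +
        algebraMap F K d * β ^ 4) * h2
    refine ⟨g₁ * g₂, Six.mem_KK.2 ⟨Subgroup.mul_mem _ hg₁ hg₂, fun x => ⟨fun h => ?_, hS1 x⟩⟩, ?_⟩
    · have := hS1 _ h
      rwa [hinv] at this
    · rintro ⟨σ, hσ⟩
      obtain ⟨hfix, c, hc, hgc⟩ := FN.exists_normal hK hv hspan hT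
        (Subgroup.mul_mem _ hg₁ hg₂ : g₁ * g₂ ∈ SG 5 F 2).1 hσ
      have c1 : (1 : K) = c := by
        have t1 := hgc 1
        have t2 : ρ (1 : K) *ᵥ v = ρ (ev F β 1 0 0 0 0) *ᵥ v := by congr 2; simp [ev]
        rw [t2, hgk, map_one σ, one_mul] at t1
        have t3 := huniq _ _ t1
        rw [← t3]
        simp [ev]
      subst c1
      have c2 : σ β = β ^ 4 := by
        have t1 := hgc β
        rw [mul_one] at t1
        have t2 : ρ β *ᵥ v = ρ (ev F β 0 1 0 0 0) *ᵥ v := by rw [← hβ1]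
        rw [t2, hgk] at t1
        rw [← huniq _ _ t1]
        simp [ev]
      have c3 : σ (β ^ 2) = β ^ 2 := by
        have t1 := hgc (β ^ 2)
        rw [mul_one] at t1
        have t2 : ρ (β ^ 2) *ᵥ v = ρ (ev F β 0 0 1 0 0) *ᵥ v := by congr 2; simp [ev]
        rw [t2, hgk] at t1
        rw [← huniq _ _ t1]
        simp [ev]
      rw [map_pow, c2] at c3
      have c4 : ev F β 1 0 0 1 0 = 0 := by
        simp only [ev, map_one, map_zero]
        linear_combination c3 - (- 1 + β^3) * hβ + (β^3) * h2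
      exact one_ne_zero (ev_zero hF h5 h2 hβ c4).1
  · -- `K` is proper
    intro heq
    obtain ⟨g, hg, hgk⟩ := hiso β h32 (by rw [hsq, tr_1 hF h5 h2 hβ]; norm_num)
    rw [← heq] at hg
    have hx : S (ρ (β ^ 4) *ᵥ v) := by
      rw [hβ4]
      have := (tst_iff hF h5 h2 hβ h2F hw hK 0 0 0 0 1).1 tst_beta4
      rw [psi_zero, psi_one] at this
      exact (hS _).2 this
    have h3 := (hg.2 _).2 hx
    have h4 : β ^ 4 * β = β ^ 5 := by ring
    rw [hgk, h4, tr_5 hF h5 h2 hβ, map_one, one_mul, hS] at h3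
    have h6 : β ^ 4 + β = ev F β (psi w 0) (psi w 1) (psi w 0) (psi w 0) (psi w 1) := by
      simp only [psi_zero, psi_one, ev, map_zero, map_one]; ring
    rw [h6, ← tst_iff hF h5 h2 hβ h2F hw hK, tst_beta14] at h3
    exact Bool.false_ne_true h3


end FV

end Cfsg.Agent.UCase

namespace Cfsg.Agent.UCase

open scoped Matrix
open Cfsg.Geo Cfsg.Agent.Uni Cfsg.Agent.AschCases
open Matrix (GeneralLinearGroup)

/-- Elements normalising a field subalgebra induce ring homomorphisms. -/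
theorem exists_normalizer_hom {F : Type*} [Field F] {n r : ℕ} [Nonempty (Fin n)]
    {L : Subalgebra F (Matrix (Fin n) (Fin n) F)} (hL : IsFieldSubalgebra r L) :
    letI := fieldOf hL
    ∀ g : GL (Fin n) F, g ∈ subalgebraNormalizer L ↔ ∃ σ : L →+* L,
      ∀ k : L, (g : Matrix (Fin n) (Fin n) F) * L.val k *
        ((g⁻¹ : GL (Fin n) F) : Matrix (Fin n) (Fin n) F) = L.val (σ k) := by
  letI iL : Field L := fieldOf hL
  intro g
  have hgi : ((g⁻¹ : GL (Fin n) F) : Matrix (Fin n) (Fin n) F) * (g : Matrix (Fin n) (Fin n) F) = 1 := by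
    rw [← Units.val_mul, inv_mul_cancel, Units.val_one]
  have hgi' : (g : Matrix (Fin n) (Fin n) F) * ((g⁻¹ : GL (Fin n) F) : Matrix (Fin n) (Fin n) F) = 1 := by
    rw [← Units.val_mul, mul_inv_cancel, Units.val_one]
  constructor
  · intro hg
    refine ⟨@RingHom.mk L L _ _ (@MonoidHom.mk L L _ _ (@OneHom.mk L L _ _
      (fun k => ⟨(g : Matrix (Fin n) (Fin n) F) * k.1 * ((g⁻¹ : GL (Fin n) F) : Matrix (Fin n) (Fin n) F),
        (hg k.1).1 k.2⟩) ?_) ?_) ?_ ?_, fun k => rfl⟩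
    · apply Subtype.ext
      change (g : Matrix (Fin n) (Fin n) F) * 1 * ((g⁻¹ : GL (Fin n) F) : Matrix (Fin n) (Fin n) F) = 1
      rw [Matrix.mul_one, hgi']
    · intro x y
      apply Subtype.ext
      change (g : Matrix (Fin n) (Fin n) F) * (x.1 * y.1) * ((g⁻¹ : GL (Fin n) F) : Matrix (Fin n) (Fin n) F) =
        (g : Matrix (Fin n) (Fin n) F) * x.1 * ((g⁻¹ : GL (Fin n) F) : Matrix (Fin n) (Fin n) F) *
        ((g : Matrix (Fin n) (Fin n) F) * y.1 * ((g⁻¹ : GL (Fin n) F) : Matrix (Fin n) (Fin n) F))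
      calc (g : Matrix (Fin n) (Fin n) F) * (x.1 * y.1) * ((g⁻¹ : GL (Fin n) F) : Matrix (Fin n) (Fin n) F)
          = (g : Matrix (Fin n) (Fin n) F) * x.1 * 1 * y.1 * ((g⁻¹ : GL (Fin n) F) : Matrix (Fin n) (Fin n) F) := by
            simp only [Matrix.mul_one, Matrix.mul_assoc]
        _ = _ := by rw [← hgi]; simp only [Matrix.mul_assoc]
    · apply Subtype.ext
      change (g : Matrix (Fin n) (Fin n) F) * 0 * ((g⁻¹ : GL (Fin n) F) : Matrix (Fin n) (Fin n) F) = 0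
      rw [Matrix.mul_zero, Matrix.zero_mul]
    · intro x y
      apply Subtype.ext
      change (g : Matrix (Fin n) (Fin n) F) * (x.1 + y.1) * ((g⁻¹ : GL (Fin n) F) : Matrix (Fin n) (Fin n) F) =
        (g : Matrix (Fin n) (Fin n) F) * x.1 * ((g⁻¹ : GL (Fin n) F) : Matrix (Fin n) (Fin n) F) +
        (g : Matrix (Fin n) (Fin n) F) * y.1 * ((g⁻¹ : GL (Fin n) F) : Matrix (Fin n) (Fin n) F)
      rw [Matrix.mul_add, Matrix.add_mul]
  · rintro ⟨σ, hσ⟩
    intro x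
    constructor
    · intro hx
      have h1 := hσ ⟨x, hx⟩
      change (g : Matrix (Fin n) (Fin n) F) * x * ((g⁻¹ : GL (Fin n) F) : Matrix (Fin n) (Fin n) F) ∈ L
      have h2 : (g : Matrix (Fin n) (Fin n) F) * x * ((g⁻¹ : GL (Fin n) F) : Matrix (Fin n) (Fin n) F) =
        ((σ ⟨x, hx⟩ : L) : Matrix (Fin n) (Fin n) F) := h1
      rw [h2]
      exact (σ ⟨x, hx⟩).2
    · intro hx
      -- surjectivity of `σ`
      have hfin : FiniteDimensional F L := inferInstance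
      let φ : L →ₗ[F] L :=
        { toFun := fun k => σ k
          map_add' := fun a b => map_add σ a b
          map_smul' := fun c a => by
            apply Subtype.ext
            have h1 := hσ (c • a)
            have h2 := hσ a
            change _ = ((σ (c • a) : L) : Matrix (Fin n) (Fin n) F) at h1
            change _ = ((σ a : L) : Matrix (Fin n) (Fin n) F) at h2
            rw [← h1]
            change _ = c • ((σ a : L) : Matrix (Fin n) (Fin n) F)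
            rw [← h2]
            change (g : Matrix (Fin n) (Fin n) F) * (c • (a : Matrix (Fin n) (Fin n) F)) * _ = _
            rw [Matrix.mul_smul, Matrix.smul_mul]
            rfl }
      have hφ : Function.Injective φ := by
        rw [← LinearMap.ker_eq_bot, LinearMap.ker_eq_bot']
        intro k hk
        apply Subtype.ext
        have h1 := hσ k
        change _ = ((φ k : L) : Matrix (Fin n) (Fin n) F) at h1
        rw [hk] at h1
        change (g : Matrix (Fin n) (Fin n) F) * (k : Matrix (Fin n) (Fin n) F) * _ = 0 at h1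
        calc (k : Matrix (Fin n) (Fin n) F) = ((g⁻¹ : GL (Fin n) F) : Matrix (Fin n) (Fin n) F) *
            ((g : Matrix (Fin n) (Fin n) F) * (k : Matrix (Fin n) (Fin n) F) *
              ((g⁻¹ : GL (Fin n) F) : Matrix (Fin n) (Fin n) F)) * (g : Matrix (Fin n) (Fin n) F) := by
              simp only [Matrix.mul_assoc]
              rw [hgi, Matrix.mul_one, ← Matrix.mul_assoc, hgi, Matrix.one_mul]
          _ = 0 := by rw [h1, Matrix.mul_zero, Matrix.zero_mul]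
      have hs : Function.Surjective φ := LinearMap.surjective_of_injective hφ
      obtain ⟨k, hk⟩ := hs ⟨_, hx⟩
      have h1 := hσ k
      change (g : Matrix (Fin n) (Fin n) F) * (k : Matrix (Fin n) (Fin n) F) * _ =
        ((φ k : L) : Matrix (Fin n) (Fin n) F) at h1
      rw [hk] at h1
      change (g : Matrix (Fin n) (Fin n) F) * (k : Matrix (Fin n) (Fin n) F) *
        ((g⁻¹ : GL (Fin n) F) : Matrix (Fin n) (Fin n) F) = (g : Matrix (Fin n) (Fin n) F) * x *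
        ((g⁻¹ : GL (Fin n) F) : Matrix (Fin n) (Fin n) F) at h1
      have h2 : (k : Matrix (Fin n) (Fin n) F) = x := by
        have h3 := congrArg (fun M => ((g⁻¹ : GL (Fin n) F) : Matrix (Fin n) (Fin n) F) * M *
          (g : Matrix (Fin n) (Fin n) F)) h1
        simp only [Matrix.mul_assoc, hgi, Matrix.mul_one] at h3
        rwa [← Matrix.mul_assoc, hgi, Matrix.one_mul, ← Matrix.mul_assoc, hgi, Matrix.one_mul] at h3
      rw [← h2]
      exact k.2

/-- The normaliser of a field of degree five is not maximal in `SU_5(2)`. -/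
theorem field_five {F : Type*} [Field F] [Fintype F] (hF : Fintype.card F = 2 ^ 2)
    {L : Subalgebra F (Matrix (Fin 5) (Fin 5) F)} (hL : IsFieldSubalgebra 5 L)
    (hadj : IsAdjointClosedFor (hermForm 5 F 2) L) :
    ∃ K : Subgroup (GL (Fin 5) F), subalgebraNormalizer L ⊓ SG 5 F 2 < K ∧ K < SG 5 F 2 := by
  classical
  have hfin : Finite L := Finite.of_injective (fun x : L => (x : Matrix (Fin 5) (Fin 5) F))
    Subtype.val_injective
  letI : Fintype L := Fintype.ofFinite L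
  obtain ⟨S, h1, ⟨t, ht1, ht2⟩, h3⟩ := @FV.main_abs F L _ _ (fieldOf hL) _
    (inferInstanceAs (Algebra F L)) hL.finrank_eq L.val hF
    (fun k => by
      obtain ⟨k', hk', h⟩ := hadj k.1 k.2
      exact ⟨⟨k', hk'⟩, h⟩)
  have hnh := exists_normalizer_hom hL
  refine ⟨Six.KK 5 F 2 S, lt_of_le_of_ne ?_ ?_, lt_of_le_of_ne (fun g hg => hg.1) h3⟩
  · rintro g ⟨hg, hgS⟩
    exact h1 g hgS ((hnh g).1 hg)
  · intro heq
    rw [← heq] at ht1
    exact ht2 ((hnh t).1 ht1.1)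

end Cfsg.Agent.UCase
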