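import Mathlib
import Cfsg.Agent.UCase.FieldN
import Cfsg.Agent.UCase.FieldFive
import Cfsg.Agent.UCase.Refl3

set_option autoImplicit false
set_option linter.unusedSectionVars false
set_option linter.unusedVariables false

/-!
`SU_3(3)`, `SU_3(5)`: the normaliser of a cubic field is contained in a group `L_2(7)` (times the
centre).
-/

namespace Cfsg.Agent.UCase

open scoped Matrix
open Cfsg.Geo Cfsg.Agent.Uni Cfsg.Agent.AschCases
open Matrix (GeneralLinearGroup)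

namespace F3

section Core

variable {F K : Type*} [Field F] [Fintype F] [Field K] [Fintype K] [Algebra F K]

/-- A seventh root of unity with its Galois action. -/
structure Dat (τ : K ≃ₐ[F] K) (c : K) : Prop where
  t3 : ∀ x, τ (τ (τ x)) = x
  c7 : c ^ 7 = 1
  phi : 1 + c + c ^ 2 + c ^ 3 + c ^ 4 + c ^ 5 + c ^ 6 = 0
  tc : τ c = c ^ 2
  h7 : (7 : K) ≠ 0
  tr : ∀ x, algebraMap F K (Algebra.trace F K x) = x + τ x + τ (τ x)

/-- The involution, unnormalised. -/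
def tp (τ : K ≃ₐ[F] K) (c : K) (k : K) : K :=
  (c - c ^ 6) * k + (c ^ 4 - c ^ 3) * τ k + (c ^ 2 - c ^ 5) * τ (τ k)

/-- The Gauss sum. -/
def ss (c : K) : K := c + c ^ 2 + c ^ 4 - c ^ 3 - c ^ 5 - c ^ 6

/-- The involution. -/
def tt (τ : K ≃ₐ[F] K) (c : K) (k : K) : K := -(ss c)⁻¹ * tp τ c k

variable {τ : K ≃ₐ[F] K} {c : K} (D : Dat τ c)
include D

theorem ss_sq : ss c * ss c = -7 := by
  unfold ss
  linear_combination (7 - 7*c + c^2 + c^3 - 3*c^4 + c^5 + c^6) * D.phi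

theorem ss_ne : ss c ≠ 0 := by
  intro h
  have := ss_sq D
  rw [h, mul_zero] at this
  exact D.h7 (neg_eq_zero.1 this.symm)

theorem tau_ss : τ (ss c) = ss c := by
  unfold ss
  simp only [map_add, map_sub, map_pow, D.tc]
  linear_combination (c - c ^ 3 - c ^ 5) * D.c7

theorem tp_smul {a : K} (ha : τ a = a) (k : K) : tp τ c (a * k) = a * tp τ c k := by
  unfold tp
  simp only [map_mul, ha]
  ring

theorem tt_smul {a : K} (ha : τ a = a) (k : K) : tt τ c (a * k) = a * tt τ c k := by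
  unfold tt
  rw [tp_smul D ha]
  ring

theorem tau_si : τ (-(ss c)⁻¹) = -(ss c)⁻¹ := by
  rw [map_neg, map_inv₀, tau_ss D]

theorem tp_tp (k : K) : tp τ c (tp τ c k) = -7 * k := by
  unfold tp
  simp only [map_add, map_mul, map_sub, map_pow, D.tc, D.t3]
  generalize τ (τ k) = k2
  generalize τ k = k1
  linear_combination (7*k - 7*c^1*k + c^2*k - c^3*k + 4*c^7*k - 3*c^8*k - c^10*k + c^12*k + c^14*k - c^15*k - c^4*k1 + c^5*k1 + c^6*k1 - c^7*k1 + c^9*k1 - c^10*k1 - c^11*k1 + c^12*k1 + c^15*k1 - c^16*k1 - c^18*k1 + c^19*k1 + c^3*k2 - c^4*k2 - c^8*k2 + c^9*k2 + c^12*k2 - c^13*k2 - c^15*k2 + c^16*k2 + c^19*k2 - c^20*k2 - c^22*k2 + c^23*k2) * D.phi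

theorem tt_tt (k : K) : tt τ c (tt τ c k) = k := by
  have h1 : tt τ c k = -(ss c)⁻¹ * tp τ c k := rfl
  rw [h1, tt_smul D (tau_si D)]
  unfold tt
  rw [tp_tp D]
  have h2 := ss_sq D
  have h3 := ss_ne D
  field_simp
  linear_combination (-k) * h2

theorem tt_tau (k : K) : tt τ c (τ k) = τ (τ (tt τ c k)) := by
  unfold tt
  rw [map_mul, map_mul, tau_si D, tau_si D]
  congr 1
  unfold tp
  simp only [map_add, map_mul, map_sub, map_pow, D.tc, D.t3]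
  generalize τ (τ k) = k2
  generalize τ k = k1
  linear_combination (k1 * (-c + c ^ 6 * (c ^ 7 + 1)) + k2 * c ^ 3 * (c ^ 14 + c ^ 7 + 1) +
    k * (-c ^ 2 * (c ^ 7 + 1) + c ^ 5)) * D.c7

theorem tp_rel1 (k : K) : tp τ c (c ^ 1 * tp τ c k) = -(ss c) * (c ^ 5 * tp τ c (c ^ 6 * τ (τ k))) := by
  unfold tp ss
  simp only [map_add, map_mul, map_sub, map_pow, D.tc, D.t3]
  generalize τ (τ k) = k2
  generalize τ k = k1
  linear_combination (c^3*k - c^4*k - 2*c^8*k + c^9*k + 3*c^10*k - 2*c^11*k + c^13*k - c^14*k - c^15*k - c^16*k + 4*c^17*k - 3*c^18*k + c^19*k + c^20*k - c^21*k - c^5*k1 + 2*c^6*k1 - 2*c^7*k1 + 2*c^8*k1 - c^9*k1 + c^10*k1 - 2*c^11*k1 + 2*c^13*k1 - c^14*k1 + c^15*k1 - c^16*k1 + c^17*k1 - 3*c^18*k1 + c^19*k1 + 2*c^20*k1 - c^21*k1 + c^22*k1 - c^23*k1 + c^24*k1 - 3*c^25*k1 + 3*c^27*k1 - c^28*k1 + 2*c^29*k1 - 2*c^30*k1 + c^31*k1 - 2*c^32*k1 + c^34*k1 + c^4*k2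 - c^5*k2 - c^7*k2 + c^8*k2 - c^9*k2 + 2*c^10*k2 + c^11*k2 - 2*c^12*k2 - c^13*k2 + 2*c^14*k2 - 2*c^15*k2 + c^16*k2 - c^19*k2 + c^20*k2 + c^23*k2 - c^24*k2 - c^26*k2 + c^27*k2) * D.phi

theorem tt_rel1 (k : K) : tt τ c (c ^ 1 * tt τ c k) = c ^ 5 * tt τ c (c ^ 6 * τ (τ k)) := by
  have h1 : tt τ c k = -(ss c)⁻¹ * tp τ c k := rfl
  have h2 : c ^ 1 * tt τ c k = -(ss c)⁻¹ * (c ^ 1 * tp τ c k) := by rw [h1]; ring
  rw [h2, tt_smul D (tau_si D)]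
  unfold tt
  rw [tp_rel1 D]
  have h3 := ss_ne D
  field_simp

theorem tp_rel2 (k : K) : tp τ c (c ^ 2 * tp τ c k) = -(ss c) * (c ^ 6 * tp τ c (c ^ 5 * τ k)) := by
  unfold tp ss
  simp only [map_add, map_mul, map_sub, map_pow, D.tc, D.t3]
  generalize τ (τ k) = k2
  generalize τ k = k1
  linear_combination (c^4*k - c^5*k - 2*c^9*k + 2*c^10*k + c^12*k - c^13*k + c^14*k - c^15*k - 2*c^16*k + 3*c^17*k - 2*c^18*k + 2*c^19*k - c^20*k + c^21*k - 2*c^22*k - c^23*k + 3*c^24*k - c^25*k + 2*c^26*k - 2*c^27*k + c^28*k - 2*c^29*k + c^31*k - c^6*k1 + 2*c^7*k1 - c^8*k1 - c^9*k1 + 2*c^10*k1 - 2*c^12*k1 + c^13*k1 + 2*c^14*k1 - 3*c^15*k1 + c^16*k1 - c^19*k1 + c^20*k1 + c^23*k1 - c^24*k1 - c^26*k1 + c^27*k1 + c^5*k2 - c^6*k2 - c^8*k2 + c^9*k2 - c^10*k2 + c^11*k2 + c^12*k2 + c^13*k2 - 2*c^14*k2 - 2*c^15*k2 + 3*c^16*k2 - 3*c^17*k2 + 2*c^18*k2 + c^19*k2 - c^21*k2 - c^23*k2 + c^24*k2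 + c^27*k2 - c^28*k2 - c^30*k2 + c^31*k2) * D.phi

theorem tt_rel2 (k : K) : tt τ c (c ^ 2 * tt τ c k) = c ^ 6 * tt τ c (c ^ 5 * τ k) := by
  have h1 : tt τ c k = -(ss c)⁻¹ * tp τ c k := rfl
  have h2 : c ^ 2 * tt τ c k = -(ss c)⁻¹ * (c ^ 2 * tp τ c k) := by rw [h1]; ring
  rw [h2, tt_smul D (tau_si D)]
  unfold tt
  rw [tp_rel2 D]
  have h3 := ss_ne D
  field_simp

theorem tp_rel3 (k : K) : tp τ c (c ^ 3 * tp τ c k) = -(ss c) * (c ^ 4 * tp τ c (c ^ 4 * k)) := by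
  unfold tp ss
  simp only [map_add, map_mul, map_sub, map_pow, D.tc, D.t3]
  generalize τ (τ k) = k2
  generalize τ k = k1
  linear_combination (c^5*k - c^6*k - c^10*k + 2*c^11*k - c^12*k - c^15*k + c^17*k + 2*c^19*k - 2*c^20*k - c^22*k + c^24*k + c^26*k - c^27*k - c^7*k1 + 2*c^8*k1 - c^9*k1 - c^11*k1 + 3*c^12*k1 - 3*c^13*k1 + 2*c^15*k1 - 2*c^16*k1 + c^17*k1 + c^18*k1 - c^19*k1 + c^20*k1 - c^21*k1 - c^23*k1 + c^24*k1 + c^27*k1 - c^28*k1 - c^30*k1 + c^31*k1 + c^6*k2 - c^7*k2 - c^9*k2 + c^10*k2 - c^11*k2 + c^12*k2 + c^13*k2 - 3*c^16*k2 + c^17*k2 + 2*c^18*k2 - c^19*k2 + c^20*k2 - c^21*k2 + c^22*k2 - 2*c^23*k2 + c^24*k2 - c^27*k2 + c^28*k2 + c^31*k2 - c^32*k2 - c^34*k2 + c^35*k2) * D.phi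

theorem tt_rel3 (k : K) : tt τ c (c ^ 3 * tt τ c k) = c ^ 4 * tt τ c (c ^ 4 * k) := by
  have h1 : tt τ c k = -(ss c)⁻¹ * tp τ c k := rfl
  have h2 : c ^ 3 * tt τ c k = -(ss c)⁻¹ * (c ^ 3 * tp τ c k) := by rw [h1]; ring
  rw [h2, tt_smul D (tau_si D)]
  unfold tt
  rw [tp_rel3 D]
  have h3 := ss_ne D
  field_simp

theorem tp_rel4 (k : K) : tp τ c (c ^ 4 * tp τ c k) = -(ss c) * (c ^ 3 * tp τ c (c ^ 3 * k)) := by
  unfold tp ss
  simp only [map_add, map_mul, map_sub, map_pow, D.tc, D.t3]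
  generalize τ (τ k) = k2
  generalize τ k = k1
  linear_combination (c^6*k - c^7*k + c^8*k - 2*c^10*k + 2*c^15*k + c^16*k - 2*c^17*k - c^19*k + c^21*k + 2*c^23*k - 2*c^24*k - c^26*k + c^28*k + c^30*k - c^31*k - c^8*k1 + 2*c^9*k1 - c^10*k1 - c^13*k1 + c^14*k1 + c^15*k1 - 2*c^16*k1 + 3*c^17*k1 - 2*c^18*k1 - c^19*k1 + c^21*k1 + c^22*k1 - c^23*k1 + c^24*k1 - c^25*k1 - c^27*k1 + c^28*k1 + c^31*k1 - c^32*k1 - c^34*k1 + c^35*k1 + c^7*k2 - c^8*k2 - c^10*k2 + c^11*k2 - c^12*k2 + c^13*k2 + c^14*k2 - c^16*k2 - c^19*k2 + c^20*k2 + c^21*k2 - c^22*k2 - c^24*k2 + c^25*k2 + c^28*k2 - c^29*k2 - c^31*k2 + c^32*k2 + c^35*k2 - c^36*k2 - c^38*k2 + c^39*k2) * D.phi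

theorem tt_rel4 (k : K) : tt τ c (c ^ 4 * tt τ c k) = c ^ 3 * tt τ c (c ^ 3 * k) := by
  have h1 : tt τ c k = -(ss c)⁻¹ * tp τ c k := rfl
  have h2 : c ^ 4 * tt τ c k = -(ss c)⁻¹ * (c ^ 4 * tp τ c k) := by rw [h1]; ring
  rw [h2, tt_smul D (tau_si D)]
  unfold tt
  rw [tp_rel4 D]
  have h3 := ss_ne D
  field_simp

theorem tp_rel5 (k : K) : tp τ c (c ^ 5 * tp τ c k) = -(ss c) * (c ^ 1 * tp τ c (c ^ 2 * τ k)) := by
  unfold tp ss
  simp only [map_add, map_mul, map_sub, map_pow, D.tc, D.t3]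
  generalize τ (τ k) = k2
  generalize τ k = k1
  linear_combination (c^7*k - c^8*k - c^12*k + 2*c^13*k - c^14*k - 2*c^16*k + 2*c^17*k + 2*c^20*k - 2*c^21*k - c^23*k + c^25*k + 2*c^27*k - 2*c^28*k - c^30*k + c^32*k + c^34*k - c^35*k + c^5*k1 - 2*c^7*k1 + 2*c^8*k1 - 3*c^9*k1 + c^10*k1 + 3*c^12*k1 - 2*c^13*k1 + c^14*k1 - c^15*k1 - c^16*k1 + 3*c^19*k1 - 2*c^20*k1 + c^21*k1 - c^22*k1 - c^23*k1 + c^25*k1 + c^26*k1 - c^27*k1 + c^28*k1 - c^29*k1 - c^31*k1 + c^32*k1 + c^35*k1 - c^36*k1 - c^38*k1 + c^39*k1 + c^8*k2 - 2*c^9*k2 + c^10*k2 + c^11*k2 - 3*c^12*k2 + 3*c^13*k2 - c^14*k2 + c^18*k2 - 2*c^19*k2 + c^20*k2 - c^21*k2 + 2*c^22*k2 - c^23*k2 + c^25*k2 - c^26*k2 - c^28*k2 + c^29*k2 + c^32*k2 - c^33*k2 - c^35*k2 + c^36*k2 + c^39*k2 - c^40*k2 - c^42*k2 + c^43*k2) * D.phi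

theorem tt_rel5 (k : K) : tt τ c (c ^ 5 * tt τ c k) = c ^ 1 * tt τ c (c ^ 2 * τ k) := by
  have h1 : tt τ c k = -(ss c)⁻¹ * tp τ c k := rfl
  have h2 : c ^ 5 * tt τ c k = -(ss c)⁻¹ * (c ^ 5 * tp τ c k) := by rw [h1]; ring
  rw [h2, tt_smul D (tau_si D)]
  unfold tt
  rw [tp_rel5 D]
  have h3 := ss_ne D
  field_simp

theorem tp_rel6 (k : K) : tp τ c (c ^ 6 * tp τ c k) = -(ss c) * (c ^ 2 * tp τ c (c ^ 1 * τ (τ k))) := by
  unfold tp ss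
  simp only [map_add, map_mul, map_sub, map_pow, D.tc, D.t3]
  generalize τ (τ k) = k2
  generalize τ k = k1
  linear_combination (2*c^10*k - 4*c^11*k + 4*c^12*k - 4*c^13*k + c^14*k + c^15*k + 2*c^17*k - 3*c^18*k + 2*c^19*k - 2*c^20*k + c^22*k + 2*c^24*k - 2*c^25*k - c^27*k + c^29*k + 2*c^31*k - 2*c^32*k - c^34*k + c^36*k + c^38*k - c^39*k + c^9*k1 - c^10*k1 - 2*c^13*k1 + 2*c^14*k1 + c^16*k1 - c^17*k1 + c^18*k1 - c^19*k1 - 2*c^20*k1 + 2*c^21*k1 + c^23*k1 - c^24*k1 + c^25*k1 - c^26*k1 - c^27*k1 + c^29*k1 + c^30*k1 - c^31*k1 + c^32*k1 - c^33*k1 - c^35*k1 + c^36*k1 + c^39*k1 - c^40*k1 - c^42*k1 + c^43*k1 + c^5*k2 - 2*c^7*k2 + 2*c^8*k2 - c^9*k2 - 2*c^10*k2 + c^11*k2 + 2*c^12*k2 - c^13*k2 - c^14*k2 + 3*c^15*k2 - 2*c^16*k2 - c^17*k2 + 2*c^19*k2 - c^20*k2 + c^22*k2 - 2*c^23*k2 + c^24*k2 - c^25*k2 + 2*c^26*k2 - c^27*k2 + c^29*k2 - c^30*k2 - c^32*k2 + c^33*k2 + c^36*k2 -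 c^37*k2 - c^39*k2 + c^40*k2 + c^43*k2 - c^44*k2 - c^46*k2 + c^47*k2) * D.phi

theorem tt_rel6 (k : K) : tt τ c (c ^ 6 * tt τ c k) = c ^ 2 * tt τ c (c ^ 1 * τ (τ k)) := by
  have h1 : tt τ c k = -(ss c)⁻¹ * tp τ c k := rfl
  have h2 : c ^ 6 * tt τ c k = -(ss c)⁻¹ * (c ^ 6 * tp τ c k) := by rw [h1]; ring
  rw [h2, tt_smul D (tau_si D)]
  unfold tt
  rw [tp_rel6 D]
  have h3 := ss_ne D
  field_simp

theorem tt_one : tt τ c 1 = -1 := by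
  unfold tt tp
  have h3 := ss_ne D
  rw [map_one, map_one]
  have : (c - c ^ 6) * 1 + (c ^ 4 - c ^ 3) * 1 + (c ^ 2 - c ^ 5) * 1 = ss c := by unfold ss; ring
  rw [this, neg_mul, inv_mul_cancel₀ h3]

theorem tt_add (k l : K) : tt τ c (k + l) = tt τ c k + tt τ c l := by
  unfold tt tp
  simp only [map_add]
  ring

theorem tt_adj (k m : K) : Algebra.trace F K (tt τ c k * m) = Algebra.trace F K (k * tt τ c m) := by
  apply (algebraMap F K).injective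
  rw [D.tr, D.tr]
  have h1 : ∀ x, tt τ c x = -(ss c)⁻¹ * tp τ c x := fun x => rfl
  simp only [map_mul, h1, tau_si D]
  have key : tp τ c k * m + τ (tp τ c k) * τ m + τ (τ (tp τ c k)) * τ (τ m) =
      k * tp τ c m + τ k * τ (tp τ c m) + τ (τ k) * τ (τ (tp τ c m)) := by
    unfold tp
    simp only [map_add, map_mul, map_sub, map_pow, D.tc, D.t3]
    generalize τ (τ k) = k2
    generalize τ k = k1
    generalize τ (τ m) = m2
    generalize τ m = m1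
    linear_combination (k * m1 * (-c ^ 3) + k * m2 * (c ^ 2 * (c ^ 7 + 1) - c ^ 5) + k1 * m * c ^ 3 +
      k1 * m2 * (-c ^ 6 * (c ^ 7 + 1)) + k2 * m * (-c ^ 2 * (c ^ 7 + 1) + c ^ 5) +
      k2 * m1 * (c ^ 6 * (c ^ 7 + 1))) * D.c7
  linear_combination (-(ss c)⁻¹) * key

theorem tt_conj {Q : ℕ} (hK : Fintype.card K = Q ^ 2) (hcQ : c ^ Q = c ^ 6) (k : K) :
    (tt τ c k) ^ Q = tt τ c (k ^ Q) := by
  have hτ : ∀ x : K, conjHom hK (τ x) = τ (x ^ Q) := fun x => by rw [conjHom_apply, map_pow]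
  have hcc : conjHom hK c = c ^ 6 := hcQ
  have hs : conjHom hK (ss c) = - ss c := by
    unfold ss
    simp only [map_add, map_sub, map_pow, hcc]
    linear_combination ((c ^ 5 + c ^ 3 * (c ^ 14 + c ^ 7 + 1)) - c ^ 4 * (c ^ 7 + 1) -
      c ^ 2 * (c ^ 21 + c ^ 14 + c ^ 7 + 1) - c * (c ^ 28 + c ^ 21 + c ^ 14 + c ^ 7 + 1)) * D.c7
  have htp : conjHom hK (tp τ c k) = - tp τ c (k ^ Q) := by
    unfold tp
    have e0 : conjHom hK k = k ^ Q := rfl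
    have e1 : conjHom hK (τ k) = τ (k ^ Q) := hτ k
    have e2 : conjHom hK (τ (τ k)) = τ (τ (k ^ Q)) := by rw [hτ, map_pow τ k Q]
    simp only [map_add, map_mul, map_sub]
    rw [e0, e1, e2]
    simp only [map_pow (conjHom hK), hcc]
    generalize τ (τ (k ^ Q)) = k2
    generalize τ (k ^ Q) = k1
    generalize k ^ Q = k0
    linear_combination (k0 * (-c * (c ^ 28 + c ^ 21 + c ^ 14 + c ^ 7 + 1)) +
      k1 * (c ^ 3 * (c ^ 14 + c ^ 7 + 1) - c ^ 4 * (c ^ 7 + 1)) +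
      k2 * (c ^ 5 - c ^ 2 * (c ^ 21 + c ^ 14 + c ^ 7 + 1))) * D.c7
  have h1 : (tt τ c k) ^ Q = conjHom hK (tt τ c k) := rfl
  rw [h1]
  unfold tt
  rw [map_mul, map_neg, map_inv₀, hs, htp, inv_neg]
  ring

/-- The involution as a linear equivalence. -/
def ttL : K ≃ₗ[F] K where
  toFun := tt τ c
  invFun := tt τ c
  map_add' := tt_add D
  map_smul' a k := by
    rw [Algebra.smul_def, tt_smul D (τ.commutes a), RingHom.id_apply, Algebra.smul_def]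
  left_inv := tt_tt D
  right_inv := tt_tt D

theorem tau_tt (k : K) : τ (tt τ c k) = tt τ c (τ (τ k)) := by
  have h1 := tt_tau D (τ (τ k))
  rw [D.t3] at h1
  have h2 := congrArg τ h1
  rwa [D.t3] at h2

end Core

/-! ### Action on vectors -/

section Action

variable {F K : Type*} [Field F] [Fintype F] [Field K] [Fintype K] [Algebra F K] {n q Q : ℕ}

/-- The element `g` acts as `f`. -/
def Ac (ρ : K →ₐ[F] Matrix (Fin n) (Fin n) F) (v : Fin n → F) (g : GL (Fin n) F) (f : K → K) : Prop :=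
  ∀ k, (g : Matrix (Fin n) (Fin n) F) *ᵥ (ρ k *ᵥ v) = ρ (f k) *ᵥ v

variable {ρ : K →ₐ[F] Matrix (Fin n) (Fin n) F} {v : Fin n → F}

theorem Ac.mul {g h : GL (Fin n) F} {f f' : K → K} (hg : Ac ρ v g f) (hh : Ac ρ v h f') :
    Ac ρ v (g * h) (fun k => f (f' k)) := by
  intro k
  rw [Units.val_mul, ← Matrix.mulVec_mulVec, hh, hg]

theorem Ac.inv {g : GL (Fin n) F} {f f' : K → K} (hg : Ac ρ v g f) (hf : ∀ k, f (f' k) = k) :
    Ac ρ v g⁻¹ f' := by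
  intro k
  have h1 := hg (f' k)
  rw [hf] at h1
  rw [← h1, Matrix.mulVec_mulVec, ← Units.val_mul, inv_mul_cancel, Units.val_one, Matrix.one_mulVec]

theorem Ac.pow {g : GL (Fin n) F} {f : K → K} (hg : Ac ρ v g f) (m : ℕ) :
    Ac ρ v (g ^ m) (f^[m]) := by
  induction m with
  | zero => intro k; rw [pow_zero, Units.val_one, Matrix.one_mulVec]; rfl
  | succ m ih =>
    rw [pow_succ', Function.iterate_succ']
    exact hg.mul ih

theorem Ac.ext (hspan : ∀ x, ∃ k, x = ρ k *ᵥ v) {g h : GL (Fin n) F} {f f' : K → K}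
    (hg : Ac ρ v g f) (hh : Ac ρ v h f') (hf : ∀ k, f k = f' k) : g = h := by
  apply Units.ext
  apply Matrix.ext_of_mulVec_single
  intro j
  obtain ⟨k, hk⟩ := hspan (Pi.single j 1)
  rw [hk, hg, hh, hf]

theorem Ac.congr {g : GL (Fin n) F} {f f' : K → K} (hg : Ac ρ v g f) (hf : ∀ k, f k = f' k) :
    Ac ρ v g f' := by
  intro k; rw [hg, hf]

/-- Existence of an element with a given action. -/
theorem exists_ac (hF : Fintype.card F = q ^ 2) (hv : v ≠ 0) (hspan : ∀ x, ∃ k, x = ρ k *ᵥ v)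
    (hT : ∀ k l, hermForm n F q (ρ k *ᵥ v) (ρ l *ᵥ v) = Algebra.trace F K (k * l ^ Q))
    (f : K ≃ₗ[F] K) (hf : ∀ k l, Algebra.trace F K (f k * (f l) ^ Q) =
      Algebra.trace F K (k * l ^ Q)) : ∃ g ∈ GU n F q, Ac ρ v g f := by
  let E₀ : K →ₗ[F] (Fin n → F) :=
    { toFun := fun k => ρ k *ᵥ v
      map_add' := fun k l => FN.act_add ρ k l v
      map_smul' := fun c k => FN.act_smul ρ c k v }
  have hE : Function.Bijective E₀ := by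
    refine ⟨?_, fun x => ?_⟩
    · rw [← LinearMap.ker_eq_bot, LinearMap.ker_eq_bot']
      intro k hk
      exact (FN.act_eq_zero ρ hk).resolve_right hv
    · obtain ⟨k, hk⟩ := hspan x
      exact ⟨k, hk.symm⟩
  let E : K ≃ₗ[F] (Fin n → F) := LinearEquiv.ofBijective E₀ hE
  have hEk : ∀ k, E k = ρ k *ᵥ v := fun k => rfl
  obtain ⟨g, hg⟩ := exists_GU_of_linearEquiv hF (E.symm.trans (f.trans E)) (by
    intro x y
    obtain ⟨k, rfl⟩ := hspan x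
    obtain ⟨l, rfl⟩ := hspan y
    rw [← hEk, ← hEk, LinearEquiv.trans_apply, LinearEquiv.trans_apply, LinearEquiv.trans_apply,
      LinearEquiv.trans_apply, LinearEquiv.symm_apply_apply, LinearEquiv.symm_apply_apply,
      hEk, hEk, hEk, hEk, hT, hT, hf])
  refine ⟨g, g.2, fun k => ?_⟩
  rw [hg, ← hEk, LinearEquiv.trans_apply, LinearEquiv.trans_apply, LinearEquiv.symm_apply_apply, hEk]

/-- The determinant of the field elements. -/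
theorem det_rho (hv : v ≠ 0) (hspan : ∀ x, ∃ k, x = ρ k *ᵥ v) (c : K) :
    (ρ c).det = Algebra.norm F c := by
  let E₀ : K →ₗ[F] (Fin n → F) :=
    { toFun := fun k => ρ k *ᵥ v
      map_add' := fun k l => FN.act_add ρ k l v
      map_smul' := fun c k => FN.act_smul ρ c k v }
  have hE : Function.Bijective E₀ := by
    refine ⟨?_, fun x => ?_⟩
    · rw [← LinearMap.ker_eq_bot, LinearMap.ker_eq_bot']
      intro k hk
      exact (FN.act_eq_zero ρ hk).resolve_right hv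
    · obtain ⟨k, hk⟩ := hspan x
      exact ⟨k, hk.symm⟩
  let E : K ≃ₗ[F] (Fin n → F) := LinearEquiv.ofBijective E₀ hE
  have hEk : ∀ k, E k = ρ k *ᵥ v := fun k => rfl
  rw [Algebra.norm_apply, ← LinearMap.det_conj (Algebra.lmul F K c) E, ← LinearMap.det_toLin' (ρ c)]
  congr 1
  apply LinearMap.ext
  intro x
  obtain ⟨k, rfl⟩ := hspan x
  rw [Matrix.toLin'_apply, ← hEk, LinearMap.comp_apply, LinearMap.comp_apply]
  change _ = E ((Algebra.lmul F K c) (E.symm (E k)))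
  rw [LinearEquiv.symm_apply_apply]
  change ρ c *ᵥ (ρ k *ᵥ v) = ρ (c * k) *ᵥ v
  rw [FN.act_mul]

/-- Elements acting as semilinear maps normalise the field. -/
theorem Ac.normal (hspan : ∀ x, ∃ k, x = ρ k *ᵥ v) {g : GL (Fin n) F} {σ : K →+* K} {a : K}
    (hg : Ac ρ v g (fun k => σ k * a)) (k : K) :
    (g : Matrix (Fin n) (Fin n) F) * ρ k * ((g⁻¹ : GL (Fin n) F) : Matrix (Fin n) (Fin n) F) =
      ρ (σ k) := by
  have h1 : (g : Matrix (Fin n) (Fin n) F) * ρ k = ρ (σ k) * (g : Matrix (Fin n) (Fin n) F) := by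
    apply Matrix.ext_of_mulVec_single
    intro j
    obtain ⟨l, hl⟩ := hspan (Pi.single j 1)
    rw [hl, ← Matrix.mulVec_mulVec, ← Matrix.mulVec_mulVec, ← FN.act_mul, hg, hg, ← FN.act_mul]
    congr 2
    change σ (k * l) * a = σ k * (σ l * a)
    rw [map_mul, mul_assoc]
  rw [h1, Matrix.mul_assoc, ← Units.val_mul, mul_inv_cancel, Units.val_one, Matrix.mul_one]

end Action

end F3

end Cfsg.Agent.UCase
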