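import Mathlib
import Cfsg.Agent.UCase.FieldThree

set_option autoImplicit false
set_option linter.unusedSectionVars false
set_option linter.unusedVariables false

/-!
`SU_3(3)`, `SU_3(5)`: the normaliser of a cubic field is not maximal.
-/

namespace Cfsg.Agent.UCase

open scoped Matrix
open Cfsg.Geo Cfsg.Agent.Uni Cfsg.Agent.AschCases
open Matrix (GeneralLinearGroup)

namespace F3

/-- A group with two double cosets. -/
theorem exists_two_cosets {G : Type*} [Group G] (H : Subgroup G) (t : G) (ht : t * t = 1)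
    (h : ∀ x ∈ H, t * x * t ∈ H ∨ ∃ a ∈ H, ∃ b ∈ H, t * x * t = a * t * b) :
    ∃ L : Subgroup G, H ≤ L ∧ t ∈ L ∧ ∀ g ∈ L, g ∈ H ∨ ∃ a ∈ H, ∃ b ∈ H, g = a * t * b := by
  have hinv : t⁻¹ = t := inv_eq_of_mul_eq_one_left ht
  refine ⟨{ carrier := {g | g ∈ H ∨ ∃ a ∈ H, ∃ b ∈ H, g = a * t * b}
            one_mem' := Or.inl H.one_mem
            mul_mem' := ?_
            inv_mem' := ?_ }, fun g hg => Or.inl hg, Or.inr ⟨1, H.one_mem, 1, H.one_mem, by group⟩,
    fun g hg => hg⟩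
  · rintro x y (hx | ⟨a, ha, b, hb, rfl⟩) (hy | ⟨a', ha', b', hb', rfl⟩)
    · exact Or.inl (H.mul_mem hx hy)
    · exact Or.inr ⟨x * a', H.mul_mem hx ha', b', hb', by group⟩
    · exact Or.inr ⟨a, ha, b * y, H.mul_mem hb hy, by group⟩
    · have e : a * t * b * (a' * t * b') = a * (t * (b * a') * t) * b' := by group
      rw [e]
      rcases h (b * a') (H.mul_mem hb ha') with h1 | ⟨a1, ha1, b1, hb1, h1⟩
      · exact Or.inl (H.mul_mem (H.mul_mem ha h1) hb')
      · rw [h1]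
        exact Or.inr ⟨a * a1, H.mul_mem ha ha1, b1 * b', H.mul_mem hb1 hb', by group⟩
  · rintro x (hx | ⟨a, ha, b, hb, rfl⟩)
    · exact Or.inl (H.inv_mem hx)
    · refine Or.inr ⟨b⁻¹, H.inv_mem hb, a⁻¹, H.inv_mem ha, ?_⟩
      rw [mul_inv_rev, mul_inv_rev, hinv]
      group

theorem card_two_cosets {G : Type*} [Group G] [Finite G] {H L : Subgroup G} {t : G}
    (h : ∀ g ∈ L, g ∈ H ∨ ∃ a ∈ H, ∃ b ∈ H, g = a * t * b) :
    Nat.card L ≤ Nat.card H + Nat.card H * Nat.card H := by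
  classical
  let f : (H ⊕ (H × H)) → G := fun x => Sum.elim (fun a => a.1) (fun p => p.1.1 * t * p.2.1) x
  have h1 : (L : Set G) ⊆ Set.range f := by
    intro g hg
    rcases h g hg with h1 | ⟨a, ha, b, hb, rfl⟩
    · exact ⟨Sum.inl ⟨g, h1⟩, rfl⟩
    · exact ⟨Sum.inr (⟨a, ha⟩, ⟨b, hb⟩), rfl⟩
  have h2 : (L : Set G).ncard ≤ (Set.range f).ncard := Set.ncard_le_ncard h1 (Set.toFinite _)
  have h3 : (Set.range f).ncard ≤ Nat.card (H ⊕ (H × H)) := by
    rw [← Set.image_univ, ← Set.ncard_univ]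
    exact Set.ncard_image_le (Set.toFinite _)
  have h4 : Nat.card (H ⊕ (H × H)) = Nat.card H + Nat.card H * Nat.card H := by
    rw [Nat.card_sum, Nat.card_prod]
  have h5 : (L : Set G).ncard = Nat.card L := rfl
  omega

section Grp

variable {F K : Type*} [Field F] [Fintype F] [Field K] [Fintype K] [Algebra F K] {q Q : ℕ}
  {ρ : K →ₐ[F] Matrix (Fin 3) (Fin 3) F} {v : Fin 3 → F} {τ : K ≃ₐ[F] K} {c : K} {m : ℕ}

/-- Normalising elements. -/
def Nm (ρ : K →ₐ[F] Matrix (Fin 3) (Fin 3) F) (g : GL (Fin 3) F) : Prop :=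
  ∃ σ : K →+* K, ∀ k, (g : Matrix (Fin 3) (Fin 3) F) * ρ k *
    ((g⁻¹ : GL (Fin 3) F) : Matrix (Fin 3) (Fin 3) F) = ρ (σ k)

structure Ctx (q Q m : ℕ) (ρ : K →ₐ[F] Matrix (Fin 3) (Fin 3) F) (v : Fin 3 → F) (τ : K ≃ₐ[F] K)
    (c : K) : Prop where
  hF : Fintype.card F = q ^ 2
  hK : Fintype.card K = Q ^ 2
  hv : v ≠ 0
  hspan : ∀ x, ∃ k, x = ρ k *ᵥ v
  hT : ∀ k l, hermForm 3 F q (ρ k *ᵥ v) (ρ l *ᵥ v) = Algebra.trace F K (k * l ^ Q)
  D : Dat τ c
  hcQ : c ^ Q = c ^ 6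
  hd7 : ∀ d : F, d ^ 7 = 1 → d = 1
  hgal : ∀ σ : K →+* K, (∀ a : F, σ (algebraMap F K a) = algebraMap F K a) →
    (∀ x, σ x = x) ∨ (∀ x, σ x = τ x) ∨ (∀ x, σ x = τ (τ x))
  hm : ∀ x : K, x ^ (Q + 1) = 1 → Algebra.norm F x = 1 → x ^ m = 1
  hz : ∀ x : K, x ^ m = 1 → ∃ z : F, ∃ i < 7, x = algebraMap F K z * c ^ i
  h2 : (2 : K) ≠ 0

variable (C : Ctx q Q m ρ v τ c)
include C

theorem exists_mx (i : ℕ) : ∃ g ∈ SG 3 F q, Ac ρ v g (fun k => c ^ i * k) := by
  have hc0 : c ≠ 0 := by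
    intro h
    have := C.D.c7
    rw [h, zero_pow (by norm_num)] at this
    exact zero_ne_one this
  have hx0 : c ^ i ≠ 0 := pow_ne_zero _ hc0
  let g : GL (Fin 3) F := ⟨ρ (c ^ i), ρ (c ^ i)⁻¹,
    by rw [← map_mul, mul_inv_cancel₀ hx0, map_one], by rw [← map_mul, inv_mul_cancel₀ hx0, map_one]⟩
  have hg : Ac ρ v g (fun k => c ^ i * k) := fun k => (FN.act_mul ρ _ _ _).symm
  refine ⟨g, Subgroup.mem_inf.2 ⟨mem_GU.2 fun x y => ?_, mem_specialLinear.2 ?_⟩, hg⟩
  · obtain ⟨k, rfl⟩ := C.hspan x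
    obtain ⟨l, rfl⟩ := C.hspan y
    rw [hg, hg, C.hT, C.hT]
    congr 1
    have h1 : (c ^ i) * (c ^ i) ^ Q = 1 := by
      rw [← pow_mul, mul_comm i Q, pow_mul, C.hcQ, ← pow_mul, ← pow_add]
      have : i + 6 * i = 7 * i := by ring
      rw [this, pow_mul, C.D.c7, one_pow]
    rw [mul_pow]
    linear_combination (k * l ^ Q) * h1
  · change (ρ (c ^ i)).det = 1
    apply C.hd7
    rw [← Matrix.det_pow, ← map_pow, ← pow_mul, mul_comm, pow_mul, C.D.c7, one_pow, map_one,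
      Matrix.det_one]

theorem exists_t : ∃ t ∈ SG 3 F q, Ac ρ v t (tt τ c) ∧ t * t = 1 := by
  obtain ⟨t, htU, ht⟩ := exists_ac C.hF C.hv C.hspan C.hT (ttL C.D) (by
    intro k l
    change Algebra.trace F K (tt τ c k * (tt τ c l) ^ Q) = _
    rw [tt_conj C.D C.hK C.hcQ, tt_adj C.D, tt_tt C.D])
  have ht' : Ac ρ v t (tt τ c) := ht
  obtain ⟨g3, hg3S, hg3⟩ := exists_mx C 3
  obtain ⟨g4, hg4S, hg4⟩ := exists_mx C 4
  have hrel : t * g4 * t = g3 * t * g3 := by
    refine Ac.ext C.hspan ((ht'.mul hg4).mul ht') ((hg3.mul ht').mul hg3) fun k => ?_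
    exact tt_rel4 C.D k
  have htt : t * t = 1 := by
    refine Ac.ext C.hspan (ht'.mul ht') (f' := fun k => k) (fun k => ?_) (fun k => tt_tt C.D k)
    rw [Units.val_one, Matrix.one_mulVec]
  refine ⟨t, Subgroup.mem_inf.2 ⟨htU, mem_specialLinear.2 ?_⟩, ht', htt⟩
  have h1 := congrArg (fun g : GL (Fin 3) F => (g : Matrix (Fin 3) (Fin 3) F).det) hrel
  simp only [Units.val_mul, Matrix.det_mul] at h1
  rw [mem_specialLinear.1 hg3S.2, mem_specialLinear.1 hg4S.2, one_mul, mul_one] at h1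
  have h3 : (t : Matrix (Fin 3) (Fin 3) F).det ≠ 0 :=
    ((Matrix.isUnit_iff_isUnit_det _).1 t.isUnit).ne_zero
  exact mul_left_cancel₀ h3 (by rw [h1, mul_one])

theorem exists_s : ∃ s ∈ SG 3 F q, Ac ρ v s τ := by
  obtain ⟨s, hsU, hs⟩ := exists_ac C.hF C.hv C.hspan C.hT τ.toLinearEquiv (by
    intro k l
    change Algebra.trace F K (τ k * (τ l) ^ Q) = _
    rw [← map_pow, ← map_mul]
    exact FN.trace_hom (τ : K →+* K) (fun a => τ.commutes a) _)
  have hs' : Ac ρ v s τ := hs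
  obtain ⟨t, htS, ht, htt⟩ := exists_t C
  have hrel : t * s = s * (s * t) := by
    refine Ac.ext C.hspan (ht.mul hs') (hs'.mul (hs'.mul ht)) fun k => ?_
    exact tt_tau C.D k
  refine ⟨s, Subgroup.mem_inf.2 ⟨hsU, mem_specialLinear.2 ?_⟩, hs'⟩
  have h1 := congrArg (fun g : GL (Fin 3) F => (g : Matrix (Fin 3) (Fin 3) F).det) hrel
  simp only [Units.val_mul, Matrix.det_mul] at h1
  rw [mem_specialLinear.1 htS.2, one_mul, mul_one] at h1
  have h3 : (s : Matrix (Fin 3) (Fin 3) F).det ≠ 0 :=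
    ((Matrix.isUnit_iff_isUnit_det _).1 s.isUnit).ne_zero
  exact (mul_left_cancel₀ h3 (by rw [mul_one]; exact h1)).symm

/-- The elements normalising the field. -/
theorem exists_nf {g : GL (Fin 3) F} (hg : g ∈ SG 3 F q) (hN : Nm ρ g) :
    ∃ (σ : K →+* K) (a : K), ((∀ x, σ x = x) ∨ (∀ x, σ x = τ x) ∨ (∀ x, σ x = τ (τ x))) ∧
      a ^ m = 1 ∧ Ac ρ v g (fun k => σ k * a) := by
  obtain ⟨σ, hσ⟩ := hN
  obtain ⟨hfix, a, ha, hga⟩ := FN.exists_normal C.hK C.hv C.hspan C.hT hg.1 hσ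
  have hσ' := C.hgal σ hfix
  refine ⟨σ, a, hσ', C.hm a ha ?_, hga⟩
  have ha0 : a ≠ 0 := by
    rintro rfl
    rw [zero_pow (by omega)] at ha
    exact zero_ne_one ha
  obtain ⟨s, hsS, hs⟩ := exists_s C
  have hs1 : ∃ s' ∈ SG 3 F q, Ac ρ v s' σ := by
    rcases hσ' with h | h | h
    · exact ⟨1, Subgroup.one_mem _, fun k => by rw [Units.val_one, Matrix.one_mulVec, h]⟩
    · exact ⟨s, hsS, fun k => by rw [hs, h]⟩
    · exact ⟨s * s, Subgroup.mul_mem _ hsS hsS, fun k => by rw [(hs.mul hs) k, h]⟩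
  obtain ⟨s', hs'S, hs'⟩ := hs1
  rw [← det_rho C.hv C.hspan]
  have h1 : (g : Matrix (Fin 3) (Fin 3) F) = ρ a * (s' : Matrix (Fin 3) (Fin 3) F) := by
    apply Matrix.ext_of_mulVec_single
    intro j
    obtain ⟨k, hk⟩ := C.hspan (Pi.single j 1)
    rw [hk, ← Matrix.mulVec_mulVec, hs', ← FN.act_mul, hga, mul_comm]
  have h3 := congrArg Matrix.det h1
  rw [Matrix.det_mul, mem_specialLinear.1 hg.2, mem_specialLinear.1 hs'S.2, mul_one] at h3
  exact h3.symm

theorem main_rel (H0 : Subgroup (GL (Fin 3) F)) (hH0 : ∀ g, g ∈ H0 ↔ g ∈ SG 3 F q ∧ Nm ρ g) :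
    ∃ t ∈ SG 3 F q, t ∉ H0 ∧ t * t = 1 ∧
      ∀ h ∈ H0, t * h * t ∈ H0 ∨ ∃ a ∈ H0, ∃ b ∈ H0, t * h * t = a * t * b := by
  obtain ⟨t, htS, ht, htt⟩ := exists_t C
  have hinv : t⁻¹ = t := inv_eq_of_mul_eq_one_left htt
  refine ⟨t, htS, ?_, htt, ?_⟩
  · intro htH
    obtain ⟨σ, a, -, -, hta⟩ := exists_nf C htS ((hH0 t).1 htH).2
    have huniq : ∀ k l : K, ρ k *ᵥ v = ρ l *ᵥ v → k = l := by
      intro k l h
      have : ρ (k - l) *ᵥ v = 0 := by
        rw [map_sub, Matrix.sub_mulVec, h, sub_self]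
      exact sub_eq_zero.1 ((FN.act_eq_zero ρ this).resolve_right C.hv)
    have h1 : ∀ k, tt τ c k = σ k * a := fun k => huniq _ _ (by rw [← ht, hta])
    have ha : a = -1 := by
      have := h1 1
      rw [tt_one C.D, map_one, one_mul] at this
      exact this.symm
    subst ha
    have h3 := tt_rel4 C.D 1
    rw [tt_one C.D, h1, h1, map_mul, map_mul, map_pow, map_pow, map_neg, map_one] at h3
    have hσ0 : σ c ≠ 0 := by
      rw [map_ne_zero]
      intro h
      have := C.D.c7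
      rw [h, zero_pow (by norm_num)] at this
      exact zero_ne_one this
    have h4 : σ c = -(c ^ 3) := by
      apply mul_left_cancel₀ (pow_ne_zero 3 hσ0)
      linear_combination h3
    have h5 : (σ c) ^ 7 = 1 := by rw [← map_pow, C.D.c7, map_one]
    rw [h4] at h5
    apply C.h2
    have h6 : (c ^ 3) ^ 7 = 1 := by rw [← pow_mul, mul_comm, pow_mul, C.D.c7, one_pow]
    linear_combination (-1 : K) * h5 - h6
  · intro h hh
    obtain ⟨hhS, hhN⟩ := (hH0 h).1 hh
    obtain ⟨σ, a, hσ, ha, hha⟩ := exists_nf C hhS hhN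
    have hgS : t * h * t ∈ SG 3 F q := Subgroup.mul_mem _ (Subgroup.mul_mem _ htS hhS) htS
    have hg := (ht.mul hha).mul ht
    obtain ⟨z, i, hi, rfl⟩ := C.hz a ha
    -- move the automorphism
    have hσ' : ∃ σ' : K →+* K, (∀ k, σ (tt τ c k) = tt τ c (σ' k)) ∧
        (∀ a : F, σ' (algebraMap F K a) = algebraMap F K a) := by
      rcases hσ with h1 | h1 | h1
      · exact ⟨RingHom.id K, fun k => h1 _, fun a => rfl⟩
      · refine ⟨((τ.trans τ : K ≃ₐ[F] K) : K →+* K), fun k => ?_, fun a => (τ.trans τ).commutes a⟩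
        rw [h1, tau_tt C.D]; rfl
      · refine ⟨(τ : K →+* K), fun k => ?_, fun a => τ.commutes a⟩
        rw [h1, ← tt_tau C.D]; rfl
    obtain ⟨σ', hσ'1, hσ'2⟩ := hσ'
    have hτz : τ (algebraMap F K z) = algebraMap F K z := τ.commutes z
    have hg1 : Ac ρ v (t * h * t) (fun k => algebraMap F K z * tt τ c (c ^ i * tt τ c (σ' k))) := by
      refine hg.congr fun k => ?_
      change tt τ c (σ (tt τ c k) * (algebraMap F K z * c ^ i)) = _
      rw [hσ'1, ← tt_smul C.D hτz]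
      congr 1
      ring
    have hτpow : ∀ j : ℕ, ∃ σj : K →+* K, (∀ k, σj k = (τ^[j]) k) := by
      intro j
      induction j with
      | zero => exact ⟨RingHom.id K, fun k => rfl⟩
      | succ j ih =>
        obtain ⟨σj, h⟩ := ih
        exact ⟨(τ : K →+* K).comp σj, fun k => by
          rw [Function.iterate_succ', RingHom.comp_apply, h]; rfl⟩
    -- the general step
    have step : ∀ (x1 x2 j : ℕ), (∀ k, tt τ c (c ^ i * tt τ c k) = c ^ x1 * tt τ c (c ^ x2 * (τ^[j]) k)) →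
        ∃ a ∈ H0, ∃ b ∈ H0, t * h * t = a * t * b := by
      intro x1 x2 j hrel
      obtain ⟨g1, hg1S, hg1a⟩ := exists_mx C x1
      obtain ⟨σj, hσj⟩ := hτpow j
      have hc0 : c ≠ 0 := by
        intro h
        have := C.D.c7
        rw [h, zero_pow (by norm_num)] at this
        exact zero_ne_one this
      have hg1N : Nm ρ g1 := ⟨RingHom.id K, fun k => by
        have e : Ac ρ v g1 (fun k => (RingHom.id K) k * c ^ x1) := hg1a.congr fun k => mul_comm _ _
        exact Ac.normal C.hspan e k⟩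
      have hg2 : Ac ρ v (t * (g1⁻¹ * (t * h * t))) (fun k => (σj.comp σ') k * (algebraMap F K z * c ^ x2)) := by
        have hi1 : Ac ρ v g1⁻¹ (fun k => (c ^ x1)⁻¹ * k) := by
          apply hg1a.inv
          intro k
          change c ^ x1 * ((c ^ x1)⁻¹ * k) = k
          rw [mul_inv_cancel_left₀ (pow_ne_zero _ hc0)]
        refine (ht.mul (hi1.mul hg1)).congr fun k => ?_
        change tt τ c ((c ^ x1)⁻¹ * (algebraMap F K z * tt τ c (c ^ i * tt τ c (σ' k)))) =
          (σj (σ' k)) * (algebraMap F K z * c ^ x2)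
        rw [hrel]
        have e : (c ^ x1)⁻¹ * (algebraMap F K z * (c ^ x1 * tt τ c (c ^ x2 * (τ^[j]) (σ' k)))) =
            algebraMap F K z * tt τ c (c ^ x2 * (τ^[j]) (σ' k)) := by
          field_simp
        rw [e, tt_smul C.D hτz, tt_tt C.D, hσj]
        ring
      refine ⟨g1, (hH0 _).2 ⟨hg1S, hg1N⟩, t * (g1⁻¹ * (t * h * t)), (hH0 _).2 ⟨?_, ?_⟩, ?_⟩
      · exact Subgroup.mul_mem _ htS (Subgroup.mul_mem _ (Subgroup.inv_mem _ hg1S) hgS)
      · exact ⟨σj.comp σ', fun k => Ac.normal C.hspan hg2 k⟩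
      · have e : g1 * t * (t * (g1⁻¹ * (t * h * t))) = g1 * (t * t) * (g1⁻¹ * (t * h * t)) := by group
        rw [e, htt]
        group
    interval_cases i
    · left
      refine (hH0 _).2 ⟨hgS, ⟨σ', fun k => ?_⟩⟩
      have e : Ac ρ v (t * h * t) (fun k => σ' k * algebraMap F K z) := by
        refine hg1.congr fun k => ?_
        change algebraMap F K z * tt τ c (c ^ 0 * tt τ c (σ' k)) = _
        rw [pow_zero, one_mul, tt_tt C.D]
        ring
      exact Ac.normal C.hspan e k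
    · exact Or.inr (step 5 6 2 fun k => tt_rel1 C.D k)
    · exact Or.inr (step 6 5 1 fun k => tt_rel2 C.D k)
    · exact Or.inr (step 4 4 0 fun k => tt_rel3 C.D k)
    · exact Or.inr (step 3 3 0 fun k => tt_rel4 C.D k)
    · exact Or.inr (step 1 2 1 fun k => tt_rel5 C.D k)
    · exact Or.inr (step 2 1 2 fun k => tt_rel6 C.D k)

/-- The order of the normaliser. -/
theorem card_H0 (hm0 : 0 < m) (H0 : Subgroup (GL (Fin 3) F))
    (hH0 : ∀ g, g ∈ H0 ↔ g ∈ SG 3 F q ∧ Nm ρ g) : Nat.card H0 ≤ 3 * m := by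
  classical
  have hex : ∀ g : H0, ∃ p : Fin 3 × {x : K // x ^ m = 1}, Ac ρ v g.1 (fun k => (τ^[p.1.1]) k * p.2.1) := by
    intro g
    obtain ⟨σ, a, hσ, ha, hga⟩ := exists_nf C ((hH0 g.1).1 g.2).1 ((hH0 g.1).1 g.2).2
    rcases hσ with h | h | h
    · exact ⟨(0, ⟨a, ha⟩), hga.congr fun k => by rw [h]; rfl⟩
    · exact ⟨(1, ⟨a, ha⟩), hga.congr fun k => by rw [h]; rfl⟩
    · exact ⟨(2, ⟨a, ha⟩), hga.congr fun k => by rw [h]; rfl⟩
  choose φ hφ using hex
  have hinj : Function.Injective φ := by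
    intro g h hgh
    apply Subtype.ext
    exact Ac.ext C.hspan (hφ g) (hφ h) fun k => by rw [hgh]
  have h1 := Nat.card_le_card_of_injective φ hinj
  rw [Nat.card_prod, Nat.card_eq_fintype_card (α := Fin 3), Fintype.card_fin] at h1
  have h3 : Nat.card {x : K // x ^ m = 1} ≤ m := by
    have h4 : Nat.card {x : K // x ^ m = 1} = (Finset.univ.filter (fun x : K => x ^ m = 1)).card := by
      rw [Nat.card_eq_fintype_card, Fintype.card_subtype]
    rw [h4]
    refine le_trans (Finset.card_le_card (t := (Polynomial.nthRoots m (1 : K)).toFinset) ?_) ?_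
    · intro x hx
      rw [Multiset.mem_toFinset, Polynomial.mem_nthRoots hm0]
      exact (Finset.mem_filter.1 hx).2
    · exact (Multiset.toFinset_card_le _).trans (Polynomial.card_nthRoots m 1)
  calc Nat.card H0 ≤ 3 * Nat.card {x : K // x ^ m = 1} := h1
    _ ≤ 3 * m := Nat.mul_le_mul_left 3 h3

end Grp

/-- The order of the special unitary group. -/
theorem card_SG {F : Type*} [Field F] [Fintype F] {q : ℕ} (hF : Fintype.card F = q ^ 2) :
    (q + 1) * Nat.card (SG 3 F q) = q ^ 3 * ((q + 1) * (q ^ 2 - 1) * (q ^ 3 + 1)) := by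
  have h1 : Nat.card (SG 3 F q) = Nat.card (SU 3 F q) := by
    rw [← suHom_range]
    exact (Nat.card_congr (MonoidHom.ofInjective suHom_injective).toEquiv).symm
  rw [h1, Uni.card_SU hF (by norm_num)]
  simp [Finset.prod_range_succ, Nat.even_iff]

section Inst

variable {F K : Type*} [Field F] [Fintype F] [Field K] [Fintype K] [Algebra F K] {q : ℕ}

/-- The basic facts on the cubic extension. -/
theorem exists_ctx (h3 : Module.finrank F K = 3) (hq : q = 3 ∨ q = 5)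
    (ρ : K →ₐ[F] Matrix (Fin 3) (Fin 3) F) (hF : Fintype.card F = q ^ 2)
    (hadj : ∀ k : K, ∃ k' : K, ∀ u v : Fin 3 → F,
      hermForm 3 F q (ρ k *ᵥ u) v = hermForm 3 F q u (ρ k' *ᵥ v)) :
    ∃ (v : Fin 3 → F) (τ : K ≃ₐ[F] K) (c : K) (m : ℕ), (m = 7 ∧ q = 3 ∨ m = 21 ∧ q = 5) ∧
      Ctx q (q ^ 3) m ρ v τ c := by
  classical
  have hfd : FiniteDimensional F K := FiniteDimensional.of_finrank_pos (by rw [h3]; norm_num)
  have hK : Fintype.card K = (q ^ 3) ^ 2 := by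
    rw [Module.card_eq_pow_finrank (K := F) (V := K), h3, hF]
    ring
  have hQ : ∀ c : F, c ^ (q ^ 3) = c ^ q := by
    intro x
    have h1 := FiniteField.pow_card x
    rw [hF] at h1
    calc x ^ q ^ 3 = (x ^ q ^ 2) ^ q := by rw [← pow_mul]; ring_nf
      _ = x ^ q := by rw [h1]
  have hadjQ := FN.adj_pow (by norm_num) ρ hF hK hadj
  obtain ⟨v, hv, hspan, hT⟩ := FN.exists_cyclic (by norm_num) h3 ρ hF hK hQ hadjQ
  -- a seventh root of unity
  obtain ⟨c, hc7, hc1⟩ : ∃ c : K, c ^ 7 = 1 ∧ c ≠ 1 := by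
    have h7 : Nat.Prime 7 := by norm_num
    have hfact : Fact (Nat.Prime 7) := ⟨h7⟩
    have hdvd : 7 ∣ Fintype.card Kˣ := by
      rw [Fintype.card_units, hK]
      rcases hq with rfl | rfl <;> norm_num
    obtain ⟨x, hx⟩ := exists_prime_orderOf_dvd_card 7 hdvd
    refine ⟨x, ?_, ?_⟩
    · rw [← Units.val_pow_eq_pow_val, ← hx, pow_orderOf_eq_one, Units.val_one]
    · intro h
      have : x = 1 := Units.ext h
      rw [this, orderOf_one] at hx
      norm_num at hx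
  have hphi : 1 + c + c ^ 2 + c ^ 3 + c ^ 4 + c ^ 5 + c ^ 6 = 0 := by
    have h : (c - 1) * (1 + c + c ^ 2 + c ^ 3 + c ^ 4 + c ^ 5 + c ^ 6) = 0 := by
      linear_combination hc7
    exact (mul_eq_zero.1 h).resolve_left (sub_ne_zero.2 hc1)
  have hfr : ∀ x : K, x ^ (q ^ 6) = x := by
    intro x
    have h1 := FiniteField.pow_card x
    rw [hK] at h1
    calc x ^ q ^ 6 = x ^ (q ^ 3) ^ 2 := by ring_nf
      _ = x := h1
  have hred : ∀ n : ℕ, c ^ n = c ^ (n % 7) := by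
    intro n
    conv_lhs => rw [← Nat.div_add_mod n 7, pow_add, pow_mul, hc7, one_pow, one_mul]
  -- Frobenius
  let φ : K ≃ₐ[F] K := FiniteField.frobeniusAlgEquivOfAlgebraic F K
  have hφ : ∀ x, φ x = x ^ (q ^ 2) := by
    intro x
    have : φ x = x ^ (Fintype.card F) := rfl
    rw [this, hF]
  have hφgal : ∀ σ : K →+* K, (∀ a : F, σ (algebraMap F K a) = algebraMap F K a) →
      (∀ x, σ x = x) ∨ (∀ x, σ x = φ x) ∨ (∀ x, σ x = φ (φ x)) := by
    intro σ hσ
    let σ₁ : K →ₐ[F] K := { σ with commutes' := hσ }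
    let σ₂ : K ≃ₐ[F] K := AlgEquiv.ofBijective σ₁
      (Finite.injective_iff_bijective.1 σ₁.toRingHom.injective)
    obtain ⟨n, hn⟩ := (FiniteField.bijective_frobeniusAlgEquivOfAlgebraic_pow F K).2 σ₂
    have hn' : ∀ x, σ x = (φ ^ n.1) x := fun x => by
      change σ₂ x = _
      rw [← hn]
    have hn3 : n.1 < 3 := by rw [← h3]; exact n.2
    have hcases : n.1 = 0 ∨ n.1 = 1 ∨ n.1 = 2 := by omega
    rcases hcases with h | h | h
    · left; intro x; rw [hn', h, pow_zero]; rfl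
    · right; left; intro x; rw [hn', h, pow_one]
    · right; right; intro x; rw [hn', h, pow_two]; rfl
  have hchar : ∀ a b : ℕ, q = a → ((b : ℕ) : K) = 0 → a.Coprime b → False := by
    intro a b hqa hb hab
    have h1 : ((q ^ 6 : ℕ) : K) = 0 := by
      have := Nat.cast_card_eq_zero K
      rwa [hK, ← pow_mul] at this
    have h4 : ((q : ℕ) : K) = 0 := by
      rw [Nat.cast_pow] at h1
      exact pow_eq_zero_iff (by norm_num) |>.1 h1
    rw [hqa] at h4
    have h5 := Nat.Coprime.isCoprime hab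
    obtain ⟨u, w, huw⟩ := h5
    have h6 : ((u * a + w * b : ℤ) : K) = 1 := by rw [huw]; norm_num
    push_cast at h6
    rw [h4, hb, mul_zero, mul_zero, add_zero] at h6
    exact zero_ne_one h6
  have h7K : (7 : K) ≠ 0 := by
    intro h
    rcases hq with hq | hq
    · exact hchar 3 7 hq (by exact_mod_cast h) (by norm_num)
    · exact hchar 5 7 hq (by exact_mod_cast h) (by norm_num)
  have h2K : (2 : K) ≠ 0 := by
    intro h
    rcases hq with hq | hq
    · exact hchar 3 2 hq (by exact_mod_cast h) (by norm_num)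
    · exact hchar 5 2 hq (by exact_mod_cast h) (by norm_num)
  have htrace : ∀ x : K, algebraMap F K (Algebra.trace F K x) = x + φ x + φ (φ x) := by
    intro x
    rw [FiniteField.algebraMap_trace_eq_sum_pow, h3, Nat.card_eq_fintype_card, hF]
    simp only [Finset.sum_range_succ, Finset.sum_range_zero, zero_add, pow_zero, pow_one]
    have e1 : φ (φ x) = x ^ (q ^ 2) ^ 2 := by
      rw [hφ, hφ, ← pow_mul x (q ^ 2) (q ^ 2)]
      congr 1
      ring
    rw [e1, hφ]
  have hφ3 : ∀ x, φ (φ (φ x)) = x := by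
    intro x
    rw [hφ, hφ, hφ, ← pow_mul, ← pow_mul]
    calc x ^ (q ^ 2 * (q ^ 2 * q ^ 2)) = x ^ q ^ 6 := by ring_nf
      _ = x := hfr x
  have hnormK : ∀ x : K, algebraMap F K (Algebra.norm F x) = x ^ (1 + q ^ 2 + q ^ 4) := by
    intro x
    rw [FiniteField.algebraMap_norm_eq_pow_sum, h3, Nat.card_eq_fintype_card, hF]
    congr 1
    simp only [Finset.sum_range_succ, Finset.sum_range_zero, zero_add, pow_zero, pow_one]
    ring
  have hc0 : c ≠ 0 := by
    rintro rfl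
    rw [zero_pow (by norm_num)] at hc7
    exact zero_ne_one hc7
  have hprim : IsPrimitiveRoot c 7 := by
    have hfact : Fact (Nat.Prime 7) := ⟨by norm_num⟩
    have h := orderOf_eq_prime (p := 7) hc7 hc1
    rw [← h]
    exact IsPrimitiveRoot.orderOf c
  have hroots : ∀ x : K, x ^ 7 = 1 → ∃ i < 7, x = c ^ i := by
    intro x hx
    obtain ⟨i, hi, h⟩ := hprim.eq_pow_of_pow_eq_one hx
    exact ⟨i, hi, h.symm⟩
  rcases hq with rfl | rfl
  · refine ⟨v, φ, c, 7, Or.inl ⟨rfl, rfl⟩, hF, hK, hv, hspan, hT, ⟨hφ3, hc7, hphi, ?_, h7K, htrace⟩,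
      ?_, ?_, hφgal, ?_, ?_, h2K⟩
    · rw [hφ, hred]; norm_num
    · rw [hred]; norm_num
    · intro d hd
      have h1 := FiniteField.pow_card d
      rw [hF] at h1
      have h4 : d ^ 3 ^ 2 = d ^ 7 * d ^ 2 := by ring
      rw [h4, hd, one_mul] at h1
      have hd0 : d ≠ 0 := by
        rintro rfl
        rw [zero_pow (by norm_num)] at hd
        exact zero_ne_one hd
      exact mul_left_cancel₀ hd0 (by rw [mul_one, ← sq, h1])
    · intro x hx hn
      have h1 := hnormK x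
      rw [hn, map_one] at h1
      have hx0 : x ≠ 0 := by
        rintro rfl
        rw [zero_pow (by norm_num)] at hx
        exact zero_ne_one hx
      have h4 : x ^ (1 + 3 ^ 2 + 3 ^ 4) = (x ^ (3 ^ 3 + 1)) ^ 3 * x ^ 7 := by ring
      rw [h4, hx, one_pow, one_mul] at h1
      exact h1.symm
    · intro x hx
      obtain ⟨i, hi, h⟩ := hroots x hx
      exact ⟨1, i, hi, by rw [map_one, one_mul, h]⟩
  · have hτ : ∀ x, (φ.trans φ) x = φ (φ x) := fun x => rfl
    refine ⟨v, φ.trans φ, c, 21, Or.inr ⟨rfl, rfl⟩, hF, hK, hv, hspan, hT,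
      ⟨fun x => ?_, hc7, hphi, ?_, h7K, fun x => ?_⟩, ?_, ?_, fun σ hσ => ?_, ?_, ?_, h2K⟩
    · rw [hτ, hτ, hτ, hφ3, hφ3]
    · rw [hτ, hφ, hφ, ← pow_mul, hred]; norm_num
    · rw [hτ, hτ, hφ3, htrace]
      ring
    · rw [hred]; norm_num
    · intro d hd
      have h1 := FiniteField.pow_card d
      rw [hF] at h1
      have h4 : d ^ 5 ^ 2 = (d ^ 7) ^ 3 * d ^ 4 := by ring
      rw [h4, hd, one_pow, one_mul] at h1
      have hd0 : d ≠ 0 := by
        rintro rfl
        rw [zero_pow (by norm_num)] at hd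
        exact zero_ne_one hd
      have h5 : d ^ 3 = 1 := mul_left_cancel₀ hd0 (by rw [mul_one, ← pow_succ', h1])
      have h6 : d ^ 7 = (d ^ 3) ^ 2 * d := by ring
      rw [h5, one_pow, one_mul, hd] at h6
      exact h6.symm
    · rcases hφgal σ hσ with h | h | h
      · exact Or.inl h
      · right; right; intro x; rw [hτ, hτ, hφ3, h]
      · right; left; intro x; rw [hτ, h]
    · intro x hx hn
      have h1 := hnormK x
      rw [hn, map_one] at h1
      have h4 : x ^ (1 + 5 ^ 2 + 5 ^ 4) = (x ^ (5 ^ 3 + 1)) ^ 5 * x ^ 21 := by ring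
      rw [h4, hx, one_pow, one_mul] at h1
      exact h1.symm
    · intro x hx
      -- a primitive cube root of unity in `F`
      have h5F : (5 : F) = 0 := by
        have h1 : ((Fintype.card F : ℕ) : F) = 0 := Nat.cast_card_eq_zero F
        rw [hF] at h1
        have h2 : (5 : F) ^ 2 = 0 := by exact_mod_cast h1
        exact pow_eq_zero_iff (by norm_num) |>.1 h2
      obtain ⟨w, hw3, hw1⟩ : ∃ w : F, w ^ 3 = 1 ∧ w ≠ 1 := by
        have hfact : Fact (Nat.Prime 3) := ⟨by norm_num⟩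
        have hdvd : 3 ∣ Fintype.card Fˣ := by
          rw [Fintype.card_units, hF]; norm_num
        obtain ⟨y, hy⟩ := exists_prime_orderOf_dvd_card 3 hdvd
        refine ⟨y, ?_, ?_⟩
        · rw [← Units.val_pow_eq_pow_val, ← hy, pow_orderOf_eq_one, Units.val_one]
        · intro h
          have : y = 1 := Units.ext h
          rw [this, orderOf_one] at hy
          norm_num at hy
      have hw : 1 + w + w ^ 2 = 0 := by
        have h : (w - 1) * (1 + w + w ^ 2) = 0 := by linear_combination hw3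
        exact (mul_eq_zero.1 h).resolve_left (sub_ne_zero.2 hw1)
      let W := algebraMap F K w
      have hW : 1 + W + W ^ 2 = 0 := by
        have := congrArg (algebraMap F K) hw
        rwa [map_add, map_add, map_one, map_pow, map_zero] at this
      have hx7 : (x ^ 7) ^ 3 = 1 := by rw [← pow_mul]; exact hx
      have h6 : (x ^ 7 - 1) * ((x ^ 7 - W) * (x ^ 7 - W ^ 2)) = 0 := by
        linear_combination hx7 + (x ^ 7 - 1) * (W - 1 - x ^ 7) * hW
      have hx15 : (x ^ 15) ^ 7 = 1 := by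
        rw [← pow_mul]
        calc x ^ (15 * 7) = (x ^ 21) ^ 5 := by ring
          _ = 1 := by rw [hx, one_pow]
      obtain ⟨i, hi, h⟩ := hroots _ hx15
      have hxx : x = x ^ 7 * x ^ 15 := by
        calc x = x ^ 21 * x := by rw [hx, one_mul]
          _ = x ^ 7 * x ^ 15 := by ring
      have hz : ∃ z : F, x ^ 7 = algebraMap F K z := by
        rcases mul_eq_zero.1 h6 with h7 | h7
        · exact ⟨1, by rw [map_one]; exact sub_eq_zero.1 h7⟩
        · rcases mul_eq_zero.1 h7 with h8 | h8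
          · exact ⟨w, sub_eq_zero.1 h8⟩
          · exact ⟨w ^ 2, by rw [map_pow]; exact sub_eq_zero.1 h8⟩
      obtain ⟨z, hz⟩ := hz
      exact ⟨z, i, hi, by rw [← hz, ← h]; exact hxx⟩

theorem not_max_abs (h3 : Module.finrank F K = 3) (hq : q = 3 ∨ q = 5)
    (ρ : K →ₐ[F] Matrix (Fin 3) (Fin 3) F) (hF : Fintype.card F = q ^ 2)
    (hadj : ∀ k : K, ∃ k' : K, ∀ u v : Fin 3 → F,
      hermForm 3 F q (ρ k *ᵥ u) v = hermForm 3 F q u (ρ k' *ᵥ v))
    (H0 : Subgroup (GL (Fin 3) F)) (hH0 : ∀ g, g ∈ H0 ↔ g ∈ SG 3 F q ∧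
      ∃ σ : K →+* K, ∀ k, (g : Matrix (Fin 3) (Fin 3) F) * ρ k *
        ((g⁻¹ : GL (Fin 3) F) : Matrix (Fin 3) (Fin 3) F) = ρ (σ k)) :
    ∃ M : Subgroup (GL (Fin 3) F), H0 < M ∧ M < SG 3 F q := by
  obtain ⟨v, τ, c, m, hm, C⟩ := exists_ctx h3 hq ρ hF hadj
  obtain ⟨t, htS, htH, htt, hrel⟩ := main_rel C H0 hH0
  have hcard := card_H0 C (by rcases hm with ⟨rfl, -⟩ | ⟨rfl, -⟩ <;> norm_num) H0 hH0
  obtain ⟨M, hM1, hM2, hM3⟩ := exists_two_cosets _ t htt hrel
  have hMc := card_two_cosets hM3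
  have hMS : M ≤ SG 3 F q := by
    intro g hg
    rcases hM3 g hg with h1 | ⟨a, ha, b, hb, rfl⟩
    · exact ((hH0 g).1 h1).1
    · exact Subgroup.mul_mem _ (Subgroup.mul_mem _ ((hH0 a).1 ha).1 htS) ((hH0 b).1 hb).1
  refine ⟨M, lt_of_le_of_ne hM1 fun h => htH (by rw [h]; exact hM2), lt_of_le_of_ne hMS fun h => ?_⟩
  have hSG := card_SG hF
  rw [← h] at hSG
  rcases hm with ⟨rfl, rfl⟩ | ⟨rfl, rfl⟩
  · norm_num at hSG hcard
    nlinarith
  · norm_num at hSG hcard
    nlinarith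

end Inst

end F3

/-- The normaliser of a cubic field in `SU_3(3)` and `SU_3(5)` is not maximal. -/
theorem field_three {F : Type*} [Field F] [Fintype F] {q : ℕ} (hq : q = 3 ∨ q = 5)
    (hF : Fintype.card F = q ^ 2)
    {L : Subalgebra F (Matrix (Fin 3) (Fin 3) F)} (hL : IsFieldSubalgebra 3 L)
    (hadj : IsAdjointClosedFor (hermForm 3 F q) L) :
    ∃ K : Subgroup (GL (Fin 3) F), subalgebraNormalizer L ⊓ SG 3 F q < K ∧ K < SG 3 F q := by
  classical
  have hfin : Finite L := Finite.of_injective (fun x : L => (x : Matrix (Fin 3) (Fin 3) F))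
    Subtype.val_injective
  letI : Fintype L := Fintype.ofFinite L
  have hnh := exists_normalizer_hom hL
  refine @F3.not_max_abs F L _ _ (fieldOf hL) _
    (inferInstanceAs (Algebra F L)) q hL.finrank_eq hq L.val hF
    ?_ (subalgebraNormalizer L ⊓ SG 3 F q) ?_
  · intro k
    obtain ⟨k', hk', h⟩ := hadj k.1 k.2
    exact ⟨⟨k', hk'⟩, h⟩
  · intro g
    rw [Subgroup.mem_inf, hnh g]
    exact and_comm

end Cfsg.Agent.UCase
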