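import Mathlib
import Cfsg.Agent.UCase.F25

set_option autoImplicit false
set_option linter.unusedSectionVars false
set_option linter.unusedVariables false

/-!
`SU_3(5)`: the monomial group is not maximal.
-/

namespace Cfsg.Agent.UCase

open scoped Matrix
open Cfsg.Geo Cfsg.Agent.Uni Cfsg.Agent.AschCases
open Matrix (GeneralLinearGroup)

namespace MF

open F25

/-- The condition on norms, in the model. -/
def PP (n n' m w : ℕ) : Bool :=
  (decide (n = n') && decide (n ≠ 0) && decide (m = 0)) ||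
  (decide (n = 0) && decide (n' = 0) && decide (m ≠ 0)) ||
  (decide (n = n') && decide (n ≠ 0) && ((decide (m = n) && decide (w = m)) ||
    (decide (m = ml 4 n) && decide (w = m)) || (decide (m = ml 2 n) && decide (w = ml 4 m))))

def nn (x : ℕ) : ℕ := ml x (cj x)
def sqr (x : ℕ) : ℕ := ml x x

def tst (x y z : ℕ) : Bool :=
  PP (nn x) (nn y) (nn z) (sqr (ml (ml x y) z)) || PP (nn y) (nn z) (nn x) (sqr (ml (ml x y) z)) ||
    PP (nn z) (nn x) (nn y) (sqr (ml (ml x y) z))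

theorem tst_T1 : ∀ b < 25, ∀ c < 25, tst 1 b c = true →
    tst (ad 1 (ad (ad 1 b) c)) (ad b (ad (ad 1 b) c)) (ad c (ad (ad 1 b) c)) = true := by
  decide +kernel

theorem tst_T2 : ∀ c < 25, tst 0 1 c = true →
    tst (ad 0 (ad (ad 0 1) c)) (ad 1 (ad (ad 0 1) c)) (ad c (ad (ad 0 1) c)) = true := by
  decide +kernel

theorem tst_T3 : tst 0 0 1 = true →
    tst (ad 0 (ad (ad 0 0) 1)) (ad 0 (ad (ad 0 0) 1)) (ad 1 (ad (ad 0 0) 1)) = true := by
  decide +kernel

theorem tst_100 : tst 1 0 0 = true := by decide +kernel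

theorem tst_bad : tst 6 10 0 = false := by decide +kernel

section S

variable {F : Type*} [Field F]

/-- The condition on norms. -/
def PPF (n n' m w : F) : Prop :=
  (n = n' ∧ n ≠ 0 ∧ m = 0) ∨ (n = 0 ∧ n' = 0 ∧ m ≠ 0) ∨
  (n = n' ∧ n ≠ 0 ∧ ((m = n ∧ w = m) ∨ (m = 4 * n ∧ w = m) ∨ (m = 2 * n ∧ w = 4 * m)))

theorem PPF_symm {n n' m w : F} (h : PPF n n' m w) : PPF n' n m w := by
  rcases h with ⟨h1, h2, h3⟩ | ⟨h1, h2, h3⟩ | ⟨h1, h2, h3⟩
  · exact Or.inl ⟨h1.symm, h1 ▸ h2, h3⟩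
  · exact Or.inr (Or.inl ⟨h2, h1, h3⟩)
  · subst h1; exact Or.inr (Or.inr ⟨rfl, h2, h3⟩)

theorem PPF_scale {n n' m w ν : F} (hν : ν ≠ 0) (h : PPF n n' m w) :
    PPF (ν * n) (ν * n') (ν * m) (ν * w) := by
  rcases h with ⟨rfl, h2, rfl⟩ | ⟨rfl, rfl, h3⟩ | ⟨rfl, h2, h3⟩
  · exact Or.inl ⟨rfl, mul_ne_zero hν h2, mul_zero _⟩
  · exact Or.inr (Or.inl ⟨mul_zero _, mul_zero _, mul_ne_zero hν h3⟩)
  · refine Or.inr (Or.inr ⟨rfl, mul_ne_zero hν h2, ?_⟩)
    rcases h3 with ⟨rfl, rfl⟩ | ⟨rfl, rfl⟩ | ⟨rfl, rfl⟩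
    · exact Or.inl ⟨rfl, rfl⟩
    · exact Or.inr (Or.inl ⟨by ring, rfl⟩)
    · exact Or.inr (Or.inr ⟨by ring, by ring⟩)

/-- The set of vectors. -/
def SS (X : Fin 3 → F) : Prop :=
  ∃ i j k : Fin 3, i ≠ j ∧ j ≠ k ∧ i ≠ k ∧ PPF (X i ^ 6) (X j ^ 6) (X k ^ 6) ((∏ l, X l) ^ 2)

theorem SS_scale {X : Fin 3 → F} {c : F} (hc : c ≠ 0) (h : SS X) : SS (c • X) := by
  obtain ⟨i, j, k, h1, h2, h3, h4⟩ := h
  refine ⟨i, j, k, h1, h2, h3, ?_⟩
  have := PPF_scale (pow_ne_zero 6 hc) h4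
  simp only [Pi.smul_apply, smul_eq_mul]
  rw [Fin.prod_univ_three] at this ⊢
  convert this using 1 <;> ring

theorem SS_zero : ¬ SS (0 : Fin 3 → F) := by
  rintro ⟨i, j, k, h1, h2, h3, h4⟩
  rcases h4 with ⟨-, h, -⟩ | ⟨-, -, h⟩ | ⟨-, h, -⟩
  · apply h; norm_num
  · apply h; norm_num
  · apply h; norm_num

variable [Fintype F] {θ : F} (hF : Fintype.card F = 5 ^ 2) (h5 : (5 : F) = 0) (hθ : θ * θ = 2)
include hF h5 hθ

theorem PP_iff {n n' m w : ℕ} (hn : n < 25) (hn' : n' < 25) (hm : m < 25) (hw : w < 25) :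
    PPF (psi θ n) (psi θ n') (psi θ m) (psi θ w) ↔ PP n n' m w = true := by
  have hz : ∀ {a}, a < 25 → (psi θ a = 0 ↔ a = 0) := fun ha => by
    rw [← psi_zero θ, psi_eq_iff h5 hθ ha (by norm_num)]
  have h4 : ∀ a, 4 * psi θ a = psi θ (ml 4 a) := fun a => by
    rw [psi_ml h5 hθ]; congr 1; simp [psi]
  have h2 : ∀ a, 2 * psi θ a = psi θ (ml 2 a) := fun a => by
    rw [psi_ml h5 hθ]; congr 1; simp [psi]
  unfold PPF PP
  rw [h4, h4, h2, psi_eq_iff h5 hθ hn hn', psi_eq_iff h5 hθ hm hn, psi_eq_iff h5 hθ hw hm,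
    psi_eq_iff h5 hθ hm (ml_lt _ _), psi_eq_iff h5 hθ hm (ml_lt _ _),
    psi_eq_iff h5 hθ hw (ml_lt _ _), Ne, Ne, hz hn, hz hn', hz hm]
  simp only [Bool.or_eq_true, Bool.and_eq_true, decide_eq_true_eq]
  tauto

theorem nn_psi (x : ℕ) : psi θ x ^ 6 = psi θ (nn x) := by
  rw [nn, psi_ml h5 hθ, psi_cj h5 hθ hF]
  ring

theorem SS_iff (x y z : ℕ) : SS ![psi θ x, psi θ y, psi θ z] ↔ tst x y z = true := by
  have hw : (∏ l, (![psi θ x, psi θ y, psi θ z] : Fin 3 → F) l) ^ 2 =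
      psi θ (sqr (ml (ml x y) z)) := by
    rw [Fin.prod_univ_three, sqr, psi_ml h5 hθ, psi_ml h5 hθ, psi_ml h5 hθ]
    simp only [Matrix.cons_val_zero, Matrix.cons_val_one, Matrix.cons_val]
    ring
  have hl : ∀ a, nn a < 25 := fun a => ml_lt _ _
  have hs : sqr (ml (ml x y) z) < 25 := ml_lt _ _
  unfold tst
  rw [Bool.or_eq_true, Bool.or_eq_true, ← PP_iff hF h5 hθ (hl x) (hl y) (hl z) hs,
    ← PP_iff hF h5 hθ (hl y) (hl z) (hl x) hs, ← PP_iff hF h5 hθ (hl z) (hl x) (hl y) hs]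
  simp only [← nn_psi hF h5 hθ, ← hw]
  constructor
  · rintro ⟨i, j, k, h1, h2, h3, h4⟩
    have key : ∀ i j k : Fin 3, i ≠ j → j ≠ k → i ≠ k →
        (i = 0 ∧ j = 1 ∧ k = 2) ∨ (i = 1 ∧ j = 0 ∧ k = 2) ∨ (i = 1 ∧ j = 2 ∧ k = 0) ∨
        (i = 2 ∧ j = 1 ∧ k = 0) ∨ (i = 2 ∧ j = 0 ∧ k = 1) ∨ (i = 0 ∧ j = 2 ∧ k = 1) := by decide
    rcases key i j k h1 h2 h3 with ⟨rfl, rfl, rfl⟩ | ⟨rfl, rfl, rfl⟩ | ⟨rfl, rfl, rfl⟩ |
      ⟨rfl, rfl, rfl⟩ | ⟨rfl, rfl, rfl⟩ | ⟨rfl, rfl, rfl⟩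
    · exact Or.inl (Or.inl h4)
    · exact Or.inl (Or.inl (PPF_symm h4))
    · exact Or.inl (Or.inr h4)
    · exact Or.inl (Or.inr (PPF_symm h4))
    · exact Or.inr h4
    · exact Or.inr (PPF_symm h4)
  · rintro ((h | h) | h)
    · exact ⟨0, 1, 2, by decide, by decide, by decide, h⟩
    · exact ⟨1, 2, 0, by decide, by decide, by decide, h⟩
    · exact ⟨2, 0, 1, by decide, by decide, by decide, h⟩

theorem SS_T_aux (x y z : ℕ) (h : tst x y z = true → tst (ad x (ad (ad x y) z))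
    (ad y (ad (ad x y) z)) (ad z (ad (ad x y) z)) = true)
    (hS : SS ![psi θ x, psi θ y, psi θ z]) : SS (fun i => (![psi θ x, psi θ y, psi θ z] : Fin 3 → F) i +
      ∑ j, (![psi θ x, psi θ y, psi θ z] : Fin 3 → F) j) := by
  rw [SS_iff hF h5 hθ] at hS
  have h1 := h hS
  rw [← SS_iff hF h5 hθ] at h1
  convert h1 using 1
  funext i
  rw [Fin.sum_univ_three]
  fin_cases i <;> simp [psi_ad h5]

theorem SS_T {X : Fin 3 → F} (hX : SS X) : SS (fun i => X i + ∑ j, X j) := by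
  have hscale : ∀ (c : F) (Y : Fin 3 → F), c ≠ 0 → X = c • Y → SS (fun i => Y i + ∑ j, Y j) →
      SS (fun i => X i + ∑ j, X j) := by
    intro c Y hc hXY h
    have h1 := SS_scale hc h
    convert h1 using 1
    funext i
    simp only [hXY, Pi.smul_apply, smul_eq_mul, ← Finset.mul_sum]
    ring
  have hback : ∀ (c : F) (Y : Fin 3 → F), c ≠ 0 → X = c • Y → SS Y := by
    intro c Y hc hXY
    have h1 := SS_scale (inv_ne_zero hc) hX
    rwa [hXY, smul_smul, inv_mul_cancel₀ hc, one_smul] at h1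
  by_cases h0 : X 0 = 0
  · by_cases h1 : X 1 = 0
    · have h2 : X 2 ≠ 0 := by
        intro h2
        apply SS_zero (F := F)
        convert hX using 1
        funext i
        fin_cases i
        · exact h0.symm
        · exact h1.symm
        · exact h2.symm
      have hXY : X = X 2 • ![psi θ 0, psi θ 0, psi θ 1] := by
        funext i
        fin_cases i
        · simp [psi_zero, h0]
        · simp [psi_zero, h1]
        · simp [psi_one]
      exact hscale _ _ h2 hXY (SS_T_aux hF h5 hθ _ _ _ tst_T3 (hback _ _ h2 hXY))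
    · obtain ⟨c, hc, hc'⟩ := psi_surj h5 hθ hF ((X 1)⁻¹ * X 2)
      have hXY : X = X 1 • ![psi θ 0, psi θ 1, psi θ c] := by
        funext i
        fin_cases i
        · simp [psi_zero, h0]
        · simp [psi_one]
        · simp [hc', h1]
      exact hscale _ _ h1 hXY (SS_T_aux hF h5 hθ _ _ _ (tst_T2 c hc) (hback _ _ h1 hXY))
  · obtain ⟨b, hb, hb'⟩ := psi_surj h5 hθ hF ((X 0)⁻¹ * X 1)
    obtain ⟨c, hc, hc'⟩ := psi_surj h5 hθ hF ((X 0)⁻¹ * X 2)
    have hXY : X = X 0 • ![psi θ 1, psi θ b, psi θ c] := by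
      funext i
      fin_cases i
      · simp [psi_one]
      · simp [hb', h0]
      · simp [hc', h0]
    exact hscale _ _ h0 hXY (SS_T_aux hF h5 hθ _ _ _ (tst_T1 b hb c hc) (hback _ _ h0 hXY))

end S

variable {F : Type*} [Field F] [Fintype F]

/-- The monomial group of `SU_3(5)` is not maximal. -/
theorem mono_three_five (hF : Fintype.card F = 5 ^ 2) {D : Fin 3 → Submodule F (Fin 3 → F)}
    (hD : IsNondegenerateMDecomposition (hermForm 3 F 5) 1 D) :
    ∃ K : Subgroup (GL (Fin 3) F), decompositionStabilizer D ⊓ SG 3 F 5 < K ∧ K < SG 3 F 5 := by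
  have h5 := five_eq_zero hF
  obtain ⟨θ, hθ⟩ := exists_theta hF
  have h20 : (2 : F) ≠ 0 := by
    intro h
    have := cast_ne_zero_of_lt h5 (a := 2) (by norm_num) (by exact_mod_cast h)
    omega
  have h30 : (3 : F) ≠ 0 := by
    intro h
    have := cast_ne_zero_of_lt h5 (a := 3) (by norm_num) (by exact_mod_cast h)
    omega
  obtain ⟨u, e, hu, hDu, he1, he2, he3, hmon⟩ := exists_line_coords hF hD
  let S : (Fin 3 → F) → Prop := fun x => SS (e x)
  have hH : decompositionStabilizer D ⊓ SG 3 F 5 ≤ Six.KK 3 F 5 S := by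
    rintro g ⟨hg, hgS⟩
    refine mem_KK_of_forward hgS ?_
    obtain ⟨σ, a, ha, hga, hdet⟩ := hmon g hg
    have ha6 : ∀ i, a i ^ 6 = 1 := by
      intro i
      have h1 : hermForm 3 F 5 ((g : Matrix (Fin 3) (Fin 3) F) *ᵥ u i)
          ((g : Matrix (Fin 3) (Fin 3) F) *ᵥ u i) = hermForm 3 F 5 (u i) (u i) := hgS.1 _ _
      rw [hu, if_pos rfl, he3, ← Equiv.sum_comp σ, Finset.sum_eq_single i] at h1
      · rw [hga, he1, Pi.single_eq_same, mul_one] at h1
        rw [← h1]; ring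
      · intro j _ hji
        rw [hga, he1, Pi.single_eq_of_ne hji, mul_zero, zero_mul]
      · intro h; exact absurd (Finset.mem_univ _) h
    have hprod : (∏ i, a i) ^ 2 = 1 := by
      rw [mem_specialLinear.1 hgS.2] at hdet
      rcases hdet with h | h <;> rw [h] <;> norm_num
    rintro x ⟨i, j, k, h1, h2, h3, h4⟩
    refine ⟨σ i, σ j, σ k, fun h => h1 (σ.injective h), fun h => h2 (σ.injective h),
      fun h => h3 (σ.injective h), ?_⟩
    rw [hga, hga, hga, ← Equiv.prod_comp σ, Finset.prod_congr rfl fun i _ => hga x i,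
      Finset.prod_mul_distrib, mul_pow, mul_pow, mul_pow, mul_pow, ha6, ha6, ha6, hprod, one_mul,
      one_mul, one_mul, one_mul]
    exact h4
  -- the extra element
  let v : Fin 3 → F := ∑ i, u i
  have hev : ∀ i, e v i = 1 := by
    intro i
    simp only [v]
    rw [map_sum, Finset.sum_apply, Finset.sum_eq_single i]
    · rw [he1, Pi.single_eq_same]
    · intro j _ hji
      rw [he1, Pi.single_eq_of_ne hji.symm]
    · intro h; exact absurd (Finset.mem_univ _) h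
  have hfv : ∀ x, hermForm 3 F 5 x v = ∑ i, e x i := by
    intro x
    rw [he3]
    exact Finset.sum_congr rfl fun i _ => by rw [hev, one_pow, mul_one]
  have hvv : hermForm 3 F 5 v v = 3 := by
    rw [hfv, Finset.sum_congr rfl fun i _ => hev i]
    simp
  obtain ⟨t, htS, ht⟩ := exists_refl3 hF (v := v) (by rw [hvv]; exact h30)
  have het : ∀ x i, e ((t : Matrix (Fin 3) (Fin 3) F) *ᵥ x) i = - (e x i + ∑ j, e x j) := by
    intro x i
    rw [ht, hvv, hfv, map_sub, map_smul, Pi.sub_apply, Pi.smul_apply, hev, smul_eq_mul, mul_one]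
    field_simp
    linear_combination (∑ j, e x j) * h5
  have htK : t ∈ Six.KK 3 F 5 S := by
    refine mem_KK_of_forward htS fun x hx => ?_
    have h1 := SS_scale (neg_ne_zero.2 one_ne_zero) (SS_T hF h5 hθ hx)
    change SS _
    convert h1 using 1
    funext i
    rw [het, Pi.smul_apply, smul_eq_mul]
    ring
  refine ⟨Six.KK 3 F 5 S, lt_of_le_of_ne hH ?_, lt_of_le_of_ne (fun g hg => hg.1) ?_⟩
  · intro heq
    rw [← heq] at htK
    obtain ⟨σ, a, ha, hga, -⟩ := hmon t htK.1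
    have h1 : ∀ i, e ((t : Matrix (Fin 3) (Fin 3) F) *ᵥ u 0) i = -((Pi.single 0 1 : Fin 3 → F) i + 1) := by
      intro i
      rw [het, he1, Finset.sum_pi_single']
      simp
    obtain ⟨i, hi0, hiσ⟩ : ∃ i : Fin 3, i ≠ 0 ∧ i ≠ σ 0 := by
      generalize σ 0 = k
      revert k; decide
    have h2 := h1 i
    obtain ⟨k, rfl⟩ := σ.surjective i
    rw [hga, he1, Pi.single_eq_of_ne (fun h => hiσ (by rw [h])), mul_zero, Pi.single_eq_of_ne hi0,
      zero_add] at h2
    exact neg_ne_zero.2 one_ne_zero h2.symm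
  · intro heq
    -- a transvection
    let x : Fin 3 → F := u 0 + (2 : F) • u 1
    have hex : e x = ![1, 2, 0] := by
      funext i
      simp only [x, map_add, map_smul, he1]
      fin_cases i <;> simp
    have h25 : (2 : F) ^ 5 = 2 := by linear_combination 6 * h5
    have hfx : ∀ y, hermForm 3 F 5 y x = e y 0 + e y 1 * 2 := by
      intro y
      rw [he3, Fin.sum_univ_three, hex]
      simp [h25]
    have hxx : hermForm 3 F 5 x x = 0 := by
      rw [hfx, hex]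
      simp
      linear_combination h5
    have hθ5 : θ ^ 5 = -θ := by
      calc θ ^ 5 = (θ * θ) * (θ * θ) * θ := by ring
        _ = -θ := by rw [hθ]; linear_combination θ * h5
    obtain ⟨g, hg, hgx⟩ := exists_transv_SG (c := θ) hF hxx hθ5
    rw [← heq] at hg
    have hS0 : SS (![psi θ 1, psi θ 0, psi θ 0] : Fin 3 → F) := (SS_iff hF h5 hθ 1 0 0).2 tst_100
    have he0 : e (u 0) = ![psi θ 1, psi θ 0, psi θ 0] := by
      rw [he1, psi_one, psi_zero]
      funext i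
      fin_cases i <;> simp
    have h1 := (hg.2 (u 0)).2 (by change SS _; rw [he0]; exact hS0)
    have h2 : e ((g : Matrix (Fin 3) (Fin 3) F) *ᵥ u 0) = ![psi θ 6, psi θ 10, psi θ 0] := by
      rw [hgx, hfx, map_add, map_smul, he0, hex]
      funext i
      fin_cases i <;> simp [psi]
      ring
    change SS _ at h1
    rw [h2, SS_iff hF h5 hθ, tst_bad] at h1
    exact Bool.false_ne_true h1

end MF

end Cfsg.Agent.UCase
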