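import Mathlib
import Cfsg.Agent.UCase.MonoFive

set_option autoImplicit false
set_option linter.unusedSectionVars false
set_option linter.unusedVariables false

/-!
`SU_3(5)`: the normaliser of an extraspecial group of order 27 is not maximal.
-/

namespace Cfsg.Agent.UCase

open scoped Matrix
open Cfsg.Geo Cfsg.Agent.Uni Cfsg.Agent.AschCases
open Matrix (GeneralLinearGroup)

namespace HF

open F25

/-! ### The model -/

/-- Product. -/
def mm (X Y : Fin 3 → Fin 3 → ℕ) : Fin 3 → Fin 3 → ℕ := fun i j =>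
  ad (ad (ml (X i 0) (Y 0 j)) (ml (X i 1) (Y 1 j))) (ml (X i 2) (Y 2 j))

/-- Powers of the cube root of unity. -/
def wp (e : ℕ) : ℕ := if e % 3 = 0 then 1 else if e % 3 = 1 then 12 else 17

/-- The elements of the extraspecial group. -/
def elt (i j k : ℕ) : Fin 3 → Fin 3 → ℕ := fun r c =>
  if r.1 = (c.1 + k) % 3 then wp (i + j * r.1) else 0

/-- Determinant. -/
def detc (X : Fin 3 → Fin 3 → ℕ) : ℕ :=
  ad (ad (ad (ml (ml (X 0 0) (X 1 1)) (X 2 2)) (ml (ml (X 0 1) (X 1 2)) (X 2 0)))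
    (ml (ml (X 0 2) (X 1 0)) (X 2 1)))
   (ml 4 (ad (ad (ml (ml (X 0 0) (X 1 2)) (X 2 1)) (ml (ml (X 0 1) (X 1 0)) (X 2 2)))
    (ml (ml (X 0 2) (X 1 1)) (X 2 0))))

/-- Unitary of determinant one. -/
def isSU (X : Fin 3 → Fin 3 → ℕ) : Bool :=
  decide (detc X = 1) && decide (∀ i j : Fin 3, ad (ad (ml (X 0 i) (cj (X 0 j)))
    (ml (X 1 i) (cj (X 1 j)))) (ml (X 2 i) (cj (X 2 j))) = if i = j then 1 else 0)

/-- The points. -/
def LL : List (ℕ × ℕ × ℕ) := [(0,1,4),(0,1,13),(0,1,18),(1,0,4),(1,0,13),(1,0,18),(1,1,2),(1,1,4),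
  (1,1,10),(1,1,15),(1,2,1),(1,3,3),(1,4,0),(1,4,1),(1,4,4),(1,5,5),(1,6,21),(1,7,17),(1,8,12),
  (1,9,12),(1,10,1),(1,11,14),(1,12,8),(1,12,9),(1,12,13),(1,12,22),(1,13,0),(1,13,12),(1,13,18),
  (1,14,11),(1,15,1),(1,16,19),(1,17,7),(1,17,18),(1,17,23),(1,17,24),(1,18,0),(1,18,13),(1,18,17),
  (1,19,16),(1,20,20),(1,21,6),(1,22,12),(1,23,17),(1,24,17)]

/-- Inverse. -/
def iv (x : ℕ) : ℕ := ml (cj x) (if MF.nn x = 2 then 3 else if MF.nn x = 3 then 2 else MF.nn x)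

/-- The test. -/
def chk (p : ℕ × ℕ × ℕ) : Bool :=
  if p.1 = 0 then decide (p.2.1 ≠ 0) && decide ((0, 1, ml (iv p.2.1) p.2.2) ∈ LL)
  else decide ((1, ml (iv p.1) p.2.1, ml (iv p.1) p.2.2) ∈ LL)

/-- The action. -/
def app (X : Fin 3 → Fin 3 → ℕ) (p : ℕ × ℕ × ℕ) : ℕ × ℕ × ℕ :=
  (ad (ad (ml (X 0 0) p.1) (ml (X 0 1) p.2.1)) (ml (X 0 2) p.2.2),
   ad (ad (ml (X 1 0) p.1) (ml (X 1 1) p.2.1)) (ml (X 1 2) p.2.2),
   ad (ad (ml (X 2 0) p.1) (ml (X 2 1) p.2.1)) (ml (X 2 2) p.2.2))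

/-- Preservation. -/
def prs (X : Fin 3 → Fin 3 → ℕ) : Bool := LL.all fun p => chk (app X p)

def Fu : Fin 3 → Fin 3 → ℕ := ![![10,10,10],![10,23,22],![10,22,23]]
def Gu : Fin 3 → Fin 3 → ℕ := ![![10,10,22],![10,23,23],![23,10,23]]
def Tu : Fin 3 → Fin 3 → ℕ := ![![1,2,4],![2,1,4],![4,4,2]]
def F2 : Fin 3 → Fin 3 → ℕ := ![![1,0,0],![0,0,1],![0,1,0]]

/-- The list of representatives. -/
def HL : List (Fin 3 → Fin 3 → ℕ) :=
  [elt 0 0 0, mm Fu Fu, mm (mm Fu Fu) Fu, Fu, mm (mm Gu Gu) Gu, Gu, mm Fu Gu, mm Gu Fu]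

set_option maxRecDepth 100000

theorem HL_SU : (HL.all isSU) = true := by decide +kernel
theorem HL_prs : (HL.all prs) = true := by decide +kernel
theorem elt_prs1 : prs (elt 0 1 0) = true := by decide +kernel
theorem elt_prs2 : prs (elt 0 0 1) = true := by decide +kernel
theorem elt_SU2 : isSU (elt 0 0 1) = true := by decide +kernel
theorem Tu_prs : prs Tu = true := by decide +kernel
theorem Tu_SU : isSU Tu = true := by decide +kernel
theorem Tu_Tu : mm Tu Tu = elt 0 0 0 := by decide +kernel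
theorem Tu_D : ∀ i < 3, ∀ j < 3, ∀ k < 3, mm (mm Tu (elt 0 1 0)) Tu ≠ elt i j k := by decide +kernel
theorem elt_inj : ∀ i j k i' j' k' : Fin 3,
    elt i j k = elt i' j' k' → i = i' ∧ j = j' ∧ k = k' := by decide +kernel
theorem HL_D : ∀ i j k : Fin 3, ¬ (j = 0 ∧ k = 0) → ∃ h ∈ HL, ∃ s : Fin 3,
    mm h (mm (elt s 0 0) (elt 0 1 0)) = mm (elt i j k) h := by decide +kernel
theorem HL_norm : ∀ h ∈ HL, ∀ j < 3, ∀ k < 3, ∃ i' < 3, ∃ j' < 3, ∃ k' < 3,
    mm h (elt 0 j k) = mm (elt i' j' k') h := by decide +kernel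
theorem iv_ml : ∀ x < 25, x ≠ 0 → ml x (iv x) = 1 := by decide +kernel
theorem LL_lt : ∀ p ∈ LL, p.1 < 25 ∧ p.2.1 < 25 ∧ p.2.2 < 25 := by decide +kernel
theorem bad : ∀ k < 25, ∀ p ∈ LL, ¬ (ml k p.1 = 0 ∧ ml k p.2.1 = 21 ∧ ml k p.2.2 = 19) := by
  decide +kernel


theorem elt_lt (i j k : ℕ) (r c : Fin 3) : elt i j k r c < 25 := by
  unfold elt wp
  split_ifs <;> norm_num

theorem mm_lt (X Y : Fin 3 → Fin 3 → ℕ) (r c : Fin 3) : mm X Y r c < 25 := ad_lt _ _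

section link

variable {F : Type*} [Field F]

/-- The matrix. -/
def toM (θ : F) (X : Fin 3 → Fin 3 → ℕ) : Matrix (Fin 3) (Fin 3) F := Matrix.of fun i j => psi θ (X i j)

/-- The vector. -/
def vec (θ : F) (p : ℕ × ℕ × ℕ) : Fin 3 → F := ![psi θ p.1, psi θ p.2.1, psi θ p.2.2]

/-- The set of vectors. -/
def SS (θ : F) (x : Fin 3 → F) : Prop := ∃ c : F, c ≠ 0 ∧ ∃ p ∈ LL, x = c • vec θ p

theorem SS_scale {θ : F} {x : Fin 3 → F} {c : F} (hc : c ≠ 0) (h : SS θ x) : SS θ (c • x) := by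
  obtain ⟨d, hd, p, hp, rfl⟩ := h
  exact ⟨c * d, mul_ne_zero hc hd, p, hp, by rw [smul_smul]⟩

variable [Fintype F] {θ : F} (hF : Fintype.card F = 5 ^ 2) (h5 : (5 : F) = 0) (hθ : θ * θ = 2)
include h5 hθ

theorem toM_mm (X Y : Fin 3 → Fin 3 → ℕ) : toM θ (mm X Y) = toM θ X * toM θ Y := by
  ext i j
  simp only [toM, Matrix.of_apply, Matrix.mul_apply, Fin.sum_univ_three, mm]
  rw [psi_ad h5, psi_ad h5, psi_ml h5 hθ, psi_ml h5 hθ, psi_ml h5 hθ]

theorem toM_app (X : Fin 3 → Fin 3 → ℕ) (p : ℕ × ℕ × ℕ) :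
    toM θ X *ᵥ vec θ p = vec θ (app X p) := by
  funext i
  simp only [toM, vec, Matrix.mulVec, dotProduct, Matrix.of_apply, Fin.sum_univ_three]
  fin_cases i <;> simp [app, psi_ad h5, psi_ml h5 hθ]

theorem toM_det (X : Fin 3 → Fin 3 → ℕ) : (toM θ X).det = psi θ (detc X) := by
  rw [Matrix.det_fin_three]
  simp only [toM, Matrix.of_apply, detc]
  have h4 : psi θ 4 = 4 := by simp [psi]
  simp only [psi_ad h5, psi_ml h5 hθ, h4]
  linear_combination (-(psi θ (X 0 0) * psi θ (X 1 2) * psi θ (X 2 1) +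
    psi θ (X 0 1) * psi θ (X 1 0) * psi θ (X 2 2) + psi θ (X 0 2) * psi θ (X 1 1) * psi θ (X 2 0))) * h5

theorem toM_inj {X Y : Fin 3 → Fin 3 → ℕ} (hX : ∀ i j, X i j < 25) (hY : ∀ i j, Y i j < 25)
    (h : toM θ X = toM θ Y) : X = Y := by
  funext i j
  have := congrFun (congrFun h i) j
  simp only [toM, Matrix.of_apply] at this
  exact psi_inj h5 hθ (hX i j) (hY i j) this

theorem chk_SS {p : ℕ × ℕ × ℕ} (h1 : p.1 < 25) (h2 : p.2.1 < 25) (h : chk p = true) :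
    SS θ (vec θ p) := by
  obtain ⟨x, y, z⟩ := p
  unfold chk at h
  simp only at h h1 h2
  by_cases hx : x = 0
  · subst hx
    rw [if_pos rfl, Bool.and_eq_true, decide_eq_true_eq, decide_eq_true_eq] at h
    refine ⟨psi θ y, fun h0 => h.1 (psi_eq_zero h5 hθ h2 h0), _, h.2, ?_⟩
    funext i
    fin_cases i
    · simp [vec, psi_zero]
    · simp [vec, psi_one]
    · simp only [vec, Pi.smul_apply, smul_eq_mul, psi_ml h5 hθ]
      simp only [Fin.reduceFinMk, Matrix.cons_val, Fin.isValue]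
      rw [← mul_assoc, ← psi_ml h5 hθ, iv_ml y h2 h.1, psi_one, one_mul]
  · rw [if_neg hx, decide_eq_true_eq] at h
    refine ⟨psi θ x, fun h0 => hx (psi_eq_zero h5 hθ h1 h0), _, h, ?_⟩
    funext i
    fin_cases i
    · simp [vec, psi_one]
    · simp only [vec, Pi.smul_apply, smul_eq_mul, psi_ml h5 hθ]
      simp only [Fin.mk_one, Matrix.cons_val_one, Matrix.cons_val_zero, Fin.isValue]
      rw [← mul_assoc, ← psi_ml h5 hθ, iv_ml x h1 hx, psi_one, one_mul]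
    · simp only [vec, Pi.smul_apply, smul_eq_mul, psi_ml h5 hθ]
      simp only [Fin.reduceFinMk, Matrix.cons_val, Fin.isValue]
      rw [← mul_assoc, ← psi_ml h5 hθ, iv_ml x h1 hx, psi_one, one_mul]

theorem prs_SS {X : Fin 3 → Fin 3 → ℕ} (h : prs X = true) {x : Fin 3 → F} (hx : SS θ x) :
    SS θ (toM θ X *ᵥ x) := by
  obtain ⟨c, hc, p, hp, rfl⟩ := hx
  rw [Matrix.mulVec_smul, toM_app h5 hθ]
  apply SS_scale hc
  have h1 := List.all_eq_true.1 h p hp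
  exact chk_SS h5 hθ (ad_lt _ _) (ad_lt _ _) h1

include hF

theorem exists_SU {X : Fin 3 → Fin 3 → ℕ} (h : isSU X = true) :
    ∃ g ∈ SG 3 F 5, (g : Matrix (Fin 3) (Fin 3) F) = toM θ X := by
  unfold isSU at h
  rw [Bool.and_eq_true, decide_eq_true_eq, decide_eq_true_eq] at h
  obtain ⟨hdet, huni⟩ := h
  have hu : IsON 5 (fun j : Fin 3 => fun i : Fin 3 => toM θ X i j) := by
    intro i j
    rw [hermForm_def, Fin.sum_univ_three]
    simp only [toM, Matrix.of_apply]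
    rw [← psi_cj h5 hθ hF, ← psi_cj h5 hθ hF, ← psi_cj h5 hθ hF, ← psi_ml h5 hθ, ← psi_ml h5 hθ,
      ← psi_ml h5 hθ, ← psi_ad h5, ← psi_ad h5, huni i j]
    split_ifs
    · exact psi_one θ
    · exact psi_zero θ
  obtain ⟨e, he1, he2, he3⟩ := exists_coords hF hu
  have hM : ∀ u : Fin 3 → F, toM θ X *ᵥ u = ∑ j, u j • (fun i : Fin 3 => toM θ X i j) := by
    intro u
    funext i
    simp only [Matrix.mulVec, dotProduct, Finset.sum_apply, Pi.smul_apply, smul_eq_mul]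
    exact Finset.sum_congr rfl fun j _ => mul_comm _ _
  have heM : ∀ u : Fin 3 → F, e (toM θ X *ᵥ u) = u := by
    intro u
    rw [hM, map_sum]
    funext i
    rw [Finset.sum_apply, Finset.sum_eq_single i]
    · rw [map_smul, he1, Pi.smul_apply, Pi.single_eq_same, smul_eq_mul, mul_one]
    · intro j _ hji
      rw [map_smul, he1, Pi.smul_apply, Pi.single_eq_of_ne hji.symm, smul_zero]
    · intro h; exact absurd (Finset.mem_univ _) h
  have hpres : Pres 5 (toM θ X) := by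
    intro u v
    rw [he3, heM, heM, hermForm_def]
  have hd : (toM θ X).det = 1 := by rw [toM_det h5 hθ, hdet, psi_one]
  exact ⟨suHom 3 F 5 (mkSU _ hpres hd), suHom_mem _, by rw [suHom_coe, mkSU_coe]⟩

end link

end HF

end Cfsg.Agent.UCase
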