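import Mathlib
import Cfsg.Agent.UCase.HessFive

set_option autoImplicit false
set_option linter.unusedSectionVars false
set_option linter.unusedVariables false

/-!
`SU_3(5)`: the normaliser of an extraspecial group of order 27 is not maximal.
-/

namespace Cfsg.Agent.UCase

open scoped Matrix
open Cfsg.Geo Cfsg.Agent.Uni Cfsg.Agent.AschCases
open Matrix (GeneralLinearGroup)

namespace HF

open F25

variable {F : Type*} [Field F] [Fintype F] {θ : F}

theorem w_rel (h5 : (5 : F) = 0) (hθ : θ * θ = 2) : psi θ 12 * psi θ 12 + psi θ 12 + 1 = 0 := by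
  have h : psi θ 12 = 2 + 2 * θ := by simp [psi]
  rw [h]
  linear_combination 4 * hθ + (3 + 2 * θ) * h5

theorem elt_code (h5 : (5 : F) = 0) (hθ : θ * θ = 2) (e : ℕ) : psi θ (wp e) = psi θ 12 ^ e := by
  have h1 : psi θ 12 ^ 3 = 1 := by
    have h2 := w_rel h5 hθ
    linear_combination (psi θ 12 - 1) * h2
  have h12 : psi θ 17 = psi θ 12 ^ 2 := by
    rw [pow_two, ← psi_ml h5 hθ]
    congr 1
  unfold wp
  conv_rhs => rw [← Nat.div_add_mod e 3, pow_add, pow_mul, h1, one_pow, one_mul]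
  have h3 : e % 3 < 3 := Nat.mod_lt _ (by norm_num)
  generalize e % 3 = m at *
  interval_cases m
  · simp [psi_one]
  · simp
  · simp [h12]

theorem mul_eq_smul (h5 : (5 : F) = 0) (hθ : θ * θ = 2) (i j k : ℕ) :
    toM θ (elt i j k) = psi θ 12 ^ i • toM θ (elt 0 j k) := by
  ext r c
  simp only [toM, elt, Matrix.of_apply, Matrix.smul_apply, smul_eq_mul]
  split_ifs
  · rw [elt_code h5 hθ, elt_code h5 hθ, zero_add, pow_add]
  · rw [psi_zero, mul_zero]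

theorem elt_mul (h5 : (5 : F) = 0) (hθ : θ * θ = 2) (i j k : Fin 3) :
    toM θ (elt i j k) = toM θ (elt i 0 0) * toM θ (elt 0 j 0) * toM θ (elt 0 0 k) := by
  rw [← toM_mm h5 hθ, ← toM_mm h5 hθ]
  congr 1
  revert i j k
  decide +kernel

theorem toM_one (h5 : (5 : F) = 0) (hθ : θ * θ = 2) : toM θ (elt 0 0 0) = 1 := by
  ext r c
  simp only [toM, elt, Matrix.of_apply]
  rw [Matrix.one_apply]
  fin_cases r <;> fin_cases c <;> simp [wp, psi_zero, psi_one]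

theorem pow_help (h5 : (5 : F) = 0) (hθ : θ * θ = 2) {x : GL (Fin 3) F}
    {X : Fin 3 → Fin 3 → Fin 3 → ℕ} (h1 : (x : Matrix (Fin 3) (Fin 3) F) = toM θ (X 1))
    (h0 : X 0 = elt 0 0 0) (h2 : mm (X 1) (X 1) = X 2) (i : Fin 3) :
    ((x ^ i.1 : GL (Fin 3) F) : Matrix (Fin 3) (Fin 3) F) = toM θ (X i) := by
  fin_cases i
  · change ((x ^ 0 : GL (Fin 3) F) : Matrix (Fin 3) (Fin 3) F) = toM θ (X 0)
    rw [pow_zero, h0, toM_one h5 hθ, Units.val_one]
  · change ((x ^ 1 : GL (Fin 3) F) : Matrix (Fin 3) (Fin 3) F) = toM θ (X 1)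
    rw [pow_one, h1]
  · change ((x ^ 2 : GL (Fin 3) F) : Matrix (Fin 3) (Fin 3) F) = toM θ (X 2)
    rw [pow_two, Units.val_mul, h1, ← h2, toM_mm h5 hθ]

/-- The members of `R`. -/
theorem mem_iff (hF : Fintype.card F = 5 ^ 2) (h5 : (5 : F) = 0) (hθ : θ * θ = 2)
    {R : Subgroup (GL (Fin 3) F)} (hcard : Nat.card R = 27) {a b : GL (Fin 3) F} (ha : a ∈ R)
    (hb : b ∈ R) (haM : (a : Matrix (Fin 3) (Fin 3) F) = toM θ (elt 0 1 0))
    (hbM : (b : Matrix (Fin 3) (Fin 3) F) = toM θ (elt 0 0 1)) (x : GL (Fin 3) F) :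
    x ∈ R ↔ ∃ i j k : Fin 3, (x : Matrix (Fin 3) (Fin 3) F) = toM θ (elt i j k) := by
  -- the scalar
  let w : GL (Fin 3) F := a * b * a⁻¹ * b⁻¹
  have hw : w ∈ R := R.mul_mem (R.mul_mem (R.mul_mem ha hb) (R.inv_mem ha)) (R.inv_mem hb)
  have hwM : (w : Matrix (Fin 3) (Fin 3) F) = toM θ (elt 1 0 0) := by
    have h1 : (a : Matrix (Fin 3) (Fin 3) F) * b = toM θ (elt 1 0 0) * (b * a : GL (Fin 3) F) := by
      rw [Units.val_mul, haM, hbM, ← toM_mm h5 hθ, ← toM_mm h5 hθ, ← toM_mm h5 hθ]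
      congr 1
      decide +kernel
    have h2 : (w : Matrix (Fin 3) (Fin 3) F) = (a * b : GL (Fin 3) F) * ((b * a)⁻¹ : GL (Fin 3) F) := by
      rw [← Units.val_mul]
      congr 1
      simp only [w, mul_inv_rev]
      group
    rw [h2, Units.val_mul, h1, mul_assoc, ← Units.val_mul, mul_inv_cancel, Units.val_one, mul_one]
  have hpw : ∀ i : Fin 3, ((w ^ i.1 : GL (Fin 3) F) : Matrix (Fin 3) (Fin 3) F) = toM θ (elt i 0 0) :=
    pow_help h5 hθ (X := fun i => elt i.1 0 0) hwM rfl (by decide +kernel)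
  have hpa : ∀ i : Fin 3, ((a ^ i.1 : GL (Fin 3) F) : Matrix (Fin 3) (Fin 3) F) = toM θ (elt 0 i 0) :=
    pow_help h5 hθ (X := fun i => elt 0 i.1 0) haM rfl (by decide +kernel)
  have hpb : ∀ i : Fin 3, ((b ^ i.1 : GL (Fin 3) F) : Matrix (Fin 3) (Fin 3) F) = toM θ (elt 0 0 i) :=
    pow_help h5 hθ (X := fun i => elt 0 0 i.1) hbM rfl (by decide +kernel)
  have hall : ∀ i j k : Fin 3, ((w ^ i.1 * a ^ j.1 * b ^ k.1 : GL (Fin 3) F) :
      Matrix (Fin 3) (Fin 3) F) = toM θ (elt i j k) := by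
    intro i j k
    rw [Units.val_mul, Units.val_mul, hpw, hpa, hpb, elt_mul h5 hθ i j k]
  let φ : Fin 3 × Fin 3 × Fin 3 → R := fun t => ⟨w ^ t.1.1 * a ^ t.2.1.1 * b ^ t.2.2.1,
    R.mul_mem (R.mul_mem (R.pow_mem hw _) (R.pow_mem ha _)) (R.pow_mem hb _)⟩
  have hφ : Function.Injective φ := by
    rintro ⟨i, j, k⟩ ⟨i', j', k'⟩ h
    have h1 : (w ^ i.1 * a ^ j.1 * b ^ k.1 : GL (Fin 3) F) = w ^ i'.1 * a ^ j'.1 * b ^ k'.1 :=
      congrArg Subtype.val h
    have h2 := congrArg (fun g : GL (Fin 3) F => (g : Matrix (Fin 3) (Fin 3) F)) h1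
    rw [hall, hall] at h2
    have h3 := toM_inj h5 hθ (elt_lt _ _ _) (elt_lt _ _ _) h2
    obtain ⟨r1, r2, r3⟩ := elt_inj i j k i' j' k' h3
    rw [r1, r2, r3]
  have hfin : Finite R := Nat.finite_of_card_ne_zero (by rw [hcard]; norm_num)
  have : Fintype R := Fintype.ofFinite R
  have hbij : Function.Bijective φ := by
    rw [Fintype.bijective_iff_injective_and_card]
    refine ⟨hφ, ?_⟩
    rw [← Nat.card_eq_fintype_card (α := R), hcard]
    simp
  constructor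
  · intro hx
    obtain ⟨⟨i, j, k⟩, h⟩ := hbij.2 ⟨x, hx⟩
    refine ⟨i, j, k, ?_⟩
    rw [← hall]
    exact congrArg (fun g : R => ((g : GL (Fin 3) F) : Matrix (Fin 3) (Fin 3) F)) h.symm
  · rintro ⟨i, j, k, h⟩
    have : x = w ^ i.1 * a ^ j.1 * b ^ k.1 := Units.ext (by rw [h, hall])
    rw [this]
    exact R.mul_mem (R.mul_mem (R.pow_mem hw _) (R.pow_mem ha _)) (R.pow_mem hb _)

end HF

end Cfsg.Agent.UCase
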