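import Mathlib
import Cfsg.Agent.UCase.HessFiveB

set_option autoImplicit false
set_option linter.unusedSectionVars false
set_option linter.unusedVariables false

/-!
`SU_3(5)`: the normaliser of an extraspecial group of order 27 is not maximal.
-/

namespace Cfsg.Agent.UCase

open scoped Matrix
open Cfsg.Geo Cfsg.Agent.Uni Cfsg.Agent.AschCases
open Matrix (GeneralLinearGroup)

namespace HF

open F25

variable {F : Type*} [Field F] [Fintype F] {θ : F}

/-- A diagonal matrix normalising `R`. -/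
theorem diag_aux {d : Fin 3 → F} {w : F} (hw : w * w + w + 1 = 0) (h3 : (3 : F) ≠ 0)
    (hd6 : ∀ i, d i ^ 6 = 1) (hprod : d 0 * d 1 * d 2 = 1) {i j : ℕ} (hj : j < 3)
    (h1 : d 1 = w ^ (i + j) * d 0) (h2 : d 2 = w ^ (i + 2 * j) * d 1) : j = 0 := by
  have hw3 : w ^ 3 = 1 := by linear_combination (w - 1) * hw
  have e1 : d 0 ^ 3 * (w ^ 3) ^ (i + j) * w ^ j = 1 := by
    rw [← hprod, h2, h1]
    ring
  rw [hw3, one_pow, mul_one] at e1
  have e2 : w ^ (2 * j) = 1 := by
    have : (d 0 ^ 3 * w ^ j) ^ 2 = d 0 ^ 6 * w ^ (2 * j) := by ring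
    rw [e1, hd6, one_pow, one_mul] at this
    exact this.symm
  interval_cases j
  · rfl
  · exfalso
    rw [mul_one] at e2
    have e3 : w = -2 := by linear_combination hw - e2
    apply h3
    rw [e3] at hw
    linear_combination hw
  · exfalso
    have e4 : w = 1 := by
      have : w ^ (2 * 2) = w ^ 3 * w := by ring
      rw [this, hw3, one_mul] at e2
      exact e2
    apply h3
    rw [e4] at hw
    linear_combination hw

theorem hess_le (hF : Fintype.card F = 5 ^ 2) (h5 : (5 : F) = 0) (hθ : θ * θ = 2)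
    {R : Subgroup (GL (Fin 3) F)} (hcard : Nat.card R = 27) {a b : GL (Fin 3) F} (ha : a ∈ R)
    (hb : b ∈ R) (haM : (a : Matrix (Fin 3) (Fin 3) F) = toM θ (elt 0 1 0))
    (hbM : (b : Matrix (Fin 3) (Fin 3) F) = toM θ (elt 0 0 1)) :
    subgroupNormalizer R ⊓ SG 3 F 5 ≤ Six.KK 3 F 5 (SS θ) := by
  have hmem := mem_iff hF h5 hθ hcard ha hb haM hbM
  have hw := w_rel h5 hθ
  have hw0 : psi θ 12 ≠ 0 := by
    intro h
    rw [h] at hw
    norm_num at hw
  have h30 : (3 : F) ≠ 0 := by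
    intro h
    have := cast_ne_zero_of_lt h5 (a := 3) (by norm_num) (by exact_mod_cast h)
    omega
  have hw3 : psi θ 12 ^ 3 = 1 := by linear_combination (psi θ 12 - 1) * hw
  have hw1 : psi θ 12 ≠ 1 := by
    intro h
    apply h30
    rw [h] at hw
    linear_combination hw
  obtain ⟨b', hb'S, hb'M⟩ := exists_SU hF h5 hθ elt_SU2
  have hbb : b = b' := Units.ext (by rw [hbM, hb'M])
  have hbS : b ∈ SG 3 F 5 := hbb ▸ hb'S
  have hbK : b ∈ Six.KK 3 F 5 (SS θ) :=
    mem_KK_of_forward hbS (fun x hx => by rw [hbM]; exact prs_SS h5 hθ elt_prs2 hx)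
  have hfinR : Finite R := Nat.finite_of_card_ne_zero (by rw [hcard]; norm_num)
  rintro g ⟨hgN, hgS⟩
  have hgR : ∀ x ∈ R, g * x * g⁻¹ ∈ R := fun x hx => (Subgroup.mem_normalizer_iff.1 hgN x).1 hx
  obtain ⟨i, j, k, hE⟩ := (hmem _).1 (hgR a ha)
  have hGA : (g : Matrix (Fin 3) (Fin 3) F) * toM θ (elt 0 1 0) = toM θ (elt i j k) * g := by
    rw [← hE, ← haM, ← Units.val_mul, ← Units.val_mul]
    congr 1
    group
  have hjk : ¬ (j = 0 ∧ k = 0) := by
    rintro ⟨rfl, rfl⟩
    have h1 : toM θ (elt 0 1 0) = toM θ (elt i.1 0 0) := by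
      have h2 : (g : Matrix (Fin 3) (Fin 3) F) * toM θ (elt 0 1 0) =
          g * toM θ (elt i.1 0 0) := by
        rw [hGA, mul_eq_smul h5 hθ i.1 ((0 : Fin 3) : ℕ) ((0 : Fin 3) : ℕ), mul_eq_smul h5 hθ i.1 0 0]
        change (psi θ 12 ^ i.1 • toM θ (elt 0 0 0)) * (g : Matrix (Fin 3) (Fin 3) F) = _
        rw [toM_one h5 hθ, Matrix.smul_mul, Matrix.one_mul, Matrix.mul_smul, Matrix.mul_one]
      have h3 : ((g⁻¹ : GL (Fin 3) F) : Matrix (Fin 3) (Fin 3) F) * g = 1 := by
        rw [← Units.val_mul, inv_mul_cancel, Units.val_one]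
      calc toM θ (elt 0 1 0) = ((g⁻¹ : GL (Fin 3) F) : Matrix (Fin 3) (Fin 3) F) *
            (g * toM θ (elt 0 1 0)) := by rw [← mul_assoc, h3, one_mul]
        _ = toM θ (elt i.1 0 0) := by rw [h2, ← mul_assoc, h3, one_mul]
    have h4 := toM_inj h5 hθ (elt_lt _ _ _) (elt_lt _ _ _) h1
    have h5' := elt_inj 0 1 0 i 0 0 h4
    exact absurd h5'.2.1 (by decide)
  obtain ⟨hm, hh, s, hs⟩ := HL_D i j k hjk
  obtain ⟨h, hhS, hhM⟩ := exists_SU hF h5 hθ (List.all_eq_true.1 HL_SU hm hh)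
  have hhK : h ∈ Six.KK 3 F 5 (SS θ) :=
    mem_KK_of_forward hhS (fun x hx => by
      rw [hhM]; exact prs_SS h5 hθ (List.all_eq_true.1 HL_prs hm hh) hx)
  have hhN : h ∈ Subgroup.normalizer (R : Set (GL (Fin 3) F)) := by
    have : Finite (R : Set (GL (Fin 3) F)) := hfinR
    apply Subgroup.mem_normalizer_fintype
    intro x hx
    obtain ⟨i', j', k', hx'⟩ := (hmem x).1 hx
    obtain ⟨i₂, hi₂, j₂, hj₂, k₂, hk₂, h2⟩ := HL_norm hm hh j' j'.2 k' k'.2
    refine (hmem _).2 ?_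
    have h3 : ((h * x * h⁻¹ : GL (Fin 3) F) : Matrix (Fin 3) (Fin 3) F) =
        psi θ 12 ^ i'.1 • toM θ (elt i₂ j₂ k₂) := by
      rw [Units.val_mul, Units.val_mul, hhM, hx', mul_eq_smul h5 hθ, Matrix.mul_smul, ← toM_mm h5 hθ,
        h2, toM_mm h5 hθ, ← hhM, Matrix.smul_mul, mul_assoc, ← Units.val_mul, mul_inv_cancel,
        Units.val_one, mul_one]
    have h4 : psi θ 12 ^ i'.1 • toM θ (elt i₂ j₂ k₂) = toM θ (elt ((i'.1 + i₂) % 3) j₂ k₂) := by
      rw [mul_eq_smul h5 hθ i₂, mul_eq_smul h5 hθ ((i'.1 + i₂) % 3), smul_smul, ← pow_add]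
      congr 1
      conv_lhs => rw [← Nat.div_add_mod (i'.1 + i₂) 3, pow_add, pow_mul, hw3, one_pow, one_mul]
    exact ⟨⟨(i'.1 + i₂) % 3, Nat.mod_lt _ (by norm_num)⟩, ⟨j₂, hj₂⟩, ⟨k₂, hk₂⟩, by rw [h3, h4]⟩
  -- the diagonal element
  let nn : GL (Fin 3) F := h⁻¹ * g * b ^ s.1
  have hnN : nn ∈ Subgroup.normalizer (R : Set (GL (Fin 3) F)) :=
    Subgroup.mul_mem _ (Subgroup.mul_mem _ (Subgroup.inv_mem _ hhN) hgN)
      (Subgroup.le_normalizer (R.pow_mem hb _))
  have hnS : nn ∈ SG 3 F 5 :=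
    Subgroup.mul_mem _ (Subgroup.mul_mem _ (Subgroup.inv_mem _ hhS) hgS) (Subgroup.pow_mem _ hbS _)
  suffices hnK : nn ∈ Six.KK 3 F 5 (SS θ) by
    have : g = h * nn * (b ^ s.1)⁻¹ := by simp only [nn]; group
    rw [this]
    exact Subgroup.mul_mem _ (Subgroup.mul_mem _ hhK hnK) (Subgroup.inv_mem _ (Subgroup.pow_mem _ hbK _))
  have hpb : ((b ^ s.1 : GL (Fin 3) F) : Matrix (Fin 3) (Fin 3) F) = toM θ (elt 0 0 s) :=
    pow_help h5 hθ (X := fun i => elt 0 0 i.1) hbM rfl (by decide +kernel) s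
  have hcomm : (nn : Matrix (Fin 3) (Fin 3) F) * toM θ (elt 0 1 0) = toM θ (elt 0 1 0) * nn := by
    have e1 : (h : Matrix (Fin 3) (Fin 3) F) * (psi θ 12 ^ s.1 • toM θ (elt 0 1 0)) =
        toM θ (elt i j k) * h := by
      have := congrArg (toM θ) hs
      rw [toM_mm h5 hθ, toM_mm h5 hθ, toM_mm h5 hθ, mul_eq_smul h5 hθ s.1 0 0, toM_one h5 hθ,
        Matrix.smul_mul, Matrix.one_mul, ← hhM] at this
      exact this
    have hinv : ((h⁻¹ : GL (Fin 3) F) : Matrix (Fin 3) (Fin 3) F) * h = 1 := by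
      rw [← Units.val_mul, inv_mul_cancel, Units.val_one]
    have hinv' : (h : Matrix (Fin 3) (Fin 3) F) * ((h⁻¹ : GL (Fin 3) F) : Matrix (Fin 3) (Fin 3) F) = 1 := by
      rw [← Units.val_mul, mul_inv_cancel, Units.val_one]
    have e2 : ((h⁻¹ : GL (Fin 3) F) : Matrix (Fin 3) (Fin 3) F) * toM θ (elt i j k) =
        (psi θ 12 ^ s.1 • toM θ (elt 0 1 0)) * ((h⁻¹ : GL (Fin 3) F) : Matrix (Fin 3) (Fin 3) F) := by
      calc _ = ((h⁻¹ : GL (Fin 3) F) : Matrix (Fin 3) (Fin 3) F) * (toM θ (elt i j k) * h) *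
            ((h⁻¹ : GL (Fin 3) F) : Matrix (Fin 3) (Fin 3) F) := by
              rw [mul_assoc, mul_assoc, hinv', mul_one]
        _ = _ := by rw [← e1, ← mul_assoc, hinv, one_mul]
    have e3 : toM θ (elt 0 1 0) * toM θ (elt 0 0 s) =
        psi θ 12 ^ s.1 • (toM θ (elt 0 0 s) * toM θ (elt 0 1 0)) := by
      have : ∀ s : Fin 3, mm (elt 0 1 0) (elt 0 0 s) = mm (elt s 0 0) (mm (elt 0 0 s) (elt 0 1 0)) := by
        decide +kernel
      rw [← toM_mm h5 hθ, this s, toM_mm h5 hθ, toM_mm h5 hθ, mul_eq_smul h5 hθ s.1 0 0, toM_one h5 hθ,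
        Matrix.smul_mul, Matrix.one_mul]
    have e4 : psi θ 12 ^ s.1 • ((nn : Matrix (Fin 3) (Fin 3) F) * toM θ (elt 0 1 0)) =
        psi θ 12 ^ s.1 • (toM θ (elt 0 1 0) * nn) := by
      simp only [nn]
      rw [Units.val_mul, Units.val_mul, hpb]
      calc psi θ 12 ^ s.1 • (((h⁻¹ : GL (Fin 3) F) : Matrix (Fin 3) (Fin 3) F) * g * toM θ (elt 0 0 s) *
            toM θ (elt 0 1 0)) = ((h⁻¹ : GL (Fin 3) F) : Matrix (Fin 3) (Fin 3) F) * g *
              (psi θ 12 ^ s.1 • (toM θ (elt 0 0 s) * toM θ (elt 0 1 0))) := by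
              rw [Matrix.mul_smul]
              simp only [mul_assoc]
        _ = ((h⁻¹ : GL (Fin 3) F) : Matrix (Fin 3) (Fin 3) F) * (g * toM θ (elt 0 1 0)) *
              toM θ (elt 0 0 s) := by
              rw [← e3]
              simp only [mul_assoc]
        _ = ((h⁻¹ : GL (Fin 3) F) : Matrix (Fin 3) (Fin 3) F) * toM θ (elt i j k) * g *
              toM θ (elt 0 0 s) := by
              rw [hGA]
              simp only [mul_assoc]
        _ = _ := by
              rw [e2, Matrix.smul_mul, Matrix.smul_mul, Matrix.smul_mul]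
              simp only [mul_assoc]
    have hws : psi θ 12 ^ s.1 ≠ 0 := pow_ne_zero _ hw0
    exact smul_right_injective _ hws e4
  -- diagonal
  have hdA : ∀ r c : Fin 3, toM θ (elt 0 1 0) r c = if r = c then psi θ 12 ^ r.1 else 0 := by
    intro r c
    simp only [toM, elt, Matrix.of_apply, zero_add, one_mul, add_zero]
    by_cases hrc : r = c
    · subst hrc
      rw [if_pos (by omega), if_pos rfl, elt_code h5 hθ]
    · rw [if_neg (by omega), if_neg hrc, psi_zero]
  have hNA : ∀ r c : Fin 3, (nn : Matrix (Fin 3) (Fin 3) F) r c * psi θ 12 ^ c.1 =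
      psi θ 12 ^ r.1 * (nn : Matrix (Fin 3) (Fin 3) F) r c := by
    intro r c
    have := congrFun (congrFun hcomm r) c
    rw [Matrix.mul_apply, Matrix.mul_apply, Finset.sum_eq_single c, Finset.sum_eq_single r, hdA, hdA,
      if_pos rfl, if_pos rfl] at this
    · exact this
    · intro x _ hx
      rw [hdA, if_neg hx.symm, zero_mul]
    · intro h; exact absurd (Finset.mem_univ _) h
    · intro x _ hx
      rw [hdA, if_neg hx, mul_zero]
    · intro h; exact absurd (Finset.mem_univ _) h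
  have hpow_ne : ∀ r c : Fin 3, r ≠ c → psi θ 12 ^ c.1 - psi θ 12 ^ r.1 ≠ 0 := by
    have h01 : psi θ 12 - 1 ≠ 0 := sub_ne_zero.2 hw1
    have h02 : psi θ 12 ^ 2 - 1 ≠ 0 := by
      intro h
      apply h01
      linear_combination hw3 - psi θ 12 * h
    intro r c hrc hzero
    fin_cases r <;> fin_cases c
    · exact hrc rfl
    · apply h01; simpa using hzero
    · apply h02; simpa using hzero
    · apply h01
      simp only [Fin.mk_one, Fin.isValue, Fin.coe_ofNat_eq_mod, Nat.one_mod, pow_one] at hzero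
      simp at hzero
      linear_combination -hzero
    · exact hrc rfl
    · apply mul_ne_zero hw0 h01
      simp at hzero
      linear_combination hzero
    · apply h02
      simp at hzero
      linear_combination -hzero
    · apply mul_ne_zero hw0 h01
      simp at hzero
      linear_combination -hzero
    · exact hrc rfl
  have hdiag : ∀ r c : Fin 3, r ≠ c → (nn : Matrix (Fin 3) (Fin 3) F) r c = 0 := by
    intro r c hrc
    have h1 := hNA r c
    have h2 : (nn : Matrix (Fin 3) (Fin 3) F) r c * (psi θ 12 ^ c.1 - psi θ 12 ^ r.1) = 0 := by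
      linear_combination h1
    exact (mul_eq_zero.1 h2).resolve_right (hpow_ne r c hrc)
  let d : Fin 3 → F := fun i => (nn : Matrix (Fin 3) (Fin 3) F) i i
  have hND : (nn : Matrix (Fin 3) (Fin 3) F) = Matrix.diagonal d := by
    ext r c
    rw [Matrix.diagonal_apply]
    by_cases hrc : r = c
    · subst hrc; rw [if_pos rfl]
    · rw [if_neg hrc, hdiag r c hrc]
  have hdet : d 0 * d 1 * d 2 = 1 := by
    have := mem_specialLinear.1 hnS.2
    rw [hND, Matrix.det_diagonal, Fin.prod_univ_three] at this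
    exact this
  have hd6 : ∀ i, d i ^ 6 = 1 := by
    intro i
    have h1 : hermForm 3 F 5 ((nn : Matrix (Fin 3) (Fin 3) F) *ᵥ (Pi.single i 1))
        ((nn : Matrix (Fin 3) (Fin 3) F) *ᵥ (Pi.single i 1)) = hermForm 3 F 5 (Pi.single i 1) (Pi.single i 1) :=
      hnS.1 _ _
    have h2 : (nn : Matrix (Fin 3) (Fin 3) F) *ᵥ (Pi.single i 1) = d i • (Pi.single i 1 : Fin 3 → F) := by
      rw [hND]
      funext r
      rw [Matrix.mulVec_diagonal, Pi.smul_apply, smul_eq_mul]
      by_cases hr : r = i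
      · subst hr; rfl
      · rw [Pi.single_eq_of_ne hr, mul_zero, mul_zero]
    rw [h2, hermForm_smul_left, hermForm_smul_right, hermForm_single_left, Pi.single_eq_same, one_pow,
      mul_one] at h1
    rw [← h1]; ring
  have hd0 : ∀ i, d i ≠ 0 := by
    intro i h
    have := hd6 i
    rw [h] at this
    norm_num at this
  -- the conjugate of `b`
  obtain ⟨i', j', k', hE'⟩ := (hmem _).1 ((Subgroup.mem_normalizer_iff.1 hnN b).1 hb)
  have hNB : (nn : Matrix (Fin 3) (Fin 3) F) * toM θ (elt 0 0 1) = toM θ (elt i' j' k') * nn := by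
    rw [← hE', ← hbM, ← Units.val_mul, ← Units.val_mul]
    congr 1
    group
  have hent : ∀ r c : Fin 3, d r * (if r.1 = (c.1 + 1) % 3 then 1 else 0) =
      (if r.1 = (c.1 + k'.1) % 3 then psi θ 12 ^ (i'.1 + j'.1 * r.1) else 0) * d c := by
    intro r c
    have := congrFun (congrFun hNB r) c
    rw [hND, Matrix.diagonal_mul, Matrix.mul_diagonal] at this
    simp only [toM, elt, Matrix.of_apply] at this
    have e1 : psi θ (if r.1 = (c.1 + 1) % 3 then wp (0 + 0 * r.1) else 0) =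
        if r.1 = (c.1 + 1) % 3 then 1 else 0 := by
      split_ifs
      · rw [elt_code h5 hθ]; simp
      · exact psi_zero θ
    have e2 : psi θ (if r.1 = (c.1 + k'.1) % 3 then wp (i'.1 + j'.1 * r.1) else 0) =
        if r.1 = (c.1 + k'.1) % 3 then psi θ 12 ^ (i'.1 + j'.1 * r.1) else 0 := by
      split_ifs
      · rw [elt_code h5 hθ]
      · exact psi_zero θ
    rw [e1, e2] at this
    exact this
  have hk1 : k'.1 = 1 := by
    by_contra hk
    have h1 := hent 1 0
    rw [if_pos (by rfl), if_neg, zero_mul, mul_one] at h1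
    · exact hd0 1 h1
    · have := k'.2
      change ¬ (1 = (0 + k'.1) % 3)
      omega
  have h10 : d 1 = psi θ 12 ^ (i'.1 + j'.1) * d 0 := by
    have h1 := hent 1 0
    rw [if_pos (by rfl), if_pos (by rw [hk1]; rfl), mul_one] at h1
    rw [h1]
    congr 2
    change i'.1 + j'.1 * 1 = _
    rw [mul_one]
  have h21 : d 2 = psi θ 12 ^ (i'.1 + 2 * j'.1) * d 1 := by
    have h1 := hent 2 1
    rw [if_pos (by rfl), if_pos (by rw [hk1]; rfl), mul_one] at h1
    rw [h1]
    congr 2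
    change i'.1 + j'.1 * 2 = _
    ring
  have hj0 := diag_aux hw h30 hd6 hdet j'.2 h10 h21
  rw [hj0, add_zero] at h10
  rw [hj0, mul_zero, add_zero] at h21
  have hA : ∀ x, SS θ x → SS θ (toM θ (elt 0 1 0) *ᵥ x) := fun x hx => prs_SS h5 hθ elt_prs1 hx
  have hA' : ∀ m : ℕ, ∀ x, SS θ x → SS θ ((fun r : Fin 3 => psi θ 12 ^ (m * r.1) * x r)) := by
    intro m
    induction m with
    | zero => intro x hx; simpa using hx
    | succ m ih =>
      intro x hx
      have h1 := ih _ (hA x hx)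
      convert h1 using 1
      funext r
      have h2 : (toM θ (elt 0 1 0) *ᵥ x) r = psi θ 12 ^ r.1 * x r := by
        rw [Matrix.mulVec, dotProduct, Finset.sum_eq_single r]
        · rw [hdA, if_pos rfl]
        · intro y _ hy
          rw [hdA, if_neg hy.symm, zero_mul]
        · intro h; exact absurd (Finset.mem_univ _) h
      rw [h2]
      ring
  refine mem_KK_of_forward hnS fun x hx => ?_
  have h1 := SS_scale (hd0 0) (hA' i'.1 x hx)
  convert h1 using 1
  funext r
  rw [hND, Matrix.mulVec_diagonal, Pi.smul_apply, smul_eq_mul]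
  fin_cases r
  · simp
  · change d 1 * x 1 = d 0 * (psi θ 12 ^ (i'.1 * 1) * x 1)
    rw [h10]
    ring
  · change d 2 * x 2 = d 0 * (psi θ 12 ^ (i'.1 * 2) * x 2)
    rw [h21, h10]
    ring

/-- The standard case. -/
theorem hess_std (hF : Fintype.card F = 5 ^ 2) (h5 : (5 : F) = 0) (hθ : θ * θ = 2)
    {R : Subgroup (GL (Fin 3) F)} (hcard : Nat.card R = 27) {a b : GL (Fin 3) F} (ha : a ∈ R)
    (hb : b ∈ R) (haM : (a : Matrix (Fin 3) (Fin 3) F) = toM θ (elt 0 1 0))
    (hbM : (b : Matrix (Fin 3) (Fin 3) F) = toM θ (elt 0 0 1)) :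
    ∃ K : Subgroup (GL (Fin 3) F), subgroupNormalizer R ⊓ SG 3 F 5 < K ∧ K < SG 3 F 5 := by
  have hmem := mem_iff hF h5 hθ hcard ha hb haM hbM
  obtain ⟨t, htS, htM⟩ := exists_SU hF h5 hθ Tu_SU
  have htK : t ∈ Six.KK 3 F 5 (SS θ) :=
    mem_KK_of_forward htS (fun x hx => by rw [htM]; exact prs_SS h5 hθ Tu_prs hx)
  refine ⟨Six.KK 3 F 5 (SS θ), lt_of_le_of_ne (hess_le hF h5 hθ hcard ha hb haM hbM) ?_,
    lt_of_le_of_ne (fun g hg => hg.1) ?_⟩
  · intro heq
    rw [← heq] at htK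
    obtain ⟨i, j, k, hE⟩ := (hmem _).1 ((Subgroup.mem_normalizer_iff.1 htK.1 a).1 ha)
    have htt : t * t = 1 := by
      apply Units.ext
      rw [Units.val_mul, htM, ← toM_mm h5 hθ, Tu_Tu, toM_one h5 hθ, Units.val_one]
    have hti : t⁻¹ = t := inv_eq_of_mul_eq_one_left htt
    rw [hti, Units.val_mul, Units.val_mul, htM, haM, ← toM_mm h5 hθ, ← toM_mm h5 hθ] at hE
    exact Tu_D i i.2 j j.2 k k.2 (toM_inj h5 hθ (mm_lt _ _) (elt_lt _ _ _) hE)
  · intro heq
    let x : Fin 3 → F := vec θ (0, 1, 2)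
    have h25 : (2 : F) ^ 5 = 2 := by linear_combination 6 * h5
    have hx2 : psi θ 2 = 2 := by simp [psi]
    have hfx : ∀ y, hermForm 3 F 5 y x = y 1 + y 2 * 2 := by
      intro y
      rw [hermForm_def, Fin.sum_univ_three]
      simp [x, vec, psi_zero, psi_one, hx2, h25]
    have hxx : hermForm 3 F 5 x x = 0 := by
      rw [hfx]
      simp only [x, vec, psi_zero, psi_one, hx2]
      simp
      linear_combination h5
    have hθ5 : θ ^ 5 = -θ := by
      calc θ ^ 5 = (θ * θ) * (θ * θ) * θ := by ring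
        _ = -θ := by rw [hθ]; linear_combination θ * h5
    obtain ⟨g, hg, hgx⟩ := exists_transv_SG (c := θ) hF hxx hθ5
    rw [← heq] at hg
    have hp0 : SS θ (vec θ (0, 1, 4)) := ⟨1, one_ne_zero, (0, 1, 4), by decide +kernel, by rw [one_smul]⟩
    have h1 := (hg.2 (vec θ (0, 1, 4))).2 hp0
    have h2 : (g : Matrix (Fin 3) (Fin 3) F) *ᵥ (vec θ (0, 1, 4)) = vec θ (0, 21, 19) := by
      rw [hgx, hfx]
      have e4 : psi θ 4 = 4 := by simp [psi]
      have e21 : psi θ 21 = 1 + 4 * θ := by simp [psi]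
      have e19 : psi θ 19 = 4 + 3 * θ := by simp [psi]
      funext r
      fin_cases r
      · simp [x, vec, psi_zero]
      · simp [x, vec, psi_zero, psi_one, e4, e21]
        linear_combination θ * h5
      · simp [x, vec, psi_zero, psi_one, e4, e19, hx2]
        linear_combination 3 * θ * h5
    rw [h2] at h1
    obtain ⟨c, hc, p, hp, hcp⟩ := h1
    obtain ⟨k, hk, rfl⟩ := psi_surj h5 hθ hF c
    obtain ⟨l1, l2, l3⟩ := LL_lt p hp
    apply bad k hk p hp
    have hz : ∀ i, vec θ (0, 21, 19) i = psi θ k * vec θ p i := fun i => congrFun hcp i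
    refine ⟨?_, ?_, ?_⟩
    · have := hz 0
      simp only [vec, Matrix.cons_val_zero] at this
      rw [← psi_ml h5 hθ] at this
      exact (psi_inj h5 hθ (by norm_num) (ml_lt _ _) this).symm
    · have := hz 1
      simp only [vec, Matrix.cons_val_one, Matrix.cons_val_zero] at this
      rw [← psi_ml h5 hθ] at this
      exact (psi_inj h5 hθ (by norm_num) (ml_lt _ _) this).symm
    · have := hz 2
      simp only [vec, Matrix.cons_val] at this
      rw [← psi_ml h5 hθ] at this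
      exact (psi_inj h5 hθ (by norm_num) (ml_lt _ _) this).symm

end HF

end Cfsg.Agent.UCase
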