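import Mathlib
import Cfsg.Agent.UCase.HessFiveC
import Cfsg.Agent.UCase.Arith

set_option autoImplicit false
set_option linter.unusedSectionVars false
set_option linter.unusedVariables false

/-!
`SU_3(5)`: the normaliser of an extraspecial group of order 27 is not maximal.
-/

namespace Cfsg.Agent.UCase

open scoped Matrix
open Cfsg.Geo Cfsg.Agent.Uni Cfsg.Agent.AschCases
open Matrix (GeneralLinearGroup)

namespace HF

open F25

/-- Transport of an intermediate group. -/
theorem between_comap {G : Type*} [Group G] (φ : G ≃* G) {A A' S : Subgroup G}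
    (hA : ∀ x, x ∈ A ↔ φ x ∈ A') (hS : ∀ x, x ∈ S ↔ φ x ∈ S)
    (h : ∃ K : Subgroup G, A' < K ∧ K < S) : ∃ K : Subgroup G, A < K ∧ K < S := by
  obtain ⟨K, h1, h2⟩ := h
  have e1 : A = A'.comap φ.toMonoidHom := by
    ext x; exact hA x
  have e2 : S = S.comap φ.toMonoidHom := by
    ext x; exact hS x
  refine ⟨K.comap φ.toMonoidHom, ?_, ?_⟩
  · rw [e1]
    exact (Subgroup.comap_lt_comap_of_surjective φ.surjective).2 h1
  · rw [e2]
    exact (Subgroup.comap_lt_comap_of_surjective φ.surjective).2 h2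

variable {F : Type*} [Field F] [Fintype F] {θ : F}

/-- Commutators are central. -/
theorem comm_central {G : Type*} [Group G] (hcard : Nat.card G = 27)
    (hZ : Nat.card (Subgroup.center G) = 3) (x y : G) : x * y * x⁻¹ * y⁻¹ ∈ Subgroup.center G := by
  have hq : Nat.card (G ⧸ Subgroup.center G) = 3 ^ 2 := by
    have := Subgroup.card_eq_card_quotient_mul_card_subgroup (Subgroup.center G)
    rw [hcard, hZ] at this
    omega
  have : Fact (Nat.Prime 3) := ⟨Nat.prime_three⟩
  have hc := (IsPGroup.isMulCommutative_of_card_eq_prime_sq hq).is_comm.comm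
  rw [← QuotientGroup.eq_one_iff]
  have h1 := hc (QuotientGroup.mk x) (QuotientGroup.mk y)
  rw [QuotientGroup.mk_mul, QuotientGroup.mk_mul, QuotientGroup.mk_mul, h1]
  simp

/-- The Hessian group of `SU_3(5)` is not maximal. -/
theorem hess_five (hF : Fintype.card F = 5 ^ 2) {R : Subgroup (GL (Fin 3) F)}
    (hR : IsSymplecticTypeGroup 3 R) (hirr : ActsAbsolutelyIrreducibly (matrixSet R))
    (hsim : R ≤ similarityGroup (hermForm 3 F 5)) (hcard : Nat.card R = 27)
    (hZ : Nat.card (Subgroup.center R) = 3) :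
    ∃ K : Subgroup (GL (Fin 3) F), subgroupNormalizer R ⊓ SG 3 F 5 < K ∧ K < SG 3 F 5 := by
  have h5 := five_eq_zero hF
  obtain ⟨θ, hθ⟩ := exists_theta hF
  have hexp : Monoid.exponent R = 3 := by
    rw [hR.exponent_eq]
    norm_num
  have hGU : R ≤ GU 3 F 5 := le_GU_of_similarity hF (by norm_num) hexp (by norm_num) hsim
  have hw := w_rel h5 hθ
  have h30 : (3 : F) ≠ 0 := by
    intro h
    have := cast_ne_zero_of_lt h5 (a := 3) (by norm_num) (by exact_mod_cast h)
    omega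
  have h20 : (2 : F) ≠ 0 := by
    intro h
    have := cast_ne_zero_of_lt h5 (a := 2) (by norm_num) (by exact_mod_cast h)
    omega
  set w := psi θ 12 with hwdef
  have hw3 : w ^ 3 = 1 := by linear_combination (w - 1) * hw
  have hw1 : w ≠ 1 := by
    intro h
    apply h30
    rw [h] at hw
    linear_combination hw
  have hpow3 : ∀ x ∈ R, x ^ 3 = 1 := by
    intro x hx
    have := Monoid.pow_exponent_eq_one (⟨x, hx⟩ : R)
    rw [hexp] at this
    exact congrArg Subtype.val this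
  -- two elements
  obtain ⟨a, ha, b, hb, hab⟩ : ∃ a ∈ R, ∃ b ∈ R, (a : Matrix (Fin 3) (Fin 3) F) * b = w • ((b : Matrix (Fin 3) (Fin 3) F) * a) := by
    have hnc : ∃ x y : R, x * y ≠ y * x := by
      by_contra hcon
      push Not at hcon
      have : Subgroup.center R = ⊤ := by
        rw [eq_top_iff]
        intro x _
        exact Subgroup.mem_center_iff.2 fun y => hcon y x
      rw [this, Subgroup.card_top, hcard] at hZ
      omega
    obtain ⟨x, y, hxy⟩ := hnc
    have hz := comm_central hcard hZ x y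
    obtain ⟨c, hc⟩ := hirr.2 (((x * y * x⁻¹ * y⁻¹ : R) : GL (Fin 3) F) : Matrix (Fin 3) (Fin 3) F) (by
      rintro _ ⟨s, hs, rfl⟩
      have h1 := Subgroup.mem_center_iff.1 hz ⟨s, hs⟩
      have h2 := congrArg (fun r : R => ((r : GL (Fin 3) F) : Matrix (Fin 3) (Fin 3) F)) h1
      simp only [Subgroup.coe_mul, Units.val_mul] at h2 ⊢
      exact h2.symm)
    have hxyc : ((x : GL (Fin 3) F) : Matrix (Fin 3) (Fin 3) F) * ((y : GL (Fin 3) F) : Matrix (Fin 3) (Fin 3) F) =
        c • (((y : GL (Fin 3) F) : Matrix (Fin 3) (Fin 3) F) * ((x : GL (Fin 3) F) : Matrix (Fin 3) (Fin 3) F)) := by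
      have h1 : (x * y : R) = (x * y * x⁻¹ * y⁻¹) * (y * x) := by group
      have h2 := congrArg (fun r : R => ((r : GL (Fin 3) F) : Matrix (Fin 3) (Fin 3) F)) h1
      rw [Subgroup.coe_mul (H := R) (x * y * x⁻¹ * y⁻¹) (y * x), Units.val_mul, hc] at h2
      rw [Matrix.smul_mul, Matrix.one_mul] at h2
      simpa using h2
    have hc3 : c ^ 3 = 1 := by
      have h1 := hpow3 _ (x * y * x⁻¹ * y⁻¹ : R).2
      have h2 := congrArg (fun r : GL (Fin 3) F => (r : Matrix (Fin 3) (Fin 3) F) 0 0) h1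
      simp only [Units.val_pow_eq_pow_val, hc] at h2
      rw [smul_pow, one_pow] at h2
      simpa using h2
    have hc1 : c ≠ 1 := by
      intro h
      apply hxy
      apply Subtype.ext
      apply Units.ext
      rw [h, one_smul] at hxyc
      simpa using hxyc
    have hcw : (c - w) * (c + 1 + w) = 0 := by
      have h1 : (c - 1) * (c ^ 2 + c + 1) = 0 := by linear_combination hc3
      have h2 := (mul_eq_zero.1 h1).resolve_left (sub_ne_zero.2 hc1)
      linear_combination h2 - hw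
    rcases mul_eq_zero.1 hcw with h | h
    · have : c = w := sub_eq_zero.1 h
      exact ⟨x, x.2, y, y.2, by rw [hxyc, this]⟩
    · have hcw2 : w * c = 1 := by linear_combination w * h - hw
      refine ⟨y, y.2, x, x.2, ?_⟩
      rw [hxyc, smul_smul, hcw2, one_smul]
  have ha3 : (a : Matrix (Fin 3) (Fin 3) F) * (a * a) = 1 := by
    have := congrArg (fun r : GL (Fin 3) F => (r : Matrix (Fin 3) (Fin 3) F)) (hpow3 a ha)
    simpa [pow_succ, mul_assoc] using this
  have hb3 : (b : Matrix (Fin 3) (Fin 3) F) * (b * b) = 1 := by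
    have := congrArg (fun r : GL (Fin 3) F => (r : Matrix (Fin 3) (Fin 3) F)) (hpow3 b hb)
    simpa [pow_succ, mul_assoc] using this
  have habv : ∀ x : Fin 3 → F, (a : Matrix (Fin 3) (Fin 3) F) *ᵥ ((b : Matrix (Fin 3) (Fin 3) F) *ᵥ x) =
      w • ((b : Matrix (Fin 3) (Fin 3) F) *ᵥ ((a : Matrix (Fin 3) (Fin 3) F) *ᵥ x)) := by
    intro x
    rw [Matrix.mulVec_mulVec, hab, Matrix.smul_mulVec, Matrix.mulVec_mulVec]
  have ha3v : ∀ x : Fin 3 → F, (a : Matrix (Fin 3) (Fin 3) F) *ᵥ ((a : Matrix (Fin 3) (Fin 3) F) *ᵥ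
      ((a : Matrix (Fin 3) (Fin 3) F) *ᵥ x)) = x := by
    intro x
    rw [Matrix.mulVec_mulVec, Matrix.mulVec_mulVec, mul_assoc, ha3, Matrix.one_mulVec]
  have hb3v : ∀ x : Fin 3 → F, (b : Matrix (Fin 3) (Fin 3) F) *ᵥ ((b : Matrix (Fin 3) (Fin 3) F) *ᵥ
      ((b : Matrix (Fin 3) (Fin 3) F) *ᵥ x)) = x := by
    intro x
    rw [Matrix.mulVec_mulVec, Matrix.mulVec_mulVec, mul_assoc, hb3, Matrix.one_mulVec]
  have hbinj : ∀ x : Fin 3 → F, (b : Matrix (Fin 3) (Fin 3) F) *ᵥ x = 0 → x = 0 := by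
    intro x hx
    have := hb3v x
    rw [hx, Matrix.mulVec_zero, Matrix.mulVec_zero] at this
    exact this.symm
  have hfa : ∀ x y, hermForm 3 F 5 ((a : Matrix (Fin 3) (Fin 3) F) *ᵥ x) ((a : Matrix (Fin 3) (Fin 3) F) *ᵥ y) =
      hermForm 3 F 5 x y := fun x y => hGU ha _ _
  have hfb : ∀ x y, hermForm 3 F 5 ((b : Matrix (Fin 3) (Fin 3) F) *ᵥ x) ((b : Matrix (Fin 3) (Fin 3) F) *ᵥ y) =
      hermForm 3 F 5 x y := fun x y => hGU hb _ _
  -- a fixed vector
  obtain ⟨v, hv0, hav⟩ : ∃ v : Fin 3 → F, v ≠ 0 ∧ (a : Matrix (Fin 3) (Fin 3) F) *ᵥ v = v := by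
    let u : Fin 3 → F := Pi.single 0 1
    have hu : u ≠ 0 := fun h => one_ne_zero (α := F) (by simpa [u] using congrFun h 0)
    set A := (a : Matrix (Fin 3) (Fin 3) F) with hA
    set B := (b : Matrix (Fin 3) (Fin 3) F) with hB
    let e0 := u + A *ᵥ u + A *ᵥ (A *ᵥ u)
    let e1 := u + w ^ 2 • A *ᵥ u + w • A *ᵥ (A *ᵥ u)
    let e2 := u + w • A *ᵥ u + w ^ 2 • A *ᵥ (A *ᵥ u)
    have hsum : e0 + e1 + e2 = (3 : F) • u := by
      simp only [e0, e1, e2]
      have h1 : (1 + w ^ 2 + w : F) = 0 := by linear_combination hw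
      have : u + A *ᵥ u + A *ᵥ (A *ᵥ u) + (u + w ^ 2 • A *ᵥ u + w • A *ᵥ (A *ᵥ u)) +
          (u + w • A *ᵥ u + w ^ 2 • A *ᵥ (A *ᵥ u)) = (3 : F) • u + (1 + w ^ 2 + w) • A *ᵥ u +
          (1 + w ^ 2 + w) • A *ᵥ (A *ᵥ u) := by
        module
      rw [this, h1, zero_smul, zero_smul, add_zero, add_zero]
    have hAe0 : A *ᵥ e0 = e0 := by
      simp only [e0, Matrix.mulVec_add, ha3v]
      abel
    have hAe1 : A *ᵥ e1 = w • e1 := by
      simp only [e1, Matrix.mulVec_add, Matrix.mulVec_smul, ha3v, smul_add, smul_smul]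
      have e : w * w ^ 2 = 1 := by linear_combination hw3
      rw [e, one_smul, pow_two]
      abel
    have hAe2 : A *ᵥ e2 = w ^ 2 • e2 := by
      simp only [e2, Matrix.mulVec_add, Matrix.mulVec_smul, ha3v, smul_add, smul_smul]
      have e : w ^ 2 * w = 1 := by linear_combination hw3
      have e' : w ^ 2 * w ^ 2 = w := by linear_combination w * hw3
      rw [e, e', one_smul]
      abel
    by_cases h0 : e0 = 0
    · by_cases h1 : e1 = 0
      · by_cases h2 : e2 = 0
        · exfalso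
          rw [h0, h1, h2, add_zero, add_zero] at hsum
          exact smul_ne_zero h30 hu hsum.symm
        · refine ⟨B *ᵥ e2, fun h => h2 (hbinj _ h), ?_⟩
          rw [habv, hAe2, Matrix.mulVec_smul, smul_smul]
          have e : w * w ^ 2 = 1 := by linear_combination hw3
          rw [e, one_smul]
      · refine ⟨B *ᵥ (B *ᵥ e1), fun h => h1 (hbinj _ (hbinj _ h)), ?_⟩
        rw [habv, habv, hAe1, Matrix.mulVec_smul, Matrix.mulVec_smul, Matrix.mulVec_smul, smul_smul,
          smul_smul]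
        have e : w * w * w = 1 := by linear_combination hw3
        rw [e, one_smul]
    · exact ⟨e0, h0, hAe0⟩
  -- a non-isotropic fixed vector
  obtain ⟨y, hay, hyy⟩ : ∃ y : Fin 3 → F, (a : Matrix (Fin 3) (Fin 3) F) *ᵥ y = y ∧ hermForm 3 F 5 y y ≠ 0 := by
    by_contra hcon
    push Not at hcon
    obtain ⟨x, hx⟩ : ∃ x, hermForm 3 F 5 x v ≠ 0 := by
      by_contra hcon'
      push Not at hcon'
      exact hv0 (hermForm_nondeg' hF hcon')
    set A := (a : Matrix (Fin 3) (Fin 3) F) with hA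
    let x0 := x + A *ᵥ x + A *ᵥ (A *ᵥ x)
    have hAx0 : A *ᵥ x0 = x0 := by
      simp only [x0, Matrix.mulVec_add, ha3v]
      abel
    have h1 : hermForm 3 F 5 (A *ᵥ x) v = hermForm 3 F 5 x v := by
      conv_lhs => rw [← hav]
      exact hfa _ _
    have h2 : hermForm 3 F 5 (A *ᵥ (A *ᵥ x)) v = hermForm 3 F 5 x v := by
      conv_lhs => rw [← hav]
      rw [hfa]
      exact h1
    have hx0 : hermForm 3 F 5 x0 v ≠ 0 := by
      simp only [x0]
      rw [hermForm_add_left, hermForm_add_left, h1, h2]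
      have : hermForm 3 F 5 x v + hermForm 3 F 5 x v + hermForm 3 F 5 x v = 3 * hermForm 3 F 5 x v := by ring
      rw [this]
      exact mul_ne_zero h30 hx
    have hvv := hcon v hav
    have hxx := hcon x0 hAx0
    clear_value x0
    have hcc : ∀ c : F, hermForm 3 F 5 x0 v * c ^ 5 + hermForm 3 F 5 x0 v ^ 5 * c = 0 := by
      intro c
      have h3 := hcon (x0 + c • v) (by rw [Matrix.mulVec_add, Matrix.mulVec_smul, hAx0, hav])
      rw [hermForm_add_left, hermForm_add_right hF, hermForm_add_right hF, hermForm_smul_left,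
        hermForm_smul_left, hermForm_smul_right, hermForm_smul_right, hxx, hvv,
        ← hermForm_symm hF x0 v] at h3
      linear_combination h3
    have hc1 := hcc 1
    have hcθ := hcc θ
    have hθ5 : θ ^ 5 = -θ := by
      calc θ ^ 5 = (θ * θ) * (θ * θ) * θ := by ring
        _ = -θ := by rw [hθ]; linear_combination θ * h5
    rw [hθ5] at hcθ
    have h6 : (2 : F) * (θ * θ) * hermForm 3 F 5 x0 v = 0 := by
      linear_combination θ * θ * hc1 - θ * hcθ
    rw [hθ] at h6
    exact mul_ne_zero (mul_ne_zero h20 h20) hx0 h6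
  -- normalise
  obtain ⟨l, hl⟩ := exists_norm_eq hF (c := (hermForm 3 F 5 y y)⁻¹)
    (by rw [inv_pow, hermForm_self_pow_q hF])
  let z : Fin 3 → F := l • y
  have hzz : hermForm 3 F 5 z z = 1 := by
    simp only [z]
    rw [hermForm_smul_left, hermForm_smul_right]
    have : l * (l ^ 5 * hermForm 3 F 5 y y) = l ^ (5 + 1) * hermForm 3 F 5 y y := by ring
    rw [this, hl, inv_mul_cancel₀ hyy]
  have haz : (a : Matrix (Fin 3) (Fin 3) F) *ᵥ z = z := by
    simp only [z]
    rw [Matrix.mulVec_smul, hay]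
  let z1 : Fin 3 → F := (b : Matrix (Fin 3) (Fin 3) F) *ᵥ z
  let z2 : Fin 3 → F := (b : Matrix (Fin 3) (Fin 3) F) *ᵥ z1
  have hbz2 : (b : Matrix (Fin 3) (Fin 3) F) *ᵥ z2 = z := hb3v z
  have haz1 : (a : Matrix (Fin 3) (Fin 3) F) *ᵥ z1 = w • z1 := by
    simp only [z1]
    rw [habv, haz]
  have haz2 : (a : Matrix (Fin 3) (Fin 3) F) *ᵥ z2 = w ^ 2 • z2 := by
    change (a : Matrix (Fin 3) (Fin 3) F) *ᵥ ((b : Matrix (Fin 3) (Fin 3) F) *ᵥ z1) = _
    rw [habv, haz1, Matrix.mulVec_smul, smul_smul, ← pow_two]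
  have hw5 : w ^ 5 = w ^ 2 := by linear_combination w ^ 2 * hw3
  have hww : w ^ 2 ≠ 1 := by
    intro h
    apply hw1
    linear_combination hw3 - w * h
  have hort : ∀ (x y : Fin 3 → F) (c d : F), (a : Matrix (Fin 3) (Fin 3) F) *ᵥ x = c • x →
      (a : Matrix (Fin 3) (Fin 3) F) *ᵥ y = d • y → c * d ^ 5 ≠ 1 → hermForm 3 F 5 x y = 0 := by
    intro x y c d hx hy hcd
    have h1 := hfa x y
    rw [hx, hy, hermForm_smul_left, hermForm_smul_right] at h1
    have h2 : (c * d ^ 5 - 1) * hermForm 3 F 5 x y = 0 := by linear_combination h1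
    exact (mul_eq_zero.1 h2).resolve_left (sub_ne_zero.2 hcd)
  let u : Fin 3 → Fin 3 → F := ![z, z1, z2]
  have haz' : (a : Matrix (Fin 3) (Fin 3) F) *ᵥ z = (1 : F) • z := by rw [haz, one_smul]
  have hu : IsON 5 u := by
    have h11 : hermForm 3 F 5 z1 z1 = 1 := by rw [← hzz]; exact hfb _ _
    have h22 : hermForm 3 F 5 z2 z2 = 1 := by rw [← h11]; exact hfb _ _
    have h01 := hort z z1 1 w haz' haz1 (by rw [one_mul, hw5]; exact hww)
    have h02 := hort z z2 1 (w ^ 2) haz' haz2 (by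
      intro h; apply hw1; rw [← h]; linear_combination (-(w ^ 7) - w ^ 4 - w) * hw3)
    have h12 := hort z1 z2 w (w ^ 2) haz1 haz2 (by
      intro h; apply hww; rw [← h]; linear_combination (-(w ^ 8) - w ^ 5 - w ^ 2) * hw3)
    have h10 : hermForm 3 F 5 z1 z = 0 := (hermForm_eq_zero_comm hF).1 h01
    have h20' : hermForm 3 F 5 z2 z = 0 := (hermForm_eq_zero_comm hF).1 h02
    have h21 : hermForm 3 F 5 z2 z1 = 0 := (hermForm_eq_zero_comm hF).1 h12
    intro i j
    fin_cases i <;> fin_cases j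
    · simpa [u] using hzz
    · simpa [u] using h01
    · simpa [u] using h02
    · simpa [u] using h10
    · simpa [u] using h11
    · simpa [u] using h12
    · simpa [u] using h20'
    · simpa [u] using h21
    · simpa [u] using h22
  obtain ⟨U, hU⟩ := exists_GU_of_family hF (x := fun i : Fin 3 => (Pi.single i 1 : Fin 3 → F)) (y := u)
    ((IsON.single hF).linearIndependent hF) (hu.linearIndependent hF) (fun i j => by
      rw [hu i j]; exact IsON.single hF i j)
  -- the conjugate group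
  let φ : GL (Fin 3) F ≃* GL (Fin 3) F := MulAut.conj (U : GL (Fin 3) F)⁻¹
  have hφ : ∀ x, φ x = (U : GL (Fin 3) F)⁻¹ * x * U := fun x => by
    simp only [φ, MulAut.conj_apply, inv_inv]
  let R' : Subgroup (GL (Fin 3) F) := R.map φ.toMonoidHom
  have hcard' : Nat.card R' = 27 := by
    rw [← hcard]
    exact (Nat.card_congr (R.equivMapOfInjective φ.toMonoidHom φ.injective).toEquiv).symm
  have hUinv : ∀ x : Fin 3 → F, (((U : GL (Fin 3) F)⁻¹ : GL (Fin 3) F) : Matrix (Fin 3) (Fin 3) F) *ᵥ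
      (((U : GL (Fin 3) F) : Matrix (Fin 3) (Fin 3) F) *ᵥ x) = x := by
    intro x
    rw [Matrix.mulVec_mulVec, ← Units.val_mul, inv_mul_cancel, Units.val_one, Matrix.one_mulVec]
  have hext : ∀ (M N : Matrix (Fin 3) (Fin 3) F), (∀ i, M *ᵥ (Pi.single i 1) = N *ᵥ (Pi.single i 1)) →
      M = N := by
    intro M N h
    ext i j
    have := congrFun (h j) i
    simpa using this
  have haM : ((φ a : GL (Fin 3) F) : Matrix (Fin 3) (Fin 3) F) = toM θ (elt 0 1 0) := by
    apply hext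
    intro i
    rw [hφ, Units.val_mul, Units.val_mul, ← Matrix.mulVec_mulVec, ← Matrix.mulVec_mulVec, hU]
    fin_cases i
    · change (((U : GL (Fin 3) F)⁻¹ : GL (Fin 3) F) : Matrix (Fin 3) (Fin 3) F) *ᵥ
        ((a : Matrix (Fin 3) (Fin 3) F) *ᵥ (u 0)) = _
      rw [show u 0 = z from rfl, haz, show z = u 0 from rfl, ← hU, hUinv]
      funext r
      fin_cases r <;> simp [toM, elt, wp, psi_one, psi_zero]
    · change (((U : GL (Fin 3) F)⁻¹ : GL (Fin 3) F) : Matrix (Fin 3) (Fin 3) F) *ᵥ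
        ((a : Matrix (Fin 3) (Fin 3) F) *ᵥ (u 1)) = _
      rw [show u 1 = z1 from rfl, haz1, show z1 = u 1 from rfl, ← hU, Matrix.mulVec_smul, hUinv]
      funext r
      fin_cases r <;> simp [toM, elt, wp, psi_one, psi_zero, hwdef]
    · change (((U : GL (Fin 3) F)⁻¹ : GL (Fin 3) F) : Matrix (Fin 3) (Fin 3) F) *ᵥ
        ((a : Matrix (Fin 3) (Fin 3) F) *ᵥ (u 2)) = _
      rw [show u 2 = z2 from rfl, haz2, show z2 = u 2 from rfl, ← hU, Matrix.mulVec_smul, hUinv]
      have e17 : psi θ 17 = w ^ 2 := by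
        rw [pow_two, hwdef, ← psi_ml h5 hθ]
        congr 1
      funext r
      fin_cases r <;> simp [toM, elt, wp, psi_one, psi_zero, e17]
  have hbM : ((φ b : GL (Fin 3) F) : Matrix (Fin 3) (Fin 3) F) = toM θ (elt 0 0 1) := by
    apply hext
    intro i
    rw [hφ, Units.val_mul, Units.val_mul, ← Matrix.mulVec_mulVec, ← Matrix.mulVec_mulVec, hU]
    fin_cases i
    · change (((U : GL (Fin 3) F)⁻¹ : GL (Fin 3) F) : Matrix (Fin 3) (Fin 3) F) *ᵥ
        ((b : Matrix (Fin 3) (Fin 3) F) *ᵥ (u 0)) = _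
      rw [show u 0 = z from rfl, show (b : Matrix (Fin 3) (Fin 3) F) *ᵥ z = u 1 from rfl, ← hU, hUinv]
      funext r
      fin_cases r <;> simp [toM, elt, wp, psi_one, psi_zero]
    · change (((U : GL (Fin 3) F)⁻¹ : GL (Fin 3) F) : Matrix (Fin 3) (Fin 3) F) *ᵥ
        ((b : Matrix (Fin 3) (Fin 3) F) *ᵥ (u 1)) = _
      rw [show u 1 = z1 from rfl, show (b : Matrix (Fin 3) (Fin 3) F) *ᵥ z1 = u 2 from rfl, ← hU, hUinv]
      funext r
      fin_cases r <;> simp [toM, elt, wp, psi_one, psi_zero]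
    · change (((U : GL (Fin 3) F)⁻¹ : GL (Fin 3) F) : Matrix (Fin 3) (Fin 3) F) *ᵥ
        ((b : Matrix (Fin 3) (Fin 3) F) *ᵥ (u 2)) = _
      rw [show u 2 = z2 from rfl, hbz2, show z = u 0 from rfl, ← hU, hUinv]
      funext r
      fin_cases r <;> simp [toM, elt, wp, psi_one, psi_zero]
  have hstd := hess_std hF h5 hθ hcard' (a := φ a) (b := φ b) (Subgroup.mem_map_of_mem _ ha)
    (Subgroup.mem_map_of_mem _ hb) haM hbM
  have hUsim : (U : GL (Fin 3) F) ∈ similarityGroup (hermForm 3 F 5) :=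
    ⟨1, fun x y => by rw [Units.val_one, one_mul]; exact U.2 x y⟩
  have hSiff : ∀ x, x ∈ SG 3 F 5 ↔ φ x ∈ SG 3 F 5 := by
    intro x
    rw [hφ]
    constructor
    · intro hx
      have := similarity_conj_SG (Subgroup.inv_mem _ hUsim) hx
      rwa [inv_inv] at this
    · intro hx
      have := similarity_conj_SG hUsim hx
      have e : (U : GL (Fin 3) F) * ((U : GL (Fin 3) F)⁻¹ * x * U) * (U : GL (Fin 3) F)⁻¹ = x := by group
      rwa [e] at this
  refine between_comap φ (A' := subgroupNormalizer R' ⊓ SG 3 F 5) ?_ hSiff hstd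
  intro x
  have hR'iff : ∀ y, φ y ∈ R' ↔ y ∈ R := fun y => by
    constructor
    · rintro ⟨s, hs, hsy⟩
      have : s = y := φ.injective hsy
      rwa [← this]
    · intro hy
      exact Subgroup.mem_map_of_mem _ hy
  change (x ∈ subgroupNormalizer R ∧ x ∈ SG 3 F 5) ↔
    (φ x ∈ subgroupNormalizer R' ∧ φ x ∈ SG 3 F 5)
  refine and_congr ?_ (hSiff x)
  unfold subgroupNormalizer
  rw [Subgroup.mem_normalizer_iff, Subgroup.mem_normalizer_iff]
  constructor
  · intro h s
    obtain ⟨s, rfl⟩ := φ.surjective s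
    have := h s
    change φ s ∈ R' ↔ φ x * φ s * (φ x)⁻¹ ∈ R'
    rw [← map_inv, ← map_mul, ← map_mul, hR'iff, hR'iff]
    exact this
  · intro h s
    have := h (φ s)
    change φ s ∈ R' ↔ φ x * φ s * (φ x)⁻¹ ∈ R' at this
    rw [← map_inv, ← map_mul, ← map_mul, hR'iff, hR'iff] at this
    exact this

end HF

end Cfsg.Agent.UCase
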