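import Mathlib
import Cfsg.Agent.UCase.Arith
import Cfsg.Agent.UCase.FourMain

set_option autoImplicit false
set_option linter.unusedSectionVars false
set_option linter.unusedVariables false

/-!
The lists of maximal subgroups of `SU_n(q)` for `7 ≤ n ≤ 12`, from the containment theorem.
-/

namespace Cfsg.Agent.UCase

open scoped Matrix
open Cfsg.Geo Cfsg.Agent.Uni Cfsg.Agent.AschCases
open Matrix (GeneralLinearGroup)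

theorem odd_prime_cases_le_twelve {r : ℕ} (hr : r.Prime) (hodd : Odd r) (h : r ≤ 12) :
    r = 3 ∨ r = 5 ∨ r = 7 ∨ r = 11 := by
  have h2 := hr.two_le
  rcases hodd with ⟨k, hk⟩
  have : k ≤ 5 := by omega
  interval_cases k <;> subst hk
  · exact absurd h2 (by norm_num)
  · simp
  · simp
  · simp
  · exact absurd hr (by norm_num)
  · simp

theorem coprime_eleven {p q : ℕ} (hq : 2 ≤ q) (h : (q = p ∧ p % 11 = 10) ∨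
    (q = p ^ 5 ∧ (p % 11 = 2 ∨ p % 11 = 6 ∨ p % 11 = 7 ∨ p % 11 = 8))) : Nat.Coprime 11 (q - 1) := by
  rw [Nat.Prime.coprime_iff_not_dvd (by norm_num)]
  intro hd
  have h1 : q % 11 = 10 := by
    rcases h with ⟨h1, h2⟩ | ⟨h1, h2⟩
    · rw [h1]; exact h2
    · rw [h1, Nat.pow_mod]
      rcases h2 with h2 | h2 | h2 | h2 <;> rw [h2]
  omega

theorem su_cases_7 {F : Type*} [Field F] [Fintype F] (q : ℕ) (hF : Fintype.card F = q ^ 2) (H : Subgroup (Matrix.GeneralLinearGroup (Fin 7) F))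
    (hH : Cfsg.Geo.IsMaximalIn (Cfsg.GU 7 F q ⊓ Cfsg.Geo.specialLinear (Fin 7) F) H)
    (h : UContain 7 F q H) :
    (∃ W : Submodule F (Fin 7 → F), W ≠ ⊥ ∧ Cfsg.Geo.IsTotallySingularFor (Cfsg.hermForm 7 F q) W ∧ H = Cfsg.Geo.subspaceStabilizer W ⊓ (Cfsg.GU 7 F q ⊓ Cfsg.Geo.specialLinear (Fin 7) F)) ∨
    (∃ W : Submodule F (Fin 7 → F), W ≠ ⊥ ∧ Cfsg.Geo.IsNondegenerateOn (Cfsg.hermForm 7 F q) W ∧ 2 * Module.finrank F W < 7 ∧ H = Cfsg.Geo.subspaceStabilizer W ⊓ (Cfsg.GU 7 F q ⊓ Cfsg.Geo.specialLinear (Fin 7) F)) ∨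
    (∃ D : Fin 7 → Submodule F (Fin 7 → F), Cfsg.Geo.IsNondegenerateMDecomposition (Cfsg.hermForm 7 F q) 1 D ∧ H = Cfsg.Geo.decompositionStabilizer D ⊓ (Cfsg.GU 7 F q ⊓ Cfsg.Geo.specialLinear (Fin 7) F)) ∨
    (∃ K : Subalgebra F (Matrix (Fin 7) (Fin 7) F), Cfsg.Geo.IsFieldSubalgebra 7 K ∧ Cfsg.Geo.IsAdjointClosedFor (Cfsg.hermForm 7 F q) K ∧ H = Cfsg.Geo.subalgebraNormalizer K ⊓ (Cfsg.GU 7 F q ⊓ Cfsg.Geo.specialLinear (Fin 7) F)) ∨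
    (∃ (F₀ : Subfield F) (r : ℕ) (P : Matrix.GeneralLinearGroup (Fin 7) F), r.Prime ∧ Odd r ∧ Fintype.card F = Nat.card F₀ ^ r ∧ Cfsg.Geo.IsFormRationalStructure (Cfsg.hermForm 7 F q) F₀ 1 P ∧ H = Cfsg.Geo.subfieldSubgroup F₀ P ⊓ (Cfsg.GU 7 F q ⊓ Cfsg.Geo.specialLinear (Fin 7) F)) ∨
    (Odd q ∧ ∃ (F₀ : Subfield F) (P : Matrix.GeneralLinearGroup (Fin 7) F), Fintype.card F = Nat.card F₀ ^ 2 ∧ Cfsg.Geo.IsFormRationalStructure (Cfsg.hermForm 7 F q) F₀ 1 P ∧ H = Cfsg.Geo.subfieldSubgroup F₀ P ⊓ (Cfsg.GU 7 F q ⊓ Cfsg.Geo.specialLinear (Fin 7) F)) ∨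
    (∃ (p : ℕ) (R : Subgroup (Matrix.GeneralLinearGroup (Fin 7) F)), p.Prime ∧ CharP F p ∧ ((q = p ∧ p % 7 = 6) ∨ (q = p ^ 3 ∧ (p % 7 = 3 ∨ p % 7 = 5))) ∧ Cfsg.Geo.IsSymplecticTypeGroup 7 R ∧ Cfsg.Geo.ActsAbsolutelyIrreducibly (Cfsg.Geo.matrixSet R) ∧ R ≤ Cfsg.Geo.similarityGroup (Cfsg.hermForm 7 F q) ∧ Nat.card R = 343 ∧ Nat.card (Subgroup.center R) = 7 ∧ H = Cfsg.Geo.subgroupNormalizer R ⊓ (Cfsg.GU 7 F q ⊓ Cfsg.Geo.specialLinear (Fin 7) F)) ∨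
    Cfsg.Geo.InUnitaryResidualClass H := by
  rcases uEq_of_uContain hF (by norm_num) (by norm_num) hH h with
    ⟨W, h1, h2, hE⟩ | ⟨W, h1, h2, h3, hE⟩ | ⟨t, k, D, htk, ht, hk, hD, hE⟩ | ⟨k, D, h1, h2, h3, hE⟩ |
    ⟨r, K, h1, h2, h3, h4, h5, hE⟩ | ⟨n₁, n₂, e, P, f₁, f₂, h0, h1, h2, h3, h4, h5, hE⟩ |
    ⟨F₀, r, P, h1, h2, h3, h4, hE⟩ | ⟨F₀, P, h1, h2, h3, hE⟩ | ⟨F₀, P, ζ, h1, h2, h3, h4, h5, h6, hE⟩ |
    ⟨r, R, p, e, k, h1, h2, h3, h4, h5, h6, h7, hE⟩ |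
    ⟨k, t, e, P, f₁, h0, h1, h2, h3, h4, h5, hE⟩ | hres
  · exact Or.inl (⟨W, h1, h2, hE⟩)
  · exact Or.inr (Or.inl (⟨W, h1, h2, h3, hE⟩))
  · have hkl : k ≤ 3 := by nlinarith
    have hc : (t = 7 ∧ k = 1) := by
      interval_cases k <;> omega
    rcases hc with ⟨rfl, rfl⟩
    · exact Or.inr (Or.inr (Or.inl (⟨D, hD, hE⟩)))
  · exfalso; omega
  · rcases odd_prime_cases_le_twelve h1 h2 ((Nat.le_of_dvd (by norm_num) h3).trans (by norm_num)) with rfl | rfl | rfl | rfl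
    · exact absurd h3 (by norm_num)
    · exact absurd h3 (by norm_num)
    · exact Or.inr (Or.inr (Or.inr (Or.inl (⟨K, h4, h5, hE⟩))))
    · exact absurd h3 (by norm_num)
  · have hn1 : n₁ ≤ 3 := by nlinarith
    exfalso
    interval_cases n₁ <;> omega
  · exact Or.inr (Or.inr (Or.inr (Or.inr (Or.inl (⟨F₀, r, P, h1, h2, h3, h4, hE⟩)))))
  · exact Or.inr (Or.inr (Or.inr (Or.inr (Or.inr (Or.inl (⟨h1, F₀, P, h2, h3, hE⟩))))))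
  · exfalso; revert h1; decide
  · obtain rfl := eq_of_prime_dvd h1.prime h7 (a := 7) (by norm_num) (by norm_num)
    have hk : k = 1 := Nat.pow_right_injective (a := 7) (by norm_num) (by change 7 ^ k = 7 ^ 1; rw [← h7])
    subst hk
    rcases h6 with ⟨-, hZ, -, hRc⟩ | ⟨h, -⟩
    · rw [hZ] at h5
      obtain ⟨hp, hchar, hcase⟩ := class6_uni_seven hF h4 h5
      exact Or.inr (Or.inr (Or.inr (Or.inr (Or.inr (Or.inr (Or.inl (⟨p, R, hp, hchar, hcase, h1, h2, h3, hRc, hZ, hE⟩)))))))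
    · exact absurd h (by norm_num)
  · exact absurd (pow_cases (by norm_num) h0 h1 h2).1 (by norm_num)
  · exact Or.inr (Or.inr (Or.inr (Or.inr (Or.inr (Or.inr (Or.inr (hres)))))))

theorem su_cases_8 {F : Type*} [Field F] [Fintype F] (q : ℕ) (hF : Fintype.card F = q ^ 2) (H : Subgroup (Matrix.GeneralLinearGroup (Fin 8) F))
    (hH : Cfsg.Geo.IsMaximalIn (Cfsg.GU 8 F q ⊓ Cfsg.Geo.specialLinear (Fin 8) F) H)
    (h : UContain 8 F q H) :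
    (∃ W : Submodule F (Fin 8 → F), W ≠ ⊥ ∧ Cfsg.Geo.IsTotallySingularFor (Cfsg.hermForm 8 F q) W ∧ H = Cfsg.Geo.subspaceStabilizer W ⊓ (Cfsg.GU 8 F q ⊓ Cfsg.Geo.specialLinear (Fin 8) F)) ∨
    (∃ W : Submodule F (Fin 8 → F), W ≠ ⊥ ∧ Cfsg.Geo.IsNondegenerateOn (Cfsg.hermForm 8 F q) W ∧ 2 * Module.finrank F W < 8 ∧ H = Cfsg.Geo.subspaceStabilizer W ⊓ (Cfsg.GU 8 F q ⊓ Cfsg.Geo.specialLinear (Fin 8) F)) ∨
    (∃ D : Fin 8 → Submodule F (Fin 8 → F), Cfsg.Geo.IsNondegenerateMDecomposition (Cfsg.hermForm 8 F q) 1 D ∧ H = Cfsg.Geo.decompositionStabilizer D ⊓ (Cfsg.GU 8 F q ⊓ Cfsg.Geo.specialLinear (Fin 8) F)) ∨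
    (3 ≤ q ∧ ∃ D : Fin 4 → Submodule F (Fin 8 → F), Cfsg.Geo.IsNondegenerateMDecomposition (Cfsg.hermForm 8 F q) 2 D ∧ H = Cfsg.Geo.decompositionStabilizer D ⊓ (Cfsg.GU 8 F q ⊓ Cfsg.Geo.specialLinear (Fin 8) F)) ∨
    (∃ D : Fin 2 → Submodule F (Fin 8 → F), Cfsg.Geo.IsNondegenerateMDecomposition (Cfsg.hermForm 8 F q) 4 D ∧ H = Cfsg.Geo.decompositionStabilizer D ⊓ (Cfsg.GU 8 F q ⊓ Cfsg.Geo.specialLinear (Fin 8) F)) ∨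
    (∃ D : Fin 2 → Submodule F (Fin 8 → F), Cfsg.Geo.IsMDecomposition 4 D ∧ (∀ i, Cfsg.Geo.IsTotallySingularFor (Cfsg.hermForm 8 F q) (D i)) ∧ H = Cfsg.Geo.decompositionStabilizer D ⊓ (Cfsg.GU 8 F q ⊓ Cfsg.Geo.specialLinear (Fin 8) F)) ∨
    (3 ≤ q ∧ ∃ (e : Fin 8 ≃ Fin 2 × Fin 4) (P : Matrix.GeneralLinearGroup (Fin 8) F) (f₁ : (Fin 2 → F) → (Fin 2 → F) → F) (f₂ : (Fin 4 → F) → (Fin 4 → F) → F), Cfsg.Geo.IsUnitaryFormPow q f₁ ∧ Cfsg.Geo.IsUnitaryFormPow q f₂ ∧ Cfsg.Geo.IsTensorFormStructure (fun x : F => x ^ q) (Cfsg.hermForm 8 F q) f₁ f₂ e P ∧ H = Cfsg.Geo.tensorProductSubgroup 2 4 e P ⊓ (Cfsg.GU 8 F q ⊓ Cfsg.Geo.specialLinear (Fin 8) F)) ∨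
    (∃ (F₀ : Subfield F) (r : ℕ) (P : Matrix.GeneralLinearGroup (Fin 8) F), r.Prime ∧ Odd r ∧ Fintype.card F = Nat.card F₀ ^ r ∧ Cfsg.Geo.IsFormRationalStructure (Cfsg.hermForm 8 F q) F₀ 1 P ∧ H = Cfsg.Geo.subfieldSubgroup F₀ P ⊓ (Cfsg.GU 8 F q ⊓ Cfsg.Geo.specialLinear (Fin 8) F)) ∨
    (∃ (F₀ : Subfield F) (P : Matrix.GeneralLinearGroup (Fin 8) F) (ζ : F), Fintype.card F = Nat.card F₀ ^ 2 ∧ ζ ≠ 0 ∧ ζ + ζ ^ q = 0 ∧ Cfsg.Geo.IsFormRationalStructure (Cfsg.hermForm 8 F q) F₀ ζ P ∧ (∀ u : Fin 8 → F, (∀ i, u i ∈ F₀) → (Cfsg.hermForm 8 F q) (Matrix.mulVec (P : Matrix (Fin 8) (Fin 8) F) u) (Matrix.mulVec (P : Matrix (Fin 8) (Fin 8) F) u) = 0) ∧ H = Cfsg.Geo.subfieldSubgroup F₀ P ⊓ (Cfsg.GU 8 F q ⊓ Cfsg.Geo.specialLinear (Fin 8) F)) ∨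
    (Odd q ∧ ∃ (F₀ : Subfield F) (P : Matrix.GeneralLinearGroup (Fin 8) F), Fintype.card F = Nat.card F₀ ^ 2 ∧ Cfsg.Geo.IsFormRationalStructure (Cfsg.hermForm 8 F q) F₀ 1 P ∧ H = Cfsg.Geo.subfieldSubgroup F₀ P ⊓ (Cfsg.GU 8 F q ⊓ Cfsg.Geo.specialLinear (Fin 8) F)) ∨
    (∃ (p : ℕ) (R : Subgroup (Matrix.GeneralLinearGroup (Fin 8) F)), p.Prime ∧ q = p ∧ p % 4 = 3 ∧ Cfsg.Geo.IsSymplecticTypeGroup 2 R ∧ Cfsg.Geo.ActsAbsolutelyIrreducibly (Cfsg.Geo.matrixSet R) ∧ R ≤ Cfsg.Geo.similarityGroup (Cfsg.hermForm 8 F q) ∧ Nat.card R = 256 ∧ Nat.card (Subgroup.center R) = 4 ∧ H = Cfsg.Geo.subgroupNormalizer R ⊓ (Cfsg.GU 8 F q ⊓ Cfsg.Geo.specialLinear (Fin 8) F)) ∨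
    Cfsg.Geo.InUnitaryResidualClass H := by
  rcases uEq_of_uContain hF (by norm_num) (by norm_num) hH h with
    ⟨W, h1, h2, hE⟩ | ⟨W, h1, h2, h3, hE⟩ | ⟨t, k, D, htk, ht, hk, hD, hE⟩ | ⟨k, D, h1, h2, h3, hE⟩ |
    ⟨r, K, h1, h2, h3, h4, h5, hE⟩ | ⟨n₁, n₂, e, P, f₁, f₂, h0, h1, h2, h3, h4, h5, hE⟩ |
    ⟨F₀, r, P, h1, h2, h3, h4, hE⟩ | ⟨F₀, P, h1, h2, h3, hE⟩ | ⟨F₀, P, ζ, h1, h2, h3, h4, h5, h6, hE⟩ |
    ⟨r, R, p, e, k, h1, h2, h3, h4, h5, h6, h7, hE⟩ |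
    ⟨k, t, e, P, f₁, h0, h1, h2, h3, h4, h5, hE⟩ | hres
  · exact Or.inl (⟨W, h1, h2, hE⟩)
  · exact Or.inr (Or.inl (⟨W, h1, h2, h3, hE⟩))
  · have hkl : k ≤ 4 := by nlinarith
    have hc : (t = 8 ∧ k = 1) ∨ (t = 4 ∧ k = 2) ∨ (t = 2 ∧ k = 4) := by
      interval_cases k <;> omega
    rcases hc with ⟨rfl, rfl⟩ | ⟨rfl, rfl⟩ | ⟨rfl, rfl⟩
    · exact Or.inr (Or.inr (Or.inl (⟨D, hD, hE⟩)))
    · by_cases hq : 3 ≤ q
      · exact Or.inr (Or.inr (Or.inr (Or.inl (⟨hq, D, hD, hE⟩))))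
      · obtain rfl : q = 2 := by have := two_le_q hF; omega
        obtain ⟨b, e, -, -, -, -, hdec, hle⟩ := planes_le_lines hF hD (by norm_num)
        have hle' : H ≤ decompositionStabilizer (fun j => Submodule.span F {b (e j).1 (e j).2}) := by
          rw [hE]; exact hle
        exact Or.inr (Or.inr (Or.inl (⟨_, hdec, eq_inf_of_maximal hH hle'
          (not_le_decompositionStabilizer hF (by norm_num) (by norm_num) _ hdec.decomp)⟩)))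
    · exact Or.inr (Or.inr (Or.inr (Or.inr (Or.inl (⟨D, hD, hE⟩)))))
  · obtain rfl : k = 4 := by omega
    exact Or.inr (Or.inr (Or.inr (Or.inr (Or.inr (Or.inl (⟨D, h2, h3, hE⟩))))))
  · rcases odd_prime_cases_le_twelve h1 h2 ((Nat.le_of_dvd (by norm_num) h3).trans (by norm_num)) with rfl | rfl | rfl | rfl
    · exact absurd h3 (by norm_num)
    · exact absurd h3 (by norm_num)
    · exact absurd h3 (by norm_num)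
    · exact absurd h3 (by norm_num)
  · have hn1 : n₁ ≤ 3 := by nlinarith
    have hc : (n₁ = 2 ∧ n₂ = 4) := by
      interval_cases n₁ <;> omega
    rcases hc with ⟨rfl, rfl⟩
    · by_cases hq : 3 ≤ q
      · exact Or.inr (Or.inr (Or.inr (Or.inr (Or.inr (Or.inr (Or.inl (⟨hq, e, P, f₁, f₂, h3, h4, h5, hE⟩)))))))
      · obtain rfl : q = 2 := by have := two_le_q hF; omega
        obtain ⟨D, hD, hle⟩ := tensor_le_decomp hF (by norm_num) e P f₁ f₂ h3 h4 h5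
        have hle' : H ≤ decompositionStabilizer D := by
          rw [hE]; exact hle
        exact Or.inr (Or.inr (Or.inr (Or.inr (Or.inl (⟨_, hD, eq_inf_of_maximal hH hle'
          (not_le_decompositionStabilizer hF (by norm_num) (by norm_num) _ hD.decomp)⟩)))))
  · exact Or.inr (Or.inr (Or.inr (Or.inr (Or.inr (Or.inr (Or.inr (Or.inl (⟨F₀, r, P, h1, h2, h3, h4, hE⟩))))))))
  · exact Or.inr (Or.inr (Or.inr (Or.inr (Or.inr (Or.inr (Or.inr (Or.inr (Or.inr (Or.inl (⟨h1, F₀, P, h2, h3, hE⟩))))))))))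
  · exact Or.inr (Or.inr (Or.inr (Or.inr (Or.inr (Or.inr (Or.inr (Or.inr (Or.inl (⟨F₀, P, ζ, h2, h3, h4, h5, h6, hE⟩)))))))))
  · obtain rfl := eq_of_prime_dvd h1.prime h7 (a := 2) (by norm_num) (by norm_num)
    have hk : k = 3 := Nat.pow_right_injective (a := 2) (by norm_num) (by change 2 ^ k = 2 ^ 3; rw [← h7])
    subst hk
    rcases h6 with ⟨h, -⟩ | ⟨-, he, hZ, hRc⟩
    · exact absurd h (by decide)
    · rw [hZ] at h5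
      obtain ⟨hp, hq, hmod⟩ := class6_uni_two hF he h5
      exact Or.inr (Or.inr (Or.inr (Or.inr (Or.inr (Or.inr (Or.inr (Or.inr (Or.inr (Or.inr (Or.inl (⟨p, R, hp, hq, hmod, h1, h2, h3, hRc, hZ, hE⟩)))))))))))
  · exact absurd (pow_cases (by norm_num) h0 h1 h2).1 (by norm_num)
  · exact Or.inr (Or.inr (Or.inr (Or.inr (Or.inr (Or.inr (Or.inr (Or.inr (Or.inr (Or.inr (Or.inr (hres)))))))))))

theorem su_cases_9 {F : Type*} [Field F] [Fintype F] (q : ℕ) (hF : Fintype.card F = q ^ 2) (H : Subgroup (Matrix.GeneralLinearGroup (Fin 9) F))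
    (hH : Cfsg.Geo.IsMaximalIn (Cfsg.GU 9 F q ⊓ Cfsg.Geo.specialLinear (Fin 9) F) H)
    (h : UContain 9 F q H) :
    (∃ W : Submodule F (Fin 9 → F), W ≠ ⊥ ∧ Cfsg.Geo.IsTotallySingularFor (Cfsg.hermForm 9 F q) W ∧ H = Cfsg.Geo.subspaceStabilizer W ⊓ (Cfsg.GU 9 F q ⊓ Cfsg.Geo.specialLinear (Fin 9) F)) ∨
    (∃ W : Submodule F (Fin 9 → F), W ≠ ⊥ ∧ Cfsg.Geo.IsNondegenerateOn (Cfsg.hermForm 9 F q) W ∧ 2 * Module.finrank F W < 9 ∧ H = Cfsg.Geo.subspaceStabilizer W ⊓ (Cfsg.GU 9 F q ⊓ Cfsg.Geo.specialLinear (Fin 9) F)) ∨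
    (∃ D : Fin 9 → Submodule F (Fin 9 → F), Cfsg.Geo.IsNondegenerateMDecomposition (Cfsg.hermForm 9 F q) 1 D ∧ H = Cfsg.Geo.decompositionStabilizer D ⊓ (Cfsg.GU 9 F q ⊓ Cfsg.Geo.specialLinear (Fin 9) F)) ∨
    (∃ D : Fin 3 → Submodule F (Fin 9 → F), Cfsg.Geo.IsNondegenerateMDecomposition (Cfsg.hermForm 9 F q) 3 D ∧ H = Cfsg.Geo.decompositionStabilizer D ⊓ (Cfsg.GU 9 F q ⊓ Cfsg.Geo.specialLinear (Fin 9) F)) ∨
    (∃ K : Subalgebra F (Matrix (Fin 9) (Fin 9) F), Cfsg.Geo.IsFieldSubalgebra 3 K ∧ Cfsg.Geo.IsAdjointClosedFor (Cfsg.hermForm 9 F q) K ∧ H = Cfsg.Geo.subalgebraNormalizer K ⊓ (Cfsg.GU 9 F q ⊓ Cfsg.Geo.specialLinear (Fin 9) F)) ∨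
    (∃ (F₀ : Subfield F) (r : ℕ) (P : Matrix.GeneralLinearGroup (Fin 9) F), r.Prime ∧ Odd r ∧ Fintype.card F = Nat.card F₀ ^ r ∧ Cfsg.Geo.IsFormRationalStructure (Cfsg.hermForm 9 F q) F₀ 1 P ∧ H = Cfsg.Geo.subfieldSubgroup F₀ P ⊓ (Cfsg.GU 9 F q ⊓ Cfsg.Geo.specialLinear (Fin 9) F)) ∨
    (Odd q ∧ ∃ (F₀ : Subfield F) (P : Matrix.GeneralLinearGroup (Fin 9) F), Fintype.card F = Nat.card F₀ ^ 2 ∧ Cfsg.Geo.IsFormRationalStructure (Cfsg.hermForm 9 F q) F₀ 1 P ∧ H = Cfsg.Geo.subfieldSubgroup F₀ P ⊓ (Cfsg.GU 9 F q ⊓ Cfsg.Geo.specialLinear (Fin 9) F)) ∨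
    (∃ (p : ℕ) (R : Subgroup (Matrix.GeneralLinearGroup (Fin 9) F)), p.Prime ∧ q = p ∧ p % 3 = 2 ∧ Cfsg.Geo.IsSymplecticTypeGroup 3 R ∧ Cfsg.Geo.ActsAbsolutelyIrreducibly (Cfsg.Geo.matrixSet R) ∧ R ≤ Cfsg.Geo.similarityGroup (Cfsg.hermForm 9 F q) ∧ Nat.card R = 243 ∧ Nat.card (Subgroup.center R) = 3 ∧ H = Cfsg.Geo.subgroupNormalizer R ⊓ (Cfsg.GU 9 F q ⊓ Cfsg.Geo.specialLinear (Fin 9) F)) ∨
    (3 ≤ q ∧ ∃ (e : Fin 9 ≃ (Fin 2 → Fin 3)) (P : Matrix.GeneralLinearGroup (Fin 9) F) (f₁ : (Fin 3 → F) → (Fin 3 → F) → F), Cfsg.Geo.IsUnitaryFormPow q f₁ ∧ Cfsg.Geo.IsTensorPowerFormStructure (fun x : F => x ^ q) (Cfsg.hermForm 9 F q) f₁ e P ∧ H = Cfsg.Geo.tensorWreathSubgroup 3 2 e P ⊓ (Cfsg.GU 9 F q ⊓ Cfsg.Geo.specialLinear (Fin 9) F)) ∨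
    Cfsg.Geo.InUnitaryResidualClass H := by
  rcases uEq_of_uContain hF (by norm_num) (by norm_num) hH h with
    ⟨W, h1, h2, hE⟩ | ⟨W, h1, h2, h3, hE⟩ | ⟨t, k, D, htk, ht, hk, hD, hE⟩ | ⟨k, D, h1, h2, h3, hE⟩ |
    ⟨r, K, h1, h2, h3, h4, h5, hE⟩ | ⟨n₁, n₂, e, P, f₁, f₂, h0, h1, h2, h3, h4, h5, hE⟩ |
    ⟨F₀, r, P, h1, h2, h3, h4, hE⟩ | ⟨F₀, P, h1, h2, h3, hE⟩ | ⟨F₀, P, ζ, h1, h2, h3, h4, h5, h6, hE⟩ |
    ⟨r, R, p, e, k, h1, h2, h3, h4, h5, h6, h7, hE⟩ |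
    ⟨k, t, e, P, f₁, h0, h1, h2, h3, h4, h5, hE⟩ | hres
  · exact Or.inl (⟨W, h1, h2, hE⟩)
  · exact Or.inr (Or.inl (⟨W, h1, h2, h3, hE⟩))
  · have hkl : k ≤ 4 := by nlinarith
    have hc : (t = 9 ∧ k = 1) ∨ (t = 3 ∧ k = 3) := by
      interval_cases k <;> omega
    rcases hc with ⟨rfl, rfl⟩ | ⟨rfl, rfl⟩
    · exact Or.inr (Or.inr (Or.inl (⟨D, hD, hE⟩)))
    · exact Or.inr (Or.inr (Or.inr (Or.inl (⟨D, hD, hE⟩))))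
  · exfalso; omega
  · rcases odd_prime_cases_le_twelve h1 h2 ((Nat.le_of_dvd (by norm_num) h3).trans (by norm_num)) with rfl | rfl | rfl | rfl
    · exact Or.inr (Or.inr (Or.inr (Or.inr (Or.inl (⟨K, h4, h5, hE⟩)))))
    · exact absurd h3 (by norm_num)
    · exact absurd h3 (by norm_num)
    · exact absurd h3 (by norm_num)
  · have hn1 : n₁ ≤ 3 := by nlinarith
    exfalso
    interval_cases n₁ <;> omega
  · exact Or.inr (Or.inr (Or.inr (Or.inr (Or.inr (Or.inl (⟨F₀, r, P, h1, h2, h3, h4, hE⟩))))))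
  · exact Or.inr (Or.inr (Or.inr (Or.inr (Or.inr (Or.inr (Or.inl (⟨h1, F₀, P, h2, h3, hE⟩)))))))
  · exfalso; revert h1; decide
  · obtain rfl := eq_of_prime_dvd h1.prime h7 (a := 3) (by norm_num) (by norm_num)
    have hk : k = 2 := Nat.pow_right_injective (a := 3) (by norm_num) (by change 3 ^ k = 3 ^ 2; rw [← h7])
    subst hk
    rcases h6 with ⟨-, hZ, -, hRc⟩ | ⟨h, -⟩
    · rw [hZ] at h5
      obtain ⟨hp, hq, hmod⟩ := class6_uni_three hF h4 h5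
      exact Or.inr (Or.inr (Or.inr (Or.inr (Or.inr (Or.inr (Or.inr (Or.inl (⟨p, R, hp, hq, hmod, h1, h2, h3, hRc, hZ, hE⟩))))))))
    · exact absurd h (by norm_num)
  · obtain ⟨-, rfl, rfl⟩ := pow_cases (by norm_num) h0 h1 h2
    have hq : 3 ≤ q := by
      have := two_le_q hF
      by_contra hcon
      exact h3 ⟨by omega, rfl⟩
    exact Or.inr (Or.inr (Or.inr (Or.inr (Or.inr (Or.inr (Or.inr (Or.inr (Or.inl (⟨hq, e, P, f₁, h4, h5, hE⟩)))))))))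
  · exact Or.inr (Or.inr (Or.inr (Or.inr (Or.inr (Or.inr (Or.inr (Or.inr (Or.inr (hres)))))))))

theorem su_cases_10 {F : Type*} [Field F] [Fintype F] (q : ℕ) (hF : Fintype.card F = q ^ 2) (H : Subgroup (Matrix.GeneralLinearGroup (Fin 10) F))
    (hH : Cfsg.Geo.IsMaximalIn (Cfsg.GU 10 F q ⊓ Cfsg.Geo.specialLinear (Fin 10) F) H)
    (h : UContain 10 F q H) :
    (∃ W : Submodule F (Fin 10 → F), W ≠ ⊥ ∧ Cfsg.Geo.IsTotallySingularFor (Cfsg.hermForm 10 F q) W ∧ H = Cfsg.Geo.subspaceStabilizer W ⊓ (Cfsg.GU 10 F q ⊓ Cfsg.Geo.specialLinear (Fin 10) F)) ∨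
    (∃ W : Submodule F (Fin 10 → F), W ≠ ⊥ ∧ Cfsg.Geo.IsNondegenerateOn (Cfsg.hermForm 10 F q) W ∧ 2 * Module.finrank F W < 10 ∧ H = Cfsg.Geo.subspaceStabilizer W ⊓ (Cfsg.GU 10 F q ⊓ Cfsg.Geo.specialLinear (Fin 10) F)) ∨
    (∃ D : Fin 10 → Submodule F (Fin 10 → F), Cfsg.Geo.IsNondegenerateMDecomposition (Cfsg.hermForm 10 F q) 1 D ∧ H = Cfsg.Geo.decompositionStabilizer D ⊓ (Cfsg.GU 10 F q ⊓ Cfsg.Geo.specialLinear (Fin 10) F)) ∨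
    (3 ≤ q ∧ ∃ D : Fin 5 → Submodule F (Fin 10 → F), Cfsg.Geo.IsNondegenerateMDecomposition (Cfsg.hermForm 10 F q) 2 D ∧ H = Cfsg.Geo.decompositionStabilizer D ⊓ (Cfsg.GU 10 F q ⊓ Cfsg.Geo.specialLinear (Fin 10) F)) ∨
    (∃ D : Fin 2 → Submodule F (Fin 10 → F), Cfsg.Geo.IsNondegenerateMDecomposition (Cfsg.hermForm 10 F q) 5 D ∧ H = Cfsg.Geo.decompositionStabilizer D ⊓ (Cfsg.GU 10 F q ⊓ Cfsg.Geo.specialLinear (Fin 10) F)) ∨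
    (∃ D : Fin 2 → Submodule F (Fin 10 → F), Cfsg.Geo.IsMDecomposition 5 D ∧ (∀ i, Cfsg.Geo.IsTotallySingularFor (Cfsg.hermForm 10 F q) (D i)) ∧ H = Cfsg.Geo.decompositionStabilizer D ⊓ (Cfsg.GU 10 F q ⊓ Cfsg.Geo.specialLinear (Fin 10) F)) ∨
    (∃ K : Subalgebra F (Matrix (Fin 10) (Fin 10) F), Cfsg.Geo.IsFieldSubalgebra 5 K ∧ Cfsg.Geo.IsAdjointClosedFor (Cfsg.hermForm 10 F q) K ∧ H = Cfsg.Geo.subalgebraNormalizer K ⊓ (Cfsg.GU 10 F q ⊓ Cfsg.Geo.specialLinear (Fin 10) F)) ∨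
    (3 ≤ q ∧ ∃ (e : Fin 10 ≃ Fin 2 × Fin 5) (P : Matrix.GeneralLinearGroup (Fin 10) F) (f₁ : (Fin 2 → F) → (Fin 2 → F) → F) (f₂ : (Fin 5 → F) → (Fin 5 → F) → F), Cfsg.Geo.IsUnitaryFormPow q f₁ ∧ Cfsg.Geo.IsUnitaryFormPow q f₂ ∧ Cfsg.Geo.IsTensorFormStructure (fun x : F => x ^ q) (Cfsg.hermForm 10 F q) f₁ f₂ e P ∧ H = Cfsg.Geo.tensorProductSubgroup 2 5 e P ⊓ (Cfsg.GU 10 F q ⊓ Cfsg.Geo.specialLinear (Fin 10) F)) ∨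
    (∃ (F₀ : Subfield F) (r : ℕ) (P : Matrix.GeneralLinearGroup (Fin 10) F), r.Prime ∧ Odd r ∧ Fintype.card F = Nat.card F₀ ^ r ∧ Cfsg.Geo.IsFormRationalStructure (Cfsg.hermForm 10 F q) F₀ 1 P ∧ H = Cfsg.Geo.subfieldSubgroup F₀ P ⊓ (Cfsg.GU 10 F q ⊓ Cfsg.Geo.specialLinear (Fin 10) F)) ∨
    (∃ (F₀ : Subfield F) (P : Matrix.GeneralLinearGroup (Fin 10) F) (ζ : F), Fintype.card F = Nat.card F₀ ^ 2 ∧ ζ ≠ 0 ∧ ζ + ζ ^ q = 0 ∧ Cfsg.Geo.IsFormRationalStructure (Cfsg.hermForm 10 F q) F₀ ζ P ∧ (∀ u : Fin 10 → F, (∀ i, u i ∈ F₀) → (Cfsg.hermForm 10 F q) (Matrix.mulVec (P : Matrix (Fin 10) (Fin 10) F) u) (Matrix.mulVec (P : Matrix (Fin 10) (Fin 10) F) u) = 0) ∧ H = Cfsg.Geo.subfieldSubgroup F₀ P ⊓ (Cfsg.GU 10 F q ⊓ Cfsg.Geo.specialLinear (Fin 10) F)) ∨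
    (Odd q ∧ ∃ (F₀ : Subfield F) (P : Matrix.GeneralLinearGroup (Fin 10) F), Fintype.card F = Nat.card F₀ ^ 2 ∧ Cfsg.Geo.IsFormRationalStructure (Cfsg.hermForm 10 F q) F₀ 1 P ∧ H = Cfsg.Geo.subfieldSubgroup F₀ P ⊓ (Cfsg.GU 10 F q ⊓ Cfsg.Geo.specialLinear (Fin 10) F)) ∨
    Cfsg.Geo.InUnitaryResidualClass H := by
  rcases uEq_of_uContain hF (by norm_num) (by norm_num) hH h with
    ⟨W, h1, h2, hE⟩ | ⟨W, h1, h2, h3, hE⟩ | ⟨t, k, D, htk, ht, hk, hD, hE⟩ | ⟨k, D, h1, h2, h3, hE⟩ |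
    ⟨r, K, h1, h2, h3, h4, h5, hE⟩ | ⟨n₁, n₂, e, P, f₁, f₂, h0, h1, h2, h3, h4, h5, hE⟩ |
    ⟨F₀, r, P, h1, h2, h3, h4, hE⟩ | ⟨F₀, P, h1, h2, h3, hE⟩ | ⟨F₀, P, ζ, h1, h2, h3, h4, h5, h6, hE⟩ |
    ⟨r, R, p, e, k, h1, h2, h3, h4, h5, h6, h7, hE⟩ |
    ⟨k, t, e, P, f₁, h0, h1, h2, h3, h4, h5, hE⟩ | hres
  · exact Or.inl (⟨W, h1, h2, hE⟩)
  · exact Or.inr (Or.inl (⟨W, h1, h2, h3, hE⟩))
  · have hkl : k ≤ 5 := by nlinarith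
    have hc : (t = 10 ∧ k = 1) ∨ (t = 5 ∧ k = 2) ∨ (t = 2 ∧ k = 5) := by
      interval_cases k <;> omega
    rcases hc with ⟨rfl, rfl⟩ | ⟨rfl, rfl⟩ | ⟨rfl, rfl⟩
    · exact Or.inr (Or.inr (Or.inl (⟨D, hD, hE⟩)))
    · by_cases hq : 3 ≤ q
      · exact Or.inr (Or.inr (Or.inr (Or.inl (⟨hq, D, hD, hE⟩))))
      · obtain rfl : q = 2 := by have := two_le_q hF; omega
        obtain ⟨b, e, -, -, -, -, hdec, hle⟩ := planes_le_lines hF hD (by norm_num)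
        have hle' : H ≤ decompositionStabilizer (fun j => Submodule.span F {b (e j).1 (e j).2}) := by
          rw [hE]; exact hle
        exact Or.inr (Or.inr (Or.inl (⟨_, hdec, eq_inf_of_maximal hH hle'
          (not_le_decompositionStabilizer hF (by norm_num) (by norm_num) _ hdec.decomp)⟩)))
    · exact Or.inr (Or.inr (Or.inr (Or.inr (Or.inl (⟨D, hD, hE⟩)))))
  · obtain rfl : k = 5 := by omega
    exact Or.inr (Or.inr (Or.inr (Or.inr (Or.inr (Or.inl (⟨D, h2, h3, hE⟩))))))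
  · rcases odd_prime_cases_le_twelve h1 h2 ((Nat.le_of_dvd (by norm_num) h3).trans (by norm_num)) with rfl | rfl | rfl | rfl
    · exact absurd h3 (by norm_num)
    · exact Or.inr (Or.inr (Or.inr (Or.inr (Or.inr (Or.inr (Or.inl (⟨K, h4, h5, hE⟩)))))))
    · exact absurd h3 (by norm_num)
    · exact absurd h3 (by norm_num)
  · have hn1 : n₁ ≤ 3 := by nlinarith
    have hc : (n₁ = 2 ∧ n₂ = 5) := by
      interval_cases n₁ <;> omega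
    rcases hc with ⟨rfl, rfl⟩
    · by_cases hq : 3 ≤ q
      · exact Or.inr (Or.inr (Or.inr (Or.inr (Or.inr (Or.inr (Or.inr (Or.inl (⟨hq, e, P, f₁, f₂, h3, h4, h5, hE⟩))))))))
      · obtain rfl : q = 2 := by have := two_le_q hF; omega
        obtain ⟨D, hD, hle⟩ := tensor_le_decomp hF (by norm_num) e P f₁ f₂ h3 h4 h5
        have hle' : H ≤ decompositionStabilizer D := by
          rw [hE]; exact hle
        exact Or.inr (Or.inr (Or.inr (Or.inr (Or.inl (⟨_, hD, eq_inf_of_maximal hH hle'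
          (not_le_decompositionStabilizer hF (by norm_num) (by norm_num) _ hD.decomp)⟩)))))
  · exact Or.inr (Or.inr (Or.inr (Or.inr (Or.inr (Or.inr (Or.inr (Or.inr (Or.inl (⟨F₀, r, P, h1, h2, h3, h4, hE⟩)))))))))
  · exact Or.inr (Or.inr (Or.inr (Or.inr (Or.inr (Or.inr (Or.inr (Or.inr (Or.inr (Or.inr (Or.inl (⟨h1, F₀, P, h2, h3, hE⟩)))))))))))
  · exact Or.inr (Or.inr (Or.inr (Or.inr (Or.inr (Or.inr (Or.inr (Or.inr (Or.inr (Or.inl (⟨F₀, P, ζ, h2, h3, h4, h5, h6, hE⟩))))))))))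
  · exact absurd (no_two_primes h1.prime h7 (a := 2) (b := 5) (by norm_num) (by norm_num) (by norm_num) (by norm_num) (by norm_num)) id
  · exact absurd (pow_cases (by norm_num) h0 h1 h2).1 (by norm_num)
  · exact Or.inr (Or.inr (Or.inr (Or.inr (Or.inr (Or.inr (Or.inr (Or.inr (Or.inr (Or.inr (Or.inr (hres)))))))))))

theorem su_cases_11 {F : Type*} [Field F] [Fintype F] (q : ℕ) (hF : Fintype.card F = q ^ 2) (H : Subgroup (Matrix.GeneralLinearGroup (Fin 11) F))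
    (hH : Cfsg.Geo.IsMaximalIn (Cfsg.GU 11 F q ⊓ Cfsg.Geo.specialLinear (Fin 11) F) H)
    (h : UContain 11 F q H) :
    (∃ W : Submodule F (Fin 11 → F), W ≠ ⊥ ∧ Cfsg.Geo.IsTotallySingularFor (Cfsg.hermForm 11 F q) W ∧ H = Cfsg.Geo.subspaceStabilizer W ⊓ (Cfsg.GU 11 F q ⊓ Cfsg.Geo.specialLinear (Fin 11) F)) ∨
    (∃ W : Submodule F (Fin 11 → F), W ≠ ⊥ ∧ Cfsg.Geo.IsNondegenerateOn (Cfsg.hermForm 11 F q) W ∧ 2 * Module.finrank F W < 11 ∧ H = Cfsg.Geo.subspaceStabilizer W ⊓ (Cfsg.GU 11 F q ⊓ Cfsg.Geo.specialLinear (Fin 11) F)) ∨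
    (∃ D : Fin 11 → Submodule F (Fin 11 → F), Cfsg.Geo.IsNondegenerateMDecomposition (Cfsg.hermForm 11 F q) 1 D ∧ H = Cfsg.Geo.decompositionStabilizer D ⊓ (Cfsg.GU 11 F q ⊓ Cfsg.Geo.specialLinear (Fin 11) F)) ∨
    (∃ K : Subalgebra F (Matrix (Fin 11) (Fin 11) F), Cfsg.Geo.IsFieldSubalgebra 11 K ∧ Cfsg.Geo.IsAdjointClosedFor (Cfsg.hermForm 11 F q) K ∧ H = Cfsg.Geo.subalgebraNormalizer K ⊓ (Cfsg.GU 11 F q ⊓ Cfsg.Geo.specialLinear (Fin 11) F)) ∨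
    (∃ (F₀ : Subfield F) (r : ℕ) (P : Matrix.GeneralLinearGroup (Fin 11) F), r.Prime ∧ Odd r ∧ Fintype.card F = Nat.card F₀ ^ r ∧ Cfsg.Geo.IsFormRationalStructure (Cfsg.hermForm 11 F q) F₀ 1 P ∧ H = Cfsg.Geo.subfieldSubgroup F₀ P ⊓ (Cfsg.GU 11 F q ⊓ Cfsg.Geo.specialLinear (Fin 11) F)) ∨
    (Odd q ∧ ∃ (F₀ : Subfield F) (P : Matrix.GeneralLinearGroup (Fin 11) F), Fintype.card F = Nat.card F₀ ^ 2 ∧ Cfsg.Geo.IsFormRationalStructure (Cfsg.hermForm 11 F q) F₀ 1 P ∧ H = Cfsg.Geo.subfieldSubgroup F₀ P ⊓ (Cfsg.GU 11 F q ⊓ Cfsg.Geo.specialLinear (Fin 11) F)) ∨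
    (∃ (p : ℕ) (R : Subgroup (Matrix.GeneralLinearGroup (Fin 11) F)), p.Prime ∧ CharP F p ∧ ((q = p ∧ p % 11 = 10) ∨ (q = p ^ 5 ∧ (p % 11 = 2 ∨ p % 11 = 6 ∨ p % 11 = 7 ∨ p % 11 = 8))) ∧ Cfsg.Geo.IsSymplecticTypeGroup 11 R ∧ Cfsg.Geo.ActsAbsolutelyIrreducibly (Cfsg.Geo.matrixSet R) ∧ R ≤ Cfsg.GU 11 F q ∧ Nat.card R = 1331 ∧ Nat.card (Subgroup.center R) = 11 ∧ H = Cfsg.Geo.subgroupNormalizer R ⊓ (Cfsg.GU 11 F q ⊓ Cfsg.Geo.specialLinear (Fin 11) F)) ∨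
    Cfsg.Geo.InUnitaryResidualClass H := by
  rcases uEq_of_uContain hF (by norm_num) (by norm_num) hH h with
    ⟨W, h1, h2, hE⟩ | ⟨W, h1, h2, h3, hE⟩ | ⟨t, k, D, htk, ht, hk, hD, hE⟩ | ⟨k, D, h1, h2, h3, hE⟩ |
    ⟨r, K, h1, h2, h3, h4, h5, hE⟩ | ⟨n₁, n₂, e, P, f₁, f₂, h0, h1, h2, h3, h4, h5, hE⟩ |
    ⟨F₀, r, P, h1, h2, h3, h4, hE⟩ | ⟨F₀, P, h1, h2, h3, hE⟩ | ⟨F₀, P, ζ, h1, h2, h3, h4, h5, h6, hE⟩ |
    ⟨r, R, p, e, k, h1, h2, h3, h4, h5, h6, h7, hE⟩ |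
    ⟨k, t, e, P, f₁, h0, h1, h2, h3, h4, h5, hE⟩ | hres
  · exact Or.inl (⟨W, h1, h2, hE⟩)
  · exact Or.inr (Or.inl (⟨W, h1, h2, h3, hE⟩))
  · have hkl : k ≤ 5 := by nlinarith
    have hc : (t = 11 ∧ k = 1) := by
      interval_cases k <;> omega
    rcases hc with ⟨rfl, rfl⟩
    · exact Or.inr (Or.inr (Or.inl (⟨D, hD, hE⟩)))
  · exfalso; omega
  · rcases odd_prime_cases_le_twelve h1 h2 ((Nat.le_of_dvd (by norm_num) h3).trans (by norm_num)) with rfl | rfl | rfl | rfl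
    · exact absurd h3 (by norm_num)
    · exact absurd h3 (by norm_num)
    · exact absurd h3 (by norm_num)
    · exact Or.inr (Or.inr (Or.inr (Or.inl (⟨K, h4, h5, hE⟩))))
  · have hn1 : n₁ ≤ 3 := by nlinarith
    exfalso
    interval_cases n₁ <;> omega
  · exact Or.inr (Or.inr (Or.inr (Or.inr (Or.inl (⟨F₀, r, P, h1, h2, h3, h4, hE⟩)))))
  · exact Or.inr (Or.inr (Or.inr (Or.inr (Or.inr (Or.inl (⟨h1, F₀, P, h2, h3, hE⟩))))))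
  · exfalso; revert h1; decide
  · obtain rfl := eq_of_prime_dvd h1.prime h7 (a := 11) (by norm_num) (by norm_num)
    have hk : k = 1 := Nat.pow_right_injective (a := 11) (by norm_num) (by change 11 ^ k = 11 ^ 1; rw [← h7])
    subst hk
    rcases h6 with ⟨-, hZ, -, hRc⟩ | ⟨h, -⟩
    · rw [hZ] at h5
      obtain ⟨hp, hchar, hcase⟩ := class6_uni_eleven hF h4 h5
      have hexp : Monoid.exponent R = 11 := by rw [h1.exponent_eq]; norm_num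
      have hcop : Nat.Coprime 11 (q - 1) := coprime_eleven (two_le_q hF) hcase
      exact Or.inr (Or.inr (Or.inr (Or.inr (Or.inr (Or.inr (Or.inl (⟨p, R, hp, hchar, hcase, h1, h2, le_GU_of_similarity hF (by norm_num) hexp hcop h3, hRc, hZ, hE⟩)))))))
    · exact absurd h (by norm_num)
  · exact absurd (pow_cases (by norm_num) h0 h1 h2).1 (by norm_num)
  · exact Or.inr (Or.inr (Or.inr (Or.inr (Or.inr (Or.inr (Or.inr (hres)))))))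

theorem su_cases_12 {F : Type*} [Field F] [Fintype F] (q : ℕ) (hF : Fintype.card F = q ^ 2) (H : Subgroup (Matrix.GeneralLinearGroup (Fin 12) F))
    (hH : Cfsg.Geo.IsMaximalIn (Cfsg.GU 12 F q ⊓ Cfsg.Geo.specialLinear (Fin 12) F) H)
    (h : UContain 12 F q H) :
    (∃ W : Submodule F (Fin 12 → F), W ≠ ⊥ ∧ Cfsg.Geo.IsTotallySingularFor (Cfsg.hermForm 12 F q) W ∧ H = Cfsg.Geo.subspaceStabilizer W ⊓ (Cfsg.GU 12 F q ⊓ Cfsg.Geo.specialLinear (Fin 12) F)) ∨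
    (∃ W : Submodule F (Fin 12 → F), W ≠ ⊥ ∧ Cfsg.Geo.IsNondegenerateOn (Cfsg.hermForm 12 F q) W ∧ 2 * Module.finrank F W < 12 ∧ H = Cfsg.Geo.subspaceStabilizer W ⊓ (Cfsg.GU 12 F q ⊓ Cfsg.Geo.specialLinear (Fin 12) F)) ∨
    (∃ D : Fin 12 → Submodule F (Fin 12 → F), Cfsg.Geo.IsNondegenerateMDecomposition (Cfsg.hermForm 12 F q) 1 D ∧ H = Cfsg.Geo.decompositionStabilizer D ⊓ (Cfsg.GU 12 F q ⊓ Cfsg.Geo.specialLinear (Fin 12) F)) ∨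
    (3 ≤ q ∧ ∃ D : Fin 6 → Submodule F (Fin 12 → F), Cfsg.Geo.IsNondegenerateMDecomposition (Cfsg.hermForm 12 F q) 2 D ∧ H = Cfsg.Geo.decompositionStabilizer D ⊓ (Cfsg.GU 12 F q ⊓ Cfsg.Geo.specialLinear (Fin 12) F)) ∨
    (∃ D : Fin 4 → Submodule F (Fin 12 → F), Cfsg.Geo.IsNondegenerateMDecomposition (Cfsg.hermForm 12 F q) 3 D ∧ H = Cfsg.Geo.decompositionStabilizer D ⊓ (Cfsg.GU 12 F q ⊓ Cfsg.Geo.specialLinear (Fin 12) F)) ∨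
    (∃ D : Fin 3 → Submodule F (Fin 12 → F), Cfsg.Geo.IsNondegenerateMDecomposition (Cfsg.hermForm 12 F q) 4 D ∧ H = Cfsg.Geo.decompositionStabilizer D ⊓ (Cfsg.GU 12 F q ⊓ Cfsg.Geo.specialLinear (Fin 12) F)) ∨
    (∃ D : Fin 2 → Submodule F (Fin 12 → F), Cfsg.Geo.IsNondegenerateMDecomposition (Cfsg.hermForm 12 F q) 6 D ∧ H = Cfsg.Geo.decompositionStabilizer D ⊓ (Cfsg.GU 12 F q ⊓ Cfsg.Geo.specialLinear (Fin 12) F)) ∨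
    (∃ D : Fin 2 → Submodule F (Fin 12 → F), Cfsg.Geo.IsMDecomposition 6 D ∧ (∀ i, Cfsg.Geo.IsTotallySingularFor (Cfsg.hermForm 12 F q) (D i)) ∧ H = Cfsg.Geo.decompositionStabilizer D ⊓ (Cfsg.GU 12 F q ⊓ Cfsg.Geo.specialLinear (Fin 12) F)) ∨
    (∃ K : Subalgebra F (Matrix (Fin 12) (Fin 12) F), Cfsg.Geo.IsFieldSubalgebra 3 K ∧ Cfsg.Geo.IsAdjointClosedFor (Cfsg.hermForm 12 F q) K ∧ H = Cfsg.Geo.subalgebraNormalizer K ⊓ (Cfsg.GU 12 F q ⊓ Cfsg.Geo.specialLinear (Fin 12) F)) ∨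
    (3 ≤ q ∧ ∃ (e : Fin 12 ≃ Fin 2 × Fin 6) (P : Matrix.GeneralLinearGroup (Fin 12) F) (f₁ : (Fin 2 → F) → (Fin 2 → F) → F) (f₂ : (Fin 6 → F) → (Fin 6 → F) → F), Cfsg.Geo.IsUnitaryFormPow q f₁ ∧ Cfsg.Geo.IsUnitaryFormPow q f₂ ∧ Cfsg.Geo.IsTensorFormStructure (fun x : F => x ^ q) (Cfsg.hermForm 12 F q) f₁ f₂ e P ∧ H = Cfsg.Geo.tensorProductSubgroup 2 6 e P ⊓ (Cfsg.GU 12 F q ⊓ Cfsg.Geo.specialLinear (Fin 12) F)) ∨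
    (∃ (e : Fin 12 ≃ Fin 3 × Fin 4) (P : Matrix.GeneralLinearGroup (Fin 12) F) (f₁ : (Fin 3 → F) → (Fin 3 → F) → F) (f₂ : (Fin 4 → F) → (Fin 4 → F) → F), Cfsg.Geo.IsUnitaryFormPow q f₁ ∧ Cfsg.Geo.IsUnitaryFormPow q f₂ ∧ Cfsg.Geo.IsTensorFormStructure (fun x : F => x ^ q) (Cfsg.hermForm 12 F q) f₁ f₂ e P ∧ H = Cfsg.Geo.tensorProductSubgroup 3 4 e P ⊓ (Cfsg.GU 12 F q ⊓ Cfsg.Geo.specialLinear (Fin 12) F)) ∨
    (∃ (F₀ : Subfield F) (r : ℕ) (P : Matrix.GeneralLinearGroup (Fin 12) F), r.Prime ∧ Odd r ∧ Fintype.card F = Nat.card F₀ ^ r ∧ Cfsg.Geo.IsFormRationalStructure (Cfsg.hermForm 12 F q) F₀ 1 P ∧ H = Cfsg.Geo.subfieldSubgroup F₀ P ⊓ (Cfsg.GU 12 F q ⊓ Cfsg.Geo.specialLinear (Fin 12) F)) ∨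
    (∃ (F₀ : Subfield F) (P : Matrix.GeneralLinearGroup (Fin 12) F) (ζ : F), Fintype.card F = Nat.card F₀ ^ 2 ∧ ζ ≠ 0 ∧ ζ + ζ ^ q = 0 ∧ Cfsg.Geo.IsFormRationalStructure (Cfsg.hermForm 12 F q) F₀ ζ P ∧ (∀ u : Fin 12 → F, (∀ i, u i ∈ F₀) → (Cfsg.hermForm 12 F q) (Matrix.mulVec (P : Matrix (Fin 12) (Fin 12) F) u) (Matrix.mulVec (P : Matrix (Fin 12) (Fin 12) F) u) = 0) ∧ H = Cfsg.Geo.subfieldSubgroup F₀ P ⊓ (Cfsg.GU 12 F q ⊓ Cfsg.Geo.specialLinear (Fin 12) F)) ∨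
    (Odd q ∧ ∃ (F₀ : Subfield F) (P : Matrix.GeneralLinearGroup (Fin 12) F), Fintype.card F = Nat.card F₀ ^ 2 ∧ Cfsg.Geo.IsFormRationalStructure (Cfsg.hermForm 12 F q) F₀ 1 P ∧ H = Cfsg.Geo.subfieldSubgroup F₀ P ⊓ (Cfsg.GU 12 F q ⊓ Cfsg.Geo.specialLinear (Fin 12) F)) ∨
    Cfsg.Geo.InUnitaryResidualClass H := by
  rcases uEq_of_uContain hF (by norm_num) (by norm_num) hH h with
    ⟨W, h1, h2, hE⟩ | ⟨W, h1, h2, h3, hE⟩ | ⟨t, k, D, htk, ht, hk, hD, hE⟩ | ⟨k, D, h1, h2, h3, hE⟩ |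
    ⟨r, K, h1, h2, h3, h4, h5, hE⟩ | ⟨n₁, n₂, e, P, f₁, f₂, h0, h1, h2, h3, h4, h5, hE⟩ |
    ⟨F₀, r, P, h1, h2, h3, h4, hE⟩ | ⟨F₀, P, h1, h2, h3, hE⟩ | ⟨F₀, P, ζ, h1, h2, h3, h4, h5, h6, hE⟩ |
    ⟨r, R, p, e, k, h1, h2, h3, h4, h5, h6, h7, hE⟩ |
    ⟨k, t, e, P, f₁, h0, h1, h2, h3, h4, h5, hE⟩ | hres
  · exact Or.inl (⟨W, h1, h2, hE⟩)
  · exact Or.inr (Or.inl (⟨W, h1, h2, h3, hE⟩))
  · have hkl : k ≤ 6 := by nlinarith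
    have hc : (t = 12 ∧ k = 1) ∨ (t = 6 ∧ k = 2) ∨ (t = 4 ∧ k = 3) ∨ (t = 3 ∧ k = 4) ∨ (t = 2 ∧ k = 6) := by
      interval_cases k <;> omega
    rcases hc with ⟨rfl, rfl⟩ | ⟨rfl, rfl⟩ | ⟨rfl, rfl⟩ | ⟨rfl, rfl⟩ | ⟨rfl, rfl⟩
    · exact Or.inr (Or.inr (Or.inl (⟨D, hD, hE⟩)))
    · by_cases hq : 3 ≤ q
      · exact Or.inr (Or.inr (Or.inr (Or.inl (⟨hq, D, hD, hE⟩))))
      · obtain rfl : q = 2 := by have := two_le_q hF; omega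
        obtain ⟨b, e, -, -, -, -, hdec, hle⟩ := planes_le_lines hF hD (by norm_num)
        have hle' : H ≤ decompositionStabilizer (fun j => Submodule.span F {b (e j).1 (e j).2}) := by
          rw [hE]; exact hle
        exact Or.inr (Or.inr (Or.inl (⟨_, hdec, eq_inf_of_maximal hH hle'
          (not_le_decompositionStabilizer hF (by norm_num) (by norm_num) _ hdec.decomp)⟩)))
    · exact Or.inr (Or.inr (Or.inr (Or.inr (Or.inl (⟨D, hD, hE⟩)))))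
    · exact Or.inr (Or.inr (Or.inr (Or.inr (Or.inr (Or.inl (⟨D, hD, hE⟩))))))
    · exact Or.inr (Or.inr (Or.inr (Or.inr (Or.inr (Or.inr (Or.inl (⟨D, hD, hE⟩)))))))
  · obtain rfl : k = 6 := by omega
    exact Or.inr (Or.inr (Or.inr (Or.inr (Or.inr (Or.inr (Or.inr (Or.inl (⟨D, h2, h3, hE⟩))))))))
  · rcases odd_prime_cases_le_twelve h1 h2 (Nat.le_of_dvd (by norm_num) h3) with rfl | rfl | rfl | rfl
    · exact Or.inr (Or.inr (Or.inr (Or.inr (Or.inr (Or.inr (Or.inr (Or.inr (Or.inl (⟨K, h4, h5, hE⟩)))))))))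
    · exact absurd h3 (by norm_num)
    · exact absurd h3 (by norm_num)
    · exact absurd h3 (by norm_num)
  · have hn1 : n₁ ≤ 3 := by nlinarith
    have hc : (n₁ = 2 ∧ n₂ = 6) ∨ (n₁ = 3 ∧ n₂ = 4) := by
      interval_cases n₁ <;> omega
    rcases hc with ⟨rfl, rfl⟩ | ⟨rfl, rfl⟩
    · by_cases hq : 3 ≤ q
      · exact Or.inr (Or.inr (Or.inr (Or.inr (Or.inr (Or.inr (Or.inr (Or.inr (Or.inr (Or.inl (⟨hq, e, P, f₁, f₂, h3, h4, h5, hE⟩))))))))))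
      · obtain rfl : q = 2 := by have := two_le_q hF; omega
        obtain ⟨D, hD, hle⟩ := tensor_le_decomp hF (by norm_num) e P f₁ f₂ h3 h4 h5
        have hle' : H ≤ decompositionStabilizer D := by
          rw [hE]; exact hle
        exact Or.inr (Or.inr (Or.inr (Or.inr (Or.inr (Or.inr (Or.inl (⟨_, hD, eq_inf_of_maximal hH hle'
          (not_le_decompositionStabilizer hF (by norm_num) (by norm_num) _ hD.decomp)⟩)))))))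
    · exact Or.inr (Or.inr (Or.inr (Or.inr (Or.inr (Or.inr (Or.inr (Or.inr (Or.inr (Or.inr (Or.inl (⟨e, P, f₁, f₂, h3, h4, h5, hE⟩)))))))))))
  · exact Or.inr (Or.inr (Or.inr (Or.inr (Or.inr (Or.inr (Or.inr (Or.inr (Or.inr (Or.inr (Or.inr (Or.inl (⟨F₀, r, P, h1, h2, h3, h4, hE⟩))))))))))))
  · exact Or.inr (Or.inr (Or.inr (Or.inr (Or.inr (Or.inr (Or.inr (Or.inr (Or.inr (Or.inr (Or.inr (Or.inr (Or.inr (Or.inl (⟨h1, F₀, P, h2, h3, hE⟩))))))))))))))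
  · exact Or.inr (Or.inr (Or.inr (Or.inr (Or.inr (Or.inr (Or.inr (Or.inr (Or.inr (Or.inr (Or.inr (Or.inr (Or.inl (⟨F₀, P, ζ, h2, h3, h4, h5, h6, hE⟩)))))))))))))
  · exact absurd (no_two_primes h1.prime h7 (a := 2) (b := 3) (by norm_num) (by norm_num) (by norm_num) (by norm_num) (by norm_num)) id
  · exact absurd (pow_cases (by norm_num) h0 h1 h2).1 (by norm_num)
  · exact Or.inr (Or.inr (Or.inr (Or.inr (Or.inr (Or.inr (Or.inr (Or.inr (Or.inr (Or.inr (Or.inr (Or.inr (Or.inr (Or.inr (hres))))))))))))))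

end Cfsg.Agent.UCase
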