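import Mathlib
import Cfsg.Agent.UCase.Refl3
import Cfsg.Agent.UCase.TIFour

set_option autoImplicit false
set_option linter.unusedSectionVars false
set_option linter.unusedVariables false

/-!
Orthogonal frames in a rational structure of index two (dimension three, odd characteristic).
-/

namespace Cfsg.Agent.UCase

open scoped Matrix
open Cfsg.Geo Cfsg.Agent.Uni Cfsg.Agent.AschCases
open Matrix (GeneralLinearGroup)

namespace RF

variable {F : Type*} [Field F] [Fintype F] {q : ℕ}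

theorem card_sub (hF : Fintype.card F = q ^ 2) {F₀ : Subfield F}
    (hc : Fintype.card F = Nat.card F₀ ^ 2) : Nat.card F₀ = q := by
  have h3 : Nat.card F₀ ^ 2 = q ^ 2 := by rw [← hc, hF]
  exact Nat.pow_left_injective (n := 2) (by norm_num) h3

theorem mem_iff (hF : Fintype.card F = q ^ 2) {F₀ : Subfield F}
    (hc : Fintype.card F = Nat.card F₀ ^ 2) {x : F} : x ∈ F₀ ↔ x ^ q = x := by
  classical
  have h2 := card_sub hF hc
  have hsub : ∀ y ∈ F₀, y ^ q = y := by
    intro y hy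
    have := Fintype.ofFinite F₀
    have h4 := FiniteField.pow_card (⟨y, hy⟩ : F₀)
    rw [← Nat.card_eq_fintype_card, h2] at h4
    exact congrArg Subtype.val h4
  refine ⟨hsub x, fun hx => ?_⟩
  have h3 : (F₀ : Set F) = (fixF hF : Set F) := by
    apply Set.eq_of_subset_of_ncard_le
    · intro y hy
      exact (mem_fixF hF).2 (hsub y hy)
    · have e1 : (F₀ : Set F).ncard = q := by
        rw [← h2]; rfl
      have e2 : (fixF hF : Set F).ncard = q := card_fixF hF
      rw [e1, e2]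
    · exact Set.toFinite _
  have h4 : x ∈ (fixF hF : Set F) := (mem_fixF hF).2 hx
  rw [← h3] at h4
  exact h4

/-- Elements of the subfield group. -/
theorem exists_of_mem {n : ℕ} {F₀ : Subfield F} {P g : GL (Fin n) F}
    (hg : g ∈ subfieldSubgroup F₀ P) :
    ∃ c : F, c ≠ 0 ∧ ∀ x : Fin n → F, (∀ i, x i ∈ F₀) → ∃ y : Fin n → F, (∀ i, y i ∈ F₀) ∧
      (g : Matrix (Fin n) (Fin n) F) *ᵥ ((P : Matrix (Fin n) (Fin n) F) *ᵥ x) =
        c • ((P : Matrix (Fin n) (Fin n) F) *ᵥ y) := by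
  obtain ⟨m, hm, rfl⟩ := hg
  obtain ⟨a, ⟨a0, rfl⟩, z, hz, rfl⟩ := Subgroup.mem_sup_of_normal_right.1 hm
  obtain ⟨c, hc⟩ := (mem_scalars_iff z).1 hz
  refine ⟨c, c.ne_zero, fun x hx => ?_⟩
  refine ⟨((Matrix.GeneralLinearGroup.map (F₀.subtype : F₀ →+* F) a0 : GL (Fin n) F) :
    Matrix (Fin n) (Fin n) F) *ᵥ x, fun i => ?_, ?_⟩
  · rw [Matrix.mulVec, dotProduct]
    refine Subfield.sum_mem _ fun j _ => F₀.mul_mem ?_ (hx j)
    exact (a0.1 i j).2
  · change ((P * (_ * z) * P⁻¹ : GL (Fin n) F) : Matrix (Fin n) (Fin n) F) *ᵥ _ = _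
    rw [Matrix.mulVec_mulVec, ← Units.val_mul, inv_mul_cancel_right, Units.val_mul, Units.val_mul,
      hc, ← Matrix.mulVec_mulVec, ← Matrix.mulVec_mulVec, Matrix.smul_mulVec, Matrix.one_mulVec,
      Matrix.mulVec_smul, Matrix.mulVec_smul]

variable (hF : Fintype.card F = q ^ 2) {F₀ : Subfield F} {P : GL (Fin 3) F}
  (hc : Fintype.card F = Nat.card F₀ ^ 2)
  (hP : IsFormRationalStructure (hermForm 3 F q) F₀ 1 P)

/-- The form on the rational structure. -/
def BB (q : ℕ) (P : GL (Fin 3) F) (x y : Fin 3 → F) : F :=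
  hermForm 3 F q ((P : Matrix (Fin 3) (Fin 3) F) *ᵥ x) ((P : Matrix (Fin 3) (Fin 3) F) *ᵥ y)

include hP in
theorem BB_mem {x y : Fin 3 → F} (hx : ∀ i, x i ∈ F₀) (hy : ∀ i, y i ∈ F₀) : BB q P x y ∈ F₀ := by
  have := hP x y hx hy
  rwa [one_mul] at this

theorem BB_add_left (x y z : Fin 3 → F) : BB q P (x + y) z = BB q P x z + BB q P y z := by
  rw [BB, Matrix.mulVec_add, hermForm_add_left]; rfl

theorem BB_smul_left (c : F) (x z : Fin 3 → F) : BB q P (c • x) z = c * BB q P x z := by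
  rw [BB, Matrix.mulVec_smul, hermForm_smul_left]; rfl

include hF in
theorem BB_add_right (x y z : Fin 3 → F) : BB q P x (y + z) = BB q P x y + BB q P x z := by
  rw [BB, Matrix.mulVec_add, hermForm_add_right hF]; rfl

theorem BB_smul_right (c : F) (x z : Fin 3 → F) : BB q P x (c • z) = c ^ q * BB q P x z := by
  rw [BB, Matrix.mulVec_smul, hermForm_smul_right]; rfl

include hF hc hP in
theorem BB_symm {x y : Fin 3 → F} (hx : ∀ i, x i ∈ F₀) (hy : ∀ i, y i ∈ F₀) :
    BB q P x y = BB q P y x := by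
  have h1 := (mem_iff hF hc).1 (BB_mem hP hx hy)
  rw [← h1, BB, hermForm_symm hF]; rfl

include hF in
theorem BB_nondeg {x : Fin 3 → F} (h : ∀ k, BB q P x (Pi.single k 1) = 0) : x = 0 := by
  have h1 : (P : Matrix (Fin 3) (Fin 3) F) *ᵥ x = 0 := by
    apply hermForm_nondeg (q := q) hF
    intro v
    have h2 : v = (P : Matrix (Fin 3) (Fin 3) F) *ᵥ
        (((P⁻¹ : GL (Fin 3) F) : Matrix (Fin 3) (Fin 3) F) *ᵥ v) := by
      rw [Matrix.mulVec_mulVec, ← Units.val_mul, mul_inv_cancel, Units.val_one, Matrix.one_mulVec]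
    rw [h2]
    generalize ((P⁻¹ : GL (Fin 3) F) : Matrix (Fin 3) (Fin 3) F) *ᵥ v = y
    have h3 : y = ∑ k, y k • (Pi.single k 1 : Fin 3 → F) := by
      funext i
      simp [Finset.sum_apply, Pi.single_apply]
    change BB q P x y = 0
    rw [h3, BB, ← Matrix.mulVecLin_apply, ← Matrix.mulVecLin_apply, map_sum, hermForm_sum_right hF]
    apply Finset.sum_eq_zero
    intro k _
    rw [map_smul, hermForm_smul_right]
    have := h k
    rw [BB] at this
    rw [Matrix.mulVecLin_apply, Matrix.mulVecLin_apply, this, mul_zero]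
  exact Matrix.mulVec_injective_of_isUnit P.isUnit (by
    change (P : Matrix (Fin 3) (Fin 3) F) *ᵥ x = (P : Matrix (Fin 3) (Fin 3) F) *ᵥ 0
    rw [h1, Matrix.mulVec_zero])

include hF hc hP in
/-- An orthogonal frame. -/
theorem exists_ortho (h2 : (2 : F) ≠ 0) :
    ∃ w : Fin 3 → Fin 3 → F, (∀ i j, w i j ∈ F₀) ∧ (∀ i j, i ≠ j → BB q P (w i) (w j) = 0) ∧
      ∀ i, BB q P (w i) (w i) ≠ 0 := by
  let hat : (Fin 3 → F₀) → (Fin 3 → F) := fun x i => (x i : F)
  have hhat : ∀ x i, hat x i ∈ F₀ := fun x i => (x i).2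
  have hadd : ∀ x y, hat (x + y) = hat x + hat y := fun x y => rfl
  have hsmul : ∀ (c : F₀) x, hat (c • x) = (c : F) • hat x := fun c x => rfl
  let B : LinearMap.BilinForm F₀ (Fin 3 → F₀) :=
    LinearMap.mk₂ F₀ (fun x y => (⟨BB q P (hat x) (hat y), BB_mem hP (hhat x) (hhat y)⟩ : F₀))
      (fun x y z => Subtype.ext (by
        change BB q P (hat (x + y)) (hat z) = BB q P (hat x) (hat z) + BB q P (hat y) (hat z)
        rw [hadd, BB_add_left]))
      (fun c x y => Subtype.ext (by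
        change BB q P (hat (c • x)) (hat y) = (c : F) * BB q P (hat x) (hat y)
        rw [hsmul, BB_smul_left]))
      (fun x y z => Subtype.ext (by
        change BB q P (hat x) (hat (y + z)) = BB q P (hat x) (hat y) + BB q P (hat x) (hat z)
        rw [hadd, BB_add_right hF]))
      (fun c x y => Subtype.ext (by
        change BB q P (hat x) (hat (c • y)) = (c : F) * BB q P (hat x) (hat y)
        rw [hsmul, BB_smul_right, (mem_iff hF hc).1 c.2]))
  have hB : ∀ x y, ((B x y : F₀) : F) = BB q P (hat x) (hat y) := fun x y => rfl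
  have hsymm : B.IsSymm := ⟨fun x y => Subtype.ext (by
    rw [hB, hB]; exact BB_symm hF hc hP (hhat x) (hhat y))⟩
  have hinv : Invertible (2 : F₀) := invertibleOfNonzero (fun h => h2 (by
    have := congrArg (Subtype.val : F₀ → F) h
    exact this))
  obtain ⟨v, hv⟩ := LinearMap.BilinForm.exists_orthogonal_basis (LinearMap.BilinForm.isSymm_iff.1 hsymm)
  have hrank : Module.finrank F₀ (Fin 3 → F₀) = 3 := by simp
  let b := v.reindex (finCongr hrank)
  have hb : ∀ i j, i ≠ j → B (b i) (b j) = 0 := by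
    intro i j hij
    simp only [b, Module.Basis.reindex_apply]
    exact (LinearMap.isOrthoᵢ_def.1 hv) _ _ (fun h => hij ((finCongr hrank).symm.injective h))
  refine ⟨fun i => hat (b i), fun i j => hhat _ _, fun i j hij => ?_, fun i h0 => ?_⟩
  · rw [← hB, hb i j hij]; rfl
  · have h3 : ∀ y, B (b i) y = 0 := by
      intro y
      rw [← b.sum_repr y, map_sum]
      apply Finset.sum_eq_zero
      intro j _
      rw [map_smul]
      by_cases hij : i = j
      · subst hij
        have : B (b i) (b i) = 0 := Subtype.ext h0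
        rw [this, smul_zero]
      · rw [hb i j hij, smul_zero]
    have h4 : hat (b i) = 0 := by
      apply BB_nondeg hF (P := P)
      intro k
      have h5 : hat (Pi.single k 1) = Pi.single k 1 := by
        funext l
        simp only [hat, Pi.single_apply]
        split_ifs <;> rfl
      rw [← h5, ← hB, h3]; rfl
    apply b.ne_zero i
    funext k
    exact Subtype.ext (congrFun h4 k)

/-- Frames in a multiple of the rational structure. -/
def OFr (q : ℕ) (F₀ : Subfield F) (P : GL (Fin 3) F) (a b c : F) : Prop :=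
  ∃ (l : F) (w0 w1 w2 : Fin 3 → F), l ≠ 0 ∧ (∀ i, w0 i ∈ F₀) ∧ (∀ i, w1 i ∈ F₀) ∧ (∀ i, w2 i ∈ F₀) ∧
    BB q P w0 w1 = 0 ∧ BB q P w0 w2 = 0 ∧ BB q P w1 w2 = 0 ∧ l ^ (q + 1) * BB q P w0 w0 = a ∧
    l ^ (q + 1) * BB q P w1 w1 = b ∧ l ^ (q + 1) * BB q P w2 w2 = c

include hF hc hP in
theorem OFr.swap01 {a b c : F} (h : OFr q F₀ P a b c) : OFr q F₀ P b a c := by
  obtain ⟨l, w0, w1, w2, hl, h0, h1, h2, e1, e2, e3, e4, e5, e6⟩ := h
  exact ⟨l, w1, w0, w2, hl, h1, h0, h2, by rw [BB_symm hF hc hP h1 h0, e1], e3, e2, e5, e4, e6⟩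

include hF hc hP in
theorem OFr.swap12 {a b c : F} (h : OFr q F₀ P a b c) : OFr q F₀ P a c b := by
  obtain ⟨l, w0, w1, w2, hl, h0, h1, h2, e1, e2, e3, e4, e5, e6⟩ := h
  exact ⟨l, w0, w2, w1, hl, h0, h2, h1, e2, e1, by rw [BB_symm hF hc hP h2 h1, e3], e4, e6, e5⟩

include hF hc in
theorem OFr.scale2 {a b c : F} (h : OFr q F₀ P a b c) {s : F} (hs : s ∈ F₀) :
    OFr q F₀ P a b (s ^ 2 * c) := by
  obtain ⟨l, w0, w1, w2, hl, h0, h1, h2, e1, e2, e3, e4, e5, e6⟩ := h
  have hsq := (mem_iff hF hc).1 hs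
  refine ⟨l, w0, w1, s • w2, hl, h0, h1, fun i => F₀.mul_mem hs (h2 i), e1, ?_, ?_, e4, e5, ?_⟩
  · rw [BB_smul_right, e2, mul_zero]
  · rw [BB_smul_right, e3, mul_zero]
  · rw [BB_smul_right, BB_smul_left, hsq, ← e6]; ring

theorem OFr.scaleAll {a b c : F} (h : OFr q F₀ P a b c) {m : F} (hm : m ≠ 0) :
    OFr q F₀ P (m ^ (q + 1) * a) (m ^ (q + 1) * b) (m ^ (q + 1) * c) := by
  obtain ⟨l, w0, w1, w2, hl, h0, h1, h2, e1, e2, e3, e4, e5, e6⟩ := h
  refine ⟨m * l, w0, w1, w2, mul_ne_zero hm hl, h0, h1, h2, e1, e2, e3, ?_, ?_, ?_⟩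
  · rw [← e4]; ring
  · rw [← e5]; ring
  · rw [← e6]; ring

include hF hc hP in
theorem OFr.pair {a c : F} (h : OFr q F₀ P a a c) : OFr q F₀ P (2 * a) (2 * a) c := by
  obtain ⟨l, w0, w1, w2, hl, h0, h1, h2, e1, e2, e3, e4, e5, e6⟩ := h
  have e1' : BB q P w1 w0 = 0 := by rw [BB_symm hF hc hP h1 h0, e1]
  have en : BB q P w0 w0 = BB q P w1 w1 :=
    mul_left_cancel₀ (pow_ne_zero (q + 1) hl) (by rw [e4, e5])
  have hsub : ∀ x y : Fin 3 → F, x - y = x + (-1 : F) • y := fun x y => by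
    rw [neg_one_smul, sub_eq_add_neg]
  have hq1 : (-1 : F) ^ q = -1 := by
    have := neg_pow_q hF (1 : F)
    rwa [one_pow] at this
  refine ⟨l, w0 + w1, w0 - w1, w2, hl, fun i => F₀.add_mem (h0 i) (h1 i),
    fun i => F₀.sub_mem (h0 i) (h1 i), h2, ?_, ?_, ?_, ?_, ?_, e6⟩
  · rw [hsub, BB_add_left, BB_add_right hF, BB_add_right hF, BB_smul_right, BB_smul_right, e1, e1',
      en, hq1]
    ring
  · rw [BB_add_left, e2, e3, add_zero]
  · rw [hsub, BB_add_left, BB_smul_left, e2, e3, mul_zero, add_zero]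
  · rw [BB_add_left, BB_add_right hF, BB_add_right hF, e1, e1']
    linear_combination e4 + e5
  · rw [hsub, BB_add_left, BB_add_right hF, BB_add_right hF, BB_smul_left, BB_smul_left,
      BB_smul_right, BB_smul_right, e1, e1', hq1]
    linear_combination e4 + e5

include hF hc hP in
theorem exists_OFr (h2 : (2 : F) ≠ 0) : ∃ a b c : F, a ^ q = a ∧ b ^ q = b ∧ c ^ q = c ∧
    a ≠ 0 ∧ b ≠ 0 ∧ c ≠ 0 ∧ OFr q F₀ P a b c := by
  obtain ⟨w, hw, hw1, hw2⟩ := exists_ortho hF hc hP h2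
  refine ⟨BB q P (w 0) (w 0), BB q P (w 1) (w 1), BB q P (w 2) (w 2),
    hermForm_self_pow_q hF _, hermForm_self_pow_q hF _, hermForm_self_pow_q hF _, hw2 0, hw2 1, hw2 2,
    1, w 0, w 1, w 2, one_ne_zero, hw 0, hw 1, hw 2, hw1 _ _ (by decide), hw1 _ _ (by decide),
    hw1 _ _ (by decide), ?_, ?_, ?_⟩ <;> rw [one_pow, one_mul]

include hF hc hP in
/-- Coordinates from a frame with all norms equal to `ε`. -/
theorem OFr.exists_frame {ε : F} (hε : ε ≠ 0) (h : OFr q F₀ P ε ε ε) :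
    ∃ u : Fin 3 → Fin 3 → F, (∀ i j, hermForm 3 F q (u i) (u j) = if i = j then ε else 0) ∧
      ∀ g ∈ subfieldSubgroup F₀ P, ∃ (c : F) (A : Fin 3 → Fin 3 → F), c ≠ 0 ∧ (∀ i j, A i j ∈ F₀) ∧
        ∀ i, (g : Matrix (Fin 3) (Fin 3) F) *ᵥ u i = c • ∑ j, A j i • u j := by
  obtain ⟨l, w0, w1, w2, hl, h0, h1, h2, e1, e2, e3, e4, e5, e6⟩ := h
  have e1' : BB q P w1 w0 = 0 := by rw [BB_symm hF hc hP h1 h0, e1]
  have e2' : BB q P w2 w0 = 0 := by rw [BB_symm hF hc hP h2 h0, e2]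
  have e3' : BB q P w2 w1 = 0 := by rw [BB_symm hF hc hP h2 h1, e3]
  let w : Fin 3 → Fin 3 → F := ![w0, w1, w2]
  have hw : ∀ i j, w i j ∈ F₀ := by
    intro i
    fin_cases i
    · exact h0
    · exact h1
    · exact h2
  have hBw : ∀ i j, l ^ (q + 1) * BB q P (w i) (w j) = if i = j then ε else 0 := by
    intro i j
    fin_cases i <;> fin_cases j <;> simp [w, e1, e2, e3, e1', e2', e3', e4, e5, e6]
  let u : Fin 3 → Fin 3 → F := fun i => l • ((P : Matrix (Fin 3) (Fin 3) F) *ᵥ w i)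
  have hu : ∀ i j, hermForm 3 F q (u i) (u j) = if i = j then ε else 0 := by
    intro i j
    rw [← hBw, BB]
    simp only [u]
    rw [hermForm_smul_left, hermForm_smul_right]
    ring
  refine ⟨u, hu, fun g hg => ?_⟩
  -- the frame is a basis
  have hsum : ∀ z : Fin 3 → F, z = ∑ j, (ε⁻¹ * hermForm 3 F q z (u j)) • u j := by
    intro z
    have hli : LinearIndependent F u := by
      rw [Fintype.linearIndependent_iff]
      intro a ha i
      have h3 : hermForm 3 F q (∑ j, a j • u j) (u i) = a i * ε := by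
        rw [hermForm_sum_left, Finset.sum_eq_single i]
        · rw [hermForm_smul_left, hu, if_pos rfl]
        · intro j _ hji
          rw [hermForm_smul_left, hu, if_neg hji, mul_zero]
        · intro h; exact absurd (Finset.mem_univ _) h
      rw [ha, hermForm_zero_left] at h3
      exact (mul_eq_zero.1 h3.symm).resolve_right hε
    let Bs : Module.Basis (Fin 3) F (Fin 3 → F) :=
      basisOfLinearIndependentOfCardEqFinrank' u hli (by rw [Fintype.card_fin, Module.finrank_fin_fun])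
    have hBs : ∀ i, Bs i = u i := fun i => by
      simp only [Bs, coe_basisOfLinearIndependentOfCardEqFinrank']
    have h4 : z = ∑ j, Bs.repr z j • u j := by
      conv_lhs => rw [← Bs.sum_repr z]
      exact Finset.sum_congr rfl fun j _ => by rw [hBs]
    have h5 : ∀ i, hermForm 3 F q z (u i) = Bs.repr z i * ε := by
      intro i
      conv_lhs => rw [h4]
      rw [hermForm_sum_left, Finset.sum_eq_single i]
      · rw [hermForm_smul_left, hu, if_pos rfl]
      · intro j _ hji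
        rw [hermForm_smul_left, hu, if_neg hji, mul_zero]
      · intro h; exact absurd (Finset.mem_univ _) h
    conv_lhs => rw [h4]
    refine Finset.sum_congr rfl fun j _ => ?_
    rw [h5]
    congr 1
    field_simp
  obtain ⟨c, hc0, hcx⟩ := exists_of_mem hg
  choose y hy hgy using fun i => hcx (w i) (hw i)
  have hε' : ε⁻¹ ∈ F₀ := by
    apply F₀.inv_mem
    rw [← e4]
    apply F₀.mul_mem
    · rw [mem_iff hF hc]
      exact norm_pow_q hF l
    · exact BB_mem hP h0 h0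
  have hlq : l ^ (q + 1) ∈ F₀ := by
    rw [mem_iff hF hc]
    exact norm_pow_q hF l
  refine ⟨c, fun j i => ε⁻¹ * (l ^ (q + 1) * BB q P (y i) (w j)), hc0,
    fun j i => F₀.mul_mem hε' (F₀.mul_mem hlq (BB_mem hP (hy i) (hw j))), fun i => ?_⟩
  have h6 : (g : Matrix (Fin 3) (Fin 3) F) *ᵥ u i = c • (l • ((P : Matrix (Fin 3) (Fin 3) F) *ᵥ y i)) := by
    simp only [u]
    rw [Matrix.mulVec_smul, hgy, smul_comm]
  rw [h6]
  congr 1
  conv_lhs => rw [hsum (l • ((P : Matrix (Fin 3) (Fin 3) F) *ᵥ y i))]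
  refine Finset.sum_congr rfl fun j _ => ?_
  congr 2
  simp only [u]
  rw [hermForm_smul_left, hermForm_smul_right, BB]
  ring

end RF

end Cfsg.Agent.UCase
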