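import Mathlib
import Cfsg.Agent.UCase.MonoFive
import Cfsg.Agent.UCase.RatFrame

set_option autoImplicit false
set_option linter.unusedSectionVars false
set_option linter.unusedVariables false

/-!
`SU_3(5)`: the orthogonal group over the prime field is not maximal.
-/

namespace Cfsg.Agent.UCase

open scoped Matrix
open Cfsg.Geo Cfsg.Agent.Uni Cfsg.Agent.AschCases
open Matrix (GeneralLinearGroup)

namespace SF

open F25 MF

def hh (x y z : ℕ) : ℕ := ad (ad (nn x) (nn y)) (nn z)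
def bb (x y z : ℕ) : ℕ := ad (ad (sqr x) (sqr y)) (sqr z)
def cube (x : ℕ) : ℕ := ml (ml x x) x
def rr (x y z : ℕ) : Bool := decide (ml (cj x) y = ml x (cj y)) && decide (ml (cj x) z = ml x (cj z)) &&
  decide (ml (cj y) z = ml y (cj z))

def tst (x y z : ℕ) : Bool :=
  decide (hh x y z ≠ 0) && (decide (bb x y z = 0) || decide (cube (bb x y z) = ml 2 (hh x y z)) ||
    decide (cube (bb x y z) = ml 4 (hh x y z)) || rr x y z)

/-- The coordinate sum. -/
def sm (x y z : ℕ) : ℕ := ad (ad x y) (ml 15 z)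

theorem tst_T1 : ∀ b < 25, ∀ c < 25, tst 1 b c = true →
    tst (ad 1 (ml 2 (sm 1 b c))) (ad b (ml 2 (sm 1 b c))) (ad c (ml 20 (sm 1 b c))) = true := by
  decide +kernel

theorem tst_T2 : ∀ c < 25, tst 0 1 c = true →
    tst (ad 0 (ml 2 (sm 0 1 c))) (ad 1 (ml 2 (sm 0 1 c))) (ad c (ml 20 (sm 0 1 c))) = true := by
  decide +kernel

theorem tst_T3 : tst 0 0 1 = true →
    tst (ad 0 (ml 2 (sm 0 0 1))) (ad 0 (ml 2 (sm 0 0 1))) (ad 1 (ml 20 (sm 0 0 1))) = true := by
  decide +kernel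

theorem tst_100 : tst 1 0 0 = true := by decide +kernel

theorem tst_bad : tst 6 10 0 = false := by decide +kernel

section S

variable {F : Type*} [Field F]

/-- Real multiples. -/
def RR (X : Fin 3 → F) : Prop := ∀ i j, X i ^ 5 * X j = X i * X j ^ 5

/-- The set of vectors. -/
def SS (X : Fin 3 → F) : Prop :=
  (∑ i, X i ^ 6 ≠ 0) ∧ (∑ i, X i ^ 2 = 0 ∨ (∑ i, X i ^ 2) ^ 3 = 2 * ∑ i, X i ^ 6 ∨
    (∑ i, X i ^ 2) ^ 3 = 4 * ∑ i, X i ^ 6 ∨ RR X)

theorem SS_scale {X : Fin 3 → F} {c : F} (hc : c ≠ 0) (h : SS X) : SS (c • X) := by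
  have e1 : ∑ i, (c • X) i ^ 6 = c ^ 6 * ∑ i, X i ^ 6 := by
    rw [Finset.mul_sum]
    exact Finset.sum_congr rfl fun i _ => by rw [Pi.smul_apply, smul_eq_mul, mul_pow]
  have e2 : ∑ i, (c • X) i ^ 2 = c ^ 2 * ∑ i, X i ^ 2 := by
    rw [Finset.mul_sum]
    exact Finset.sum_congr rfl fun i _ => by rw [Pi.smul_apply, smul_eq_mul, mul_pow]
  obtain ⟨h1, h2⟩ := h
  refine ⟨by rw [e1]; exact mul_ne_zero (pow_ne_zero _ hc) h1, ?_⟩
  rw [e1, e2]
  rcases h2 with h2 | h2 | h2 | h2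
  · left; rw [h2, mul_zero]
  · right; left; rw [mul_pow, h2]; ring
  · right; right; left; rw [mul_pow, h2]; ring
  · right; right; right
    intro i j
    simp only [Pi.smul_apply, smul_eq_mul, mul_pow]
    linear_combination c ^ 6 * h2 i j

theorem SS_zero : ¬ SS (0 : Fin 3 → F) := by
  rintro ⟨h, -⟩
  apply h
  apply Finset.sum_eq_zero
  intro i _
  exact zero_pow (by norm_num)

variable [Fintype F] {θ : F} (hF : Fintype.card F = 5 ^ 2) (h5 : (5 : F) = 0) (hθ : θ * θ = 2)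
include hF h5 hθ

theorem SS_iff (x y z : ℕ) : SS ![psi θ x, psi θ y, psi θ z] ↔ tst x y z = true := by
  have hz : ∀ {a}, a < 25 → (psi θ a = 0 ↔ a = 0) := fun ha => by
    rw [← psi_zero θ, psi_eq_iff h5 hθ ha (by norm_num)]
  have e1 : ∑ i, (![psi θ x, psi θ y, psi θ z] : Fin 3 → F) i ^ 6 = psi θ (hh x y z) := by
    rw [Fin.sum_univ_three, hh, psi_ad h5, psi_ad h5, ← nn_psi hF h5 hθ, ← nn_psi hF h5 hθ,
      ← nn_psi hF h5 hθ]
    rfl
  have e2 : ∑ i, (![psi θ x, psi θ y, psi θ z] : Fin 3 → F) i ^ 2 = psi θ (bb x y z) := by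
    rw [Fin.sum_univ_three, bb, psi_ad h5, psi_ad h5, sqr, sqr, sqr, psi_ml h5 hθ, psi_ml h5 hθ,
      psi_ml h5 hθ]
    simp only [Matrix.cons_val_zero, Matrix.cons_val_one, Matrix.cons_val]
    ring
  have e3 : psi θ (bb x y z) ^ 3 = psi θ (cube (bb x y z)) := by
    rw [cube, psi_ml h5 hθ, psi_ml h5 hθ]; ring
  have h4 : ∀ a, 4 * psi θ a = psi θ (ml 4 a) := fun a => by
    rw [psi_ml h5 hθ]; congr 1; simp [psi]
  have h2 : ∀ a, 2 * psi θ a = psi θ (ml 2 a) := fun a => by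
    rw [psi_ml h5 hθ]; congr 1; simp [psi]
  have e4 : ∀ a b, psi θ a ^ 5 * psi θ b = psi θ a * psi θ b ^ 5 ↔ ml (cj a) b = ml a (cj b) := by
    intro a b
    rw [← psi_cj h5 hθ hF, ← psi_cj h5 hθ hF, ← psi_ml h5 hθ, ← psi_ml h5 hθ,
      psi_eq_iff h5 hθ (ml_lt _ _) (ml_lt _ _)]
  have e5 : RR ![psi θ x, psi θ y, psi θ z] ↔ rr x y z = true := by
    unfold rr
    simp only [Bool.and_eq_true, decide_eq_true_eq, ← e4]
    constructor
    · intro h
      exact ⟨⟨h 0 1, h 0 2⟩, h 1 2⟩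
    · rintro ⟨⟨h01, h02⟩, h12⟩ i j
      fin_cases i <;> fin_cases j
      · change psi θ x ^ 5 * psi θ x = psi θ x * psi θ x ^ 5; ring
      · exact h01
      · exact h02
      · change psi θ y ^ 5 * psi θ x = psi θ y * psi θ x ^ 5; linear_combination -h01
      · change psi θ y ^ 5 * psi θ y = psi θ y * psi θ y ^ 5; ring
      · exact h12
      · change psi θ z ^ 5 * psi θ x = psi θ z * psi θ x ^ 5; linear_combination -h02
      · change psi θ z ^ 5 * psi θ y = psi θ z * psi θ y ^ 5; linear_combination -h12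
      · change psi θ z ^ 5 * psi θ z = psi θ z * psi θ z ^ 5; ring
  have l1 : hh x y z < 25 := ad_lt _ _
  have l2 : bb x y z < 25 := ad_lt _ _
  have l3 : cube (bb x y z) < 25 := ml_lt _ _
  unfold SS tst
  rw [e1, e2, e3, e5, h4, h2, Ne, hz l1, hz l2, psi_eq_iff h5 hθ l3 (ml_lt _ _),
    psi_eq_iff h5 hθ l3 (ml_lt _ _)]
  simp only [Bool.or_eq_true, Bool.and_eq_true, decide_eq_true_eq]
  tauto

/-- The extra element, up to sign. -/
def TT (θ : F) (X : Fin 3 → F) : Fin 3 → F :=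
  ![X 0 + 2 * (X 0 + X 1 + 3 * θ * X 2), X 1 + 2 * (X 0 + X 1 + 3 * θ * X 2),
    X 2 + 4 * θ * (X 0 + X 1 + 3 * θ * X 2)]

omit [Fintype F] hF h5 hθ in
theorem TT_scale (c : F) (X : Fin 3 → F) : TT θ (c • X) = c • TT θ X := by
  funext i
  fin_cases i <;> simp [TT] <;> ring

theorem SS_T_aux (x y z : ℕ) (h : tst x y z = true → tst (ad x (ml 2 (sm x y z)))
    (ad y (ml 2 (sm x y z))) (ad z (ml 20 (sm x y z))) = true)
    (hS : SS ![psi θ x, psi θ y, psi θ z]) : SS (TT θ ![psi θ x, psi θ y, psi θ z]) := by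
  rw [SS_iff hF h5 hθ] at hS
  have h1 := h hS
  rw [← SS_iff hF h5 hθ] at h1
  have h2 : psi θ 2 = 2 := by simp [psi]
  have h15 : psi θ 15 = 3 * θ := by simp [psi]
  have h20 : psi θ 20 = 4 * θ := by simp [psi]
  convert h1 using 1
  simp only [psi_ad h5, psi_ml h5 hθ, sm, h2, h15, h20, TT]
  rfl

theorem SS_T {X : Fin 3 → F} (hX : SS X) : SS (TT θ X) := by
  have hscale : ∀ (c : F) (Y : Fin 3 → F), c ≠ 0 → X = c • Y → SS (TT θ Y) → SS (TT θ X) := by
    intro c Y hc hXY h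
    rw [hXY, TT_scale]
    exact SS_scale hc h
  have hback : ∀ (c : F) (Y : Fin 3 → F), c ≠ 0 → X = c • Y → SS Y := by
    intro c Y hc hXY
    have h1 := SS_scale (inv_ne_zero hc) hX
    rwa [hXY, smul_smul, inv_mul_cancel₀ hc, one_smul] at h1
  by_cases h0 : X 0 = 0
  · by_cases h1 : X 1 = 0
    · have h2 : X 2 ≠ 0 := by
        intro h2
        apply SS_zero (F := F)
        convert hX using 1
        funext i
        fin_cases i
        · exact h0.symm
        · exact h1.symm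
        · exact h2.symm
      have hXY : X = X 2 • ![psi θ 0, psi θ 0, psi θ 1] := by
        funext i
        fin_cases i
        · simp [psi_zero, h0]
        · simp [psi_zero, h1]
        · simp [psi_one]
      exact hscale _ _ h2 hXY (SS_T_aux hF h5 hθ _ _ _ tst_T3 (hback _ _ h2 hXY))
    · obtain ⟨c, hc, hc'⟩ := psi_surj h5 hθ hF ((X 1)⁻¹ * X 2)
      have hXY : X = X 1 • ![psi θ 0, psi θ 1, psi θ c] := by
        funext i
        fin_cases i
        · simp [psi_zero, h0]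
        · simp [psi_one]
        · simp [hc', h1]
      exact hscale _ _ h1 hXY (SS_T_aux hF h5 hθ _ _ _ (tst_T2 c hc) (hback _ _ h1 hXY))
  · obtain ⟨b, hb, hb'⟩ := psi_surj h5 hθ hF ((X 0)⁻¹ * X 1)
    obtain ⟨c, hc, hc'⟩ := psi_surj h5 hθ hF ((X 0)⁻¹ * X 2)
    have hXY : X = X 0 • ![psi θ 1, psi θ b, psi θ c] := by
      funext i
      fin_cases i
      · simp [psi_one]
      · simp [hb', h0]
      · simp [hc', h0]
    exact hscale _ _ h0 hXY (SS_T_aux hF h5 hθ _ _ _ (tst_T1 b hb c hc) (hback _ _ h0 hXY))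

end S

variable {F : Type*} [Field F] [Fintype F]

theorem prime_cases (h5 : (5 : F) = 0) {a : F} (ha : a ^ 5 = a) (ha0 : a ≠ 0) :
    a = 1 ∨ a = 2 ∨ a = 3 ∨ a = 4 := by
  have h1 : a * ((a - 1) * (a - 2) * (a - 3) * (a - 4)) = 0 := by
    linear_combination ha + (-2 * a ^ 4 + 7 * a ^ 3 - 10 * a ^ 2 + 5 * a) * h5
  have h2 := (mul_eq_zero.1 h1).resolve_left ha0
  simp only [mul_eq_zero, sub_eq_zero] at h2
  tauto

section Frame

variable (hF : Fintype.card F = 5 ^ 2) {F₀ : Subfield F} {P : GL (Fin 3) F}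
  (hc : Fintype.card F = Nat.card F₀ ^ 2)
  (hP : IsFormRationalStructure (hermForm 3 F 5) F₀ 1 P)
include hF hc hP

theorem OFr12 {a b c : F} (hcc : c ^ 5 = c) (hc0 : c ≠ 0) (h : RF.OFr 5 F₀ P a b c) :
    RF.OFr 5 F₀ P a b 1 ∨ RF.OFr 5 F₀ P a b 2 := by
  have h5 := F25.five_eq_zero hF
  have h2 : (2 : F) ∈ F₀ := by
    rw [RF.mem_iff hF hc]; linear_combination 6 * h5
  rcases prime_cases h5 hcc hc0 with rfl | rfl | rfl | rfl
  · exact Or.inl h
  · exact Or.inr h
  · right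
    have := h.scale2 hF hc h2
    have e : (2 : F) ^ 2 * 3 = 2 := by linear_combination 2 * h5
    rwa [e] at this
  · left
    have := h.scale2 hF hc h2
    have e : (2 : F) ^ 2 * 4 = 1 := by linear_combination 3 * h5
    rwa [e] at this

theorem K1 {c : F} (h : RF.OFr 5 F₀ P 2 2 c) : RF.OFr 5 F₀ P 1 1 c := by
  have h5 := F25.five_eq_zero hF
  have h2 : (2 : F) ∈ F₀ := by
    rw [RF.mem_iff hF hc]; linear_combination 6 * h5
  have e : (2 : F) ^ 2 * (2 * 2) = 1 := by linear_combination 3 * h5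
  have h1 := h.pair hF hc hP
  have h3 := ((h1.swap12 hF hc hP).scale2 hF hc h2)
  rw [e] at h3
  have h4 := (((h3.swap12 hF hc hP).swap01 hF hc hP).swap12 hF hc hP).scale2 hF hc h2
  rw [e] at h4
  exact h4.swap12 hF hc hP

theorem K2 (h : RF.OFr 5 F₀ P 1 1 2) : RF.OFr 5 F₀ P 1 1 1 := by
  have h5 := F25.five_eq_zero hF
  obtain ⟨m, hm⟩ := exists_norm_eq (F := F) (q := 5) hF (c := 3) (by linear_combination 48 * h5)
  have hm0 : m ≠ 0 := by
    rintro rfl
    rw [zero_pow (by norm_num)] at hm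
    apply one_ne_zero (α := F)
    linear_combination (-2 : F) * hm - h5
  have h1 := h.scaleAll hm0
  rw [hm, mul_one] at h1
  have h3 := h1.pair hF hc hP
  have e : (2 : F) * 3 = 1 := by linear_combination h5
  have e' : (3 : F) * 2 = 1 := by linear_combination h5
  rwa [e, e'] at h3

theorem exists_ON_frame : RF.OFr 5 F₀ P 1 1 1 := by
  have h5 := F25.five_eq_zero hF
  have h20 : (2 : F) ≠ 0 := by
    intro h
    have := F25.cast_ne_zero_of_lt h5 (a := 2) (by norm_num) (by exact_mod_cast h)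
    omega
  obtain ⟨a, b, c, ha, hb, hcc, ha0, hb0, hc0, h⟩ := RF.exists_OFr hF hc hP h20
  have hA : ∀ b c : F, b ^ 5 = b → b ≠ 0 → c ^ 5 = c → c ≠ 0 → RF.OFr 5 F₀ P a b c →
      RF.OFr 5 F₀ P a 1 1 ∨ RF.OFr 5 F₀ P a 1 2 ∨ RF.OFr 5 F₀ P a 2 1 ∨ RF.OFr 5 F₀ P a 2 2 := by
    intro b c hb hb0 hc' hc0 h
    rcases OFr12 hF hc hP hc' hc0 h with h1 | h1
    · rcases OFr12 hF hc hP hb hb0 (h1.swap12 hF hc hP) with h3 | h3
      · exact Or.inl (h3.swap12 hF hc hP)
      · exact Or.inr (Or.inr (Or.inl (h3.swap12 hF hc hP)))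
    · rcases OFr12 hF hc hP hb hb0 (h1.swap12 hF hc hP) with h3 | h3
      · exact Or.inr (Or.inl (h3.swap12 hF hc hP))
      · exact Or.inr (Or.inr (Or.inr (h3.swap12 hF hc hP)))
  have hB : ∀ x y : F, RF.OFr 5 F₀ P a x y → RF.OFr 5 F₀ P x y 1 ∨ RF.OFr 5 F₀ P x y 2 := by
    intro x y h
    exact OFr12 hF hc hP ha ha0 ((h.swap01 hF hc hP).swap12 hF hc hP)
  have h111 := fun h => K2 hF hc hP h
  rcases hA b c hb hb0 hcc hc0 h with h1 | h1 | h1 | h1
  · rcases hB _ _ h1 with h3 | h3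
    · exact h3
    · exact h111 h3
  · rcases hB _ _ h1 with h3 | h3
    · exact h111 (h3.swap12 hF hc hP)
    · -- (1, 2, 2)
      exact (((K1 hF hc hP ((h3.swap01 hF hc hP).swap12 hF hc hP))))
  · rcases hB _ _ h1 with h3 | h3
    · exact h111 ((h3.swap01 hF hc hP).swap12 hF hc hP)
    · exact K1 hF hc hP (h3.swap12 hF hc hP)
  · rcases hB _ _ h1 with h3 | h3
    · exact K1 hF hc hP h3
    · exact h111 (K1 hF hc hP h3)

end Frame

/-- The orthogonal group over the prime field in `SU_3(5)` is not maximal. -/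
theorem so_three_five (hF : Fintype.card F = 5 ^ 2) {F₀ : Subfield F} {P : GL (Fin 3) F}
    (hc : Fintype.card F = Nat.card F₀ ^ 2)
    (hP : IsFormRationalStructure (hermForm 3 F 5) F₀ 1 P) :
    ∃ K : Subgroup (GL (Fin 3) F), subfieldSubgroup F₀ P ⊓ SG 3 F 5 < K ∧ K < SG 3 F 5 := by
  have h5 := five_eq_zero hF
  obtain ⟨θ, hθ⟩ := exists_theta hF
  have hθ5 : θ ^ 5 = -θ := by
    calc θ ^ 5 = (θ * θ) * (θ * θ) * θ := by ring
      _ = -θ := by rw [hθ]; linear_combination θ * h5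
  have h40 : (4 : F) ≠ 0 := by
    intro h
    have := cast_ne_zero_of_lt h5 (a := 4) (by norm_num) (by exact_mod_cast h)
    omega
  have h25 : (2 : F) ^ 5 = 2 := by linear_combination 6 * h5
  obtain ⟨u, hu, hgu⟩ := (exists_ON_frame hF hc hP).exists_frame hF hc hP one_ne_zero
  obtain ⟨e, he1, he2, he3⟩ := exists_coords hF (u := u) hu
  have hreal : ∀ x ∈ F₀, x ^ 5 = x := fun x hx => (RF.mem_iff hF hc).1 hx
  let S : (Fin 3 → F) → Prop := fun x => SS (e x)
  -- the action of the subfield group in coordinates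
  have hact : ∀ g ∈ subfieldSubgroup F₀ P ⊓ SG 3 F 5, ∃ (c : F) (A : Fin 3 → Fin 3 → F), c ≠ 0 ∧
      (∀ i j, A i j ∈ F₀) ∧ (∀ x j, e ((g : Matrix (Fin 3) (Fin 3) F) *ᵥ x) j =
        c * ∑ i, A j i * e x i) ∧ (∀ i k, c ^ 6 * ∑ j, A j i * A j k = if i = k then 1 else 0) := by
    rintro g ⟨hg, hgS⟩
    obtain ⟨c, A, hc0, hA, hgc⟩ := hgu g hg
    have h1 : ∀ i j, e ((g : Matrix (Fin 3) (Fin 3) F) *ᵥ u i) j = c * A j i := by
      intro i j
      rw [hgc, map_smul, map_sum, Pi.smul_apply, Finset.sum_apply, Finset.sum_eq_single j]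
      · rw [map_smul, Pi.smul_apply, he1, Pi.single_eq_same, smul_eq_mul, smul_eq_mul, mul_one]
      · intro k _ hkj
        rw [map_smul, Pi.smul_apply, he1, Pi.single_eq_of_ne hkj.symm, smul_zero]
      · intro h; exact absurd (Finset.mem_univ _) h
    refine ⟨c, A, hc0, hA, ?_, ?_⟩
    · intro x j
      conv_lhs => rw [he2 x]
      rw [← Matrix.mulVecLin_apply, map_sum, map_sum, Finset.sum_apply, Finset.mul_sum]
      refine Finset.sum_congr rfl fun i _ => ?_
      rw [map_smul, map_smul, Pi.smul_apply, Matrix.mulVecLin_apply, h1, smul_eq_mul]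
      ring
    · intro i k
      have h3 : hermForm 3 F 5 ((g : Matrix (Fin 3) (Fin 3) F) *ᵥ u i)
          ((g : Matrix (Fin 3) (Fin 3) F) *ᵥ u k) = hermForm 3 F 5 (u i) (u k) := hgS.1 _ _
      rw [hu, he3] at h3
      rw [← h3, Finset.mul_sum]
      refine Finset.sum_congr rfl fun j _ => ?_
      rw [h1, h1, mul_pow, hreal _ (hA j k)]
      ring
  have hH : subfieldSubgroup F₀ P ⊓ SG 3 F 5 ≤ Six.KK 3 F 5 S := by
    intro g hg
    refine mem_KK_of_forward hg.2 fun x hx => ?_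
    obtain ⟨c, A, hc0, hA, hge, hAA⟩ := hact g hg
    -- the determinant argument
    have hcc : (c ^ 6) ^ 2 = 1 := by
      let M : Matrix (Fin 3) (Fin 3) F := Matrix.of A
      have h1 : (c ^ 6) • (M.transpose * M) = 1 := by
        ext i k
        rw [Matrix.smul_apply, Matrix.mul_apply, smul_eq_mul, Matrix.one_apply, ← hAA]
        rfl
      have h3 := congrArg Matrix.det h1
      rw [Matrix.det_smul, Matrix.det_mul, Matrix.det_transpose, Matrix.det_one, Fintype.card_fin] at h3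
      have h4 : M.det ^ 5 = M.det := by
        have h6 := RingHom.map_det (conjHom hF) M
        change M.det ^ 5 = _ at h6
        rw [h6]
        congr 1
        ext i j
        exact hreal _ (hA i j)
      have h6 : M.det ≠ 0 := by
        intro h
        rw [h] at h3
        simp at h3
      have h7 : M.det ^ 4 = 1 := by
        apply mul_right_cancel₀ h6
        rw [← pow_succ, h4, one_mul]
      have h8 : (c ^ 6) ^ 5 = c ^ 6 := norm_pow_q hF c
      have h9 : (c ^ 6) ≠ 0 := pow_ne_zero _ hc0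
      have h10 : (c ^ 6) ^ 4 = 1 := by
        apply mul_right_cancel₀ h9
        rw [← pow_succ, h8, one_mul]
      have h11 : ((c ^ 6) ^ 3) ^ 2 * M.det ^ 4 = 1 := by
        linear_combination ((c ^ 6) ^ 3 * (M.det * M.det) + 1) * h3
      rw [h7, mul_one] at h11
      linear_combination h11 - (c ^ 6) ^ 2 * h10
    obtain ⟨h1, h2⟩ := hx
    have eh : ∑ i, e ((g : Matrix (Fin 3) (Fin 3) F) *ᵥ x) i ^ 6 = ∑ i, e x i ^ 6 := by
      have h3 : hermForm 3 F 5 ((g : Matrix (Fin 3) (Fin 3) F) *ᵥ x)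
          ((g : Matrix (Fin 3) (Fin 3) F) *ᵥ x) = hermForm 3 F 5 x x := hg.2.1 _ _
      rw [he3, he3] at h3
      calc _ = _ := Finset.sum_congr rfl fun i _ => pow_succ' _ _
        _ = _ := h3
        _ = _ := Finset.sum_congr rfl fun i _ => (pow_succ' _ _).symm
    have eb : c ^ 4 * ∑ i, e ((g : Matrix (Fin 3) (Fin 3) F) *ᵥ x) i ^ 2 = ∑ i, e x i ^ 2 := by
      have a00 := hAA 0 0
      have a01 := hAA 0 1
      have a02 := hAA 0 2
      have a11 := hAA 1 1
      have a12 := hAA 1 2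
      have a22 := hAA 2 2
      rw [if_pos rfl, Fin.sum_univ_three] at a00 a11 a22
      rw [if_neg (by decide), Fin.sum_univ_three] at a01 a02 a12
      simp only [Fin.sum_univ_three, hge]
      linear_combination (e x 0 ^ 2) * a00 + (e x 1 ^ 2) * a11 + (e x 2 ^ 2) * a22 +
        2 * e x 0 * e x 1 * a01 + 2 * e x 0 * e x 2 * a02 + 2 * e x 1 * e x 2 * a12
    have eb3 : (∑ i, e ((g : Matrix (Fin 3) (Fin 3) F) *ᵥ x) i ^ 2) ^ 3 = (∑ i, e x i ^ 2) ^ 3 := by
      rw [← eb]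
      linear_combination (-(∑ i, e ((g : Matrix (Fin 3) (Fin 3) F) *ᵥ x) i ^ 2) ^ 3) * hcc
    change SS _
    refine ⟨by rw [eh]; exact h1, ?_⟩
    rw [eh, eb3]
    rcases h2 with h2 | h2 | h2 | h2
    · left
      rw [← eb] at h2
      exact (mul_eq_zero.1 h2).resolve_left (pow_ne_zero _ hc0)
    · exact Or.inr (Or.inl h2)
    · exact Or.inr (Or.inr (Or.inl h2))
    · refine Or.inr (Or.inr (Or.inr fun i j => ?_))
      have h3 : ∀ i, e ((g : Matrix (Fin 3) (Fin 3) F) *ᵥ x) i ^ 5 = c ^ 5 * ∑ k, A i k * e x k ^ 5 := by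
        intro i
        rw [hge, mul_pow, sum_pow_q hF]
        congr 1
        exact Finset.sum_congr rfl fun k _ => by rw [mul_pow, hreal _ (hA i k)]
      rw [h3, h3, hge, hge]
      simp only [Fin.sum_univ_three]
      linear_combination c ^ 6 * (A i 0 * A j 1 * h2 0 1 + A i 1 * A j 0 * h2 1 0 +
        A i 0 * A j 2 * h2 0 2 + A i 2 * A j 0 * h2 2 0 + A i 1 * A j 2 * h2 1 2 +
        A i 2 * A j 1 * h2 2 1 )
  -- the extra element
  let v : Fin 3 → F := u 0 + u 1 + (2 * θ) • u 2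
  have hev : e v = ![1, 1, 2 * θ] := by
    funext i
    simp only [v, map_add, map_smul, he1]
    fin_cases i <;> simp
  have hfv : ∀ x, hermForm 3 F 5 x v = e x 0 + e x 1 + 3 * θ * e x 2 := by
    intro x
    rw [he3, Fin.sum_univ_three, hev]
    simp only [Matrix.cons_val_zero, Matrix.cons_val_one, Matrix.cons_val, one_pow, mul_one]
    rw [mul_pow, hθ5, h25]
    linear_combination (-θ * e x 2) * h5
  have hvv : hermForm 3 F 5 v v = 4 := by
    rw [hfv, hev]
    simp only [Matrix.cons_val_zero, Matrix.cons_val_one, Matrix.cons_val]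
    linear_combination 6 * hθ + 2 * h5
  obtain ⟨t, htS, ht⟩ := exists_refl3 hF (v := v) (by rw [hvv]; exact h40)
  have het : ∀ x, e ((t : Matrix (Fin 3) (Fin 3) F) *ᵥ x) = (-1 : F) • TT θ (e x) := by
    intro x
    have h3 : (2 : F) * hermForm 3 F 5 x v / 4 = 3 * hermForm 3 F 5 x v := by
      rw [div_eq_iff h40]
      linear_combination (-2 * hermForm 3 F 5 x v) * h5
    rw [ht, hvv, h3, hfv, map_sub, map_smul, hev]
    funext i
    fin_cases i
    · simp [TT]
      linear_combination (e x 0 + e x 1 + 3 * θ * e x 2) * h5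
    · simp [TT]
      linear_combination (e x 0 + e x 1 + 3 * θ * e x 2) * h5
    · simp [TT]
      linear_combination (2 * θ * (e x 0 + e x 1 + 3 * θ * e x 2)) * h5
  have htK : t ∈ Six.KK 3 F 5 S := by
    refine mem_KK_of_forward htS fun x hx => ?_
    have h1 := SS_scale (neg_ne_zero.2 one_ne_zero) (SS_T hF h5 hθ hx)
    change SS _
    rw [het]
    exact h1
  have he0 : e (u 0) = ![psi θ 1, psi θ 0, psi θ 0] := by
    rw [he1, psi_one, psi_zero]
    funext i
    fin_cases i <;> simp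
  refine ⟨Six.KK 3 F 5 S, lt_of_le_of_ne hH ?_, lt_of_le_of_ne (fun g hg => hg.1) ?_⟩
  · intro heq
    rw [← heq] at htK
    obtain ⟨c, A, hc0, hA, hge, hAA⟩ := hact t htK
    have h1 := het (u 0)
    have h2 : ∀ j, c * A j 0 = - TT θ (e (u 0)) j := by
      intro j
      have h3 := hge (u 0) j
      rw [h1, he1, Pi.smul_apply, smul_eq_mul, neg_one_mul, Fin.sum_univ_three] at h3
      rw [he1, h3]
      simp
    rw [he0, psi_one, psi_zero] at h2
    have h30 := h2 0
    have h32 := h2 2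
    simp [TT] at h30 h32
    -- `A 0 0 * A 2 0 ^ 5 = A 0 0 ^ 5 * A 2 0`
    have hr0 := hreal _ (hA 0 0)
    have hr2 := hreal _ (hA 2 0)
    have h4 : (c * A 0 0) ^ 5 * (c * A 2 0) = (c * A 0 0) * (c * A 2 0) ^ 5 := by
      rw [mul_pow, mul_pow, hr0, hr2]; ring
    rw [h30, h32] at h4
    have hθ0 : θ ≠ 0 := by
      rintro rfl
      rw [mul_zero] at hθ
      have := cast_ne_zero_of_lt h5 (a := 2) (by norm_num) (by exact_mod_cast hθ.symm)
      omega
    apply hθ0
    have h45 : (-(4 * θ)) ^ 5 = 4 * θ := by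
      have : (-(4 * θ)) ^ 5 = -(4 ^ 5 * θ ^ 5) := by ring
      rw [this, hθ5]
      linear_combination (204 * θ) * h5
    rw [h45] at h4
    linear_combination (-1 : F) * h4 + (197 * θ) * h5
  · intro heq
    -- a transvection
    let x : Fin 3 → F := u 0 + (2 : F) • u 1
    have hex : e x = ![1, 2, 0] := by
      funext i
      simp only [x, map_add, map_smul, he1]
      fin_cases i <;> simp
    have hfx : ∀ y, hermForm 3 F 5 y x = e y 0 + e y 1 * 2 := by
      intro y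
      rw [he3, Fin.sum_univ_three, hex]
      simp [h25]
    have hxx : hermForm 3 F 5 x x = 0 := by
      rw [hfx, hex]
      simp
      linear_combination h5
    obtain ⟨g, hg, hgx⟩ := exists_transv_SG (c := θ) hF hxx hθ5
    rw [← heq] at hg
    have hS0 : SS (![psi θ 1, psi θ 0, psi θ 0] : Fin 3 → F) := (SS_iff hF h5 hθ 1 0 0).2 tst_100
    have h1 := (hg.2 (u 0)).2 (by change SS _; rw [he0]; exact hS0)
    have h2 : e ((g : Matrix (Fin 3) (Fin 3) F) *ᵥ u 0) = ![psi θ 6, psi θ 10, psi θ 0] := by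
      rw [hgx, hfx, map_add, map_smul, he0, hex]
      funext i
      fin_cases i <;> simp [psi]
      ring
    change SS _ at h1
    rw [h2, SS_iff hF h5 hθ, tst_bad] at h1
    exact Bool.false_ne_true h1

end SF

end Cfsg.Agent.UCase
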