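import Mathlib
import Cfsg.Agent.UCase.RatFrame

set_option autoImplicit false
set_option linter.unusedSectionVars false
set_option linter.unusedVariables false

/-!
`SU_3(3)`: the orthogonal group over the prime field is monomial.
-/

namespace Cfsg.Agent.UCase

open scoped Matrix
open Cfsg.Geo Cfsg.Agent.Uni Cfsg.Agent.AschCases
open Matrix (GeneralLinearGroup)

namespace ST

variable {F : Type*} [Field F] [Fintype F]

theorem three_eq_zero (hF : Fintype.card F = 3 ^ 2) : (3 : F) = 0 := by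
  have h1 : ((Fintype.card F : ℕ) : F) = 0 := Nat.cast_card_eq_zero F
  rw [hF] at h1
  have h2 : (3 : F) ^ 2 = 0 := by exact_mod_cast h1
  exact pow_eq_zero_iff (by norm_num) |>.1 h2

theorem two_ne (hF : Fintype.card F = 3 ^ 2) : (2 : F) ≠ 0 := by
  intro h
  apply one_ne_zero (α := F)
  linear_combination three_eq_zero hF - h

theorem pm {a : F} (ha : a ^ 3 = a) : a = 0 ∨ a = 1 ∨ a = -1 := by
  have h1 : a * ((a - 1) * (a + 1)) = 0 := by linear_combination ha
  rcases mul_eq_zero.1 h1 with h | h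
  · exact Or.inl h
  · rcases mul_eq_zero.1 h with h | h
    · exact Or.inr (Or.inl (sub_eq_zero.1 h))
    · exact Or.inr (Or.inr (eq_neg_of_add_eq_zero_left h))

theorem exists_eq_frame (hF : Fintype.card F = 3 ^ 2) {F₀ : Subfield F} {P : GL (Fin 3) F}
    (hc : Fintype.card F = Nat.card F₀ ^ 2)
    (hP : IsFormRationalStructure (hermForm 3 F 3) F₀ 1 P) :
    ∃ ε : F, (ε = 1 ∨ ε = -1) ∧ RF.OFr 3 F₀ P ε ε ε := by
  have h3 := three_eq_zero hF
  obtain ⟨a, b, c, ha, hb, hcc, ha0, hb0, hc0, h⟩ := RF.exists_OFr hF hc hP (two_ne hF)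
  have e1 : (2 : F) * 1 = -1 := by linear_combination h3
  have e2 : (2 : F) * -1 = 1 := by linear_combination -h3
  have p1 : ∀ c, RF.OFr 3 F₀ P 1 1 c → RF.OFr 3 F₀ P (-1) (-1) c := by
    intro c h
    have := h.pair hF hc hP
    rwa [e1] at this
  have p2 : ∀ c, RF.OFr 3 F₀ P (-1) (-1) c → RF.OFr 3 F₀ P 1 1 c := by
    intro c h
    have := h.pair hF hc hP
    rwa [e2] at this
  have s12 : ∀ a b c, RF.OFr 3 F₀ P a b c → RF.OFr 3 F₀ P a c b := fun a b c h => h.swap12 hF hc hP
  have s01 : ∀ a b c, RF.OFr 3 F₀ P a b c → RF.OFr 3 F₀ P b a c := fun a b c h => h.swap01 hF hc hP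
  rcases (pm ha).resolve_left ha0 with rfl | rfl <;> rcases (pm hb).resolve_left hb0 with rfl | rfl <;>
    rcases (pm hcc).resolve_left hc0 with rfl | rfl
  · exact ⟨1, Or.inl rfl, h⟩
  · exact ⟨-1, Or.inr rfl, p1 _ h⟩
  · exact ⟨-1, Or.inr rfl, s12 _ _ _ (p1 _ (s12 _ _ _ h))⟩
  · exact ⟨1, Or.inl rfl, s01 _ _ _ (s12 _ _ _ (p2 _ (s12 _ _ _ (s01 _ _ _ h))))⟩
  · exact ⟨-1, Or.inr rfl, s01 _ _ _ (s12 _ _ _ (p1 _ (s12 _ _ _ (s01 _ _ _ h))))⟩
  · exact ⟨1, Or.inl rfl, s12 _ _ _ (p2 _ (s12 _ _ _ h))⟩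
  · exact ⟨1, Or.inl rfl, p2 _ h⟩
  · exact ⟨-1, Or.inr rfl, h⟩

theorem so_three_three (hF : Fintype.card F = 3 ^ 2) {F₀ : Subfield F} {P : GL (Fin 3) F}
    (hc : Fintype.card F = Nat.card F₀ ^ 2)
    (hP : IsFormRationalStructure (hermForm 3 F 3) F₀ 1 P) :
    ∃ D : Fin 3 → Submodule F (Fin 3 → F), IsNondegenerateMDecomposition (hermForm 3 F 3) 1 D ∧
      subfieldSubgroup F₀ P ⊓ SG 3 F 3 ≤ decompositionStabilizer D := by
  have h3 := three_eq_zero hF
  obtain ⟨ε, hε, hfr⟩ := exists_eq_frame hF hc hP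
  have hε0 : ε ≠ 0 := by
    rcases hε with rfl | rfl
    · exact one_ne_zero
    · exact neg_ne_zero.2 one_ne_zero
  have hεε : ε * ε = 1 := by rcases hε with rfl | rfl <;> norm_num
  have hε3 : ε ^ 3 = ε := by rcases hε with rfl | rfl <;> norm_num
  obtain ⟨u, hu, hgu⟩ := hfr.exists_frame hF hc hP hε0
  have hreal : ∀ x ∈ F₀, x ^ 3 = x := fun x hx => (RF.mem_iff hF hc).1 hx
  obtain ⟨m, hm⟩ := exists_norm_eq (F := F) (q := 3) hF (c := ε) hε3
  have hm0 : m ≠ 0 := by
    rintro rfl
    rw [zero_pow (by norm_num)] at hm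
    exact hε0 hm.symm
  let v : Fin 3 → Fin 3 → F := fun i => m • u i
  have hv : IsON 3 v := by
    intro i j
    simp only [v]
    rw [hermForm_smul_left, hermForm_smul_right, hu]
    split_ifs with h
    · rw [← mul_assoc, ← pow_succ', hm, hεε]
    · rw [mul_zero, mul_zero]
  have hdec := lines_decomposition hF (by norm_num) v hv
  refine ⟨_, hdec, ?_⟩
  rintro g ⟨hg, hgS⟩
  apply mem_decStab_of_forall _ (injective_of_decomp hdec.decomp)
  intro i
  rw [Submodule.map_span, Set.image_singleton, Matrix.toLin'_apply]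
  obtain ⟨c, A, hc0, hA, hgc⟩ := hgu g hg
  -- the Gram relations
  have hAA : ∀ i k, c ^ 4 * ∑ j, A j i * A j k = if i = k then 1 else 0 := by
    intro i k
    have h4 : hermForm 3 F 3 ((g : Matrix (Fin 3) (Fin 3) F) *ᵥ u i)
        ((g : Matrix (Fin 3) (Fin 3) F) *ᵥ u k) = hermForm 3 F 3 (u i) (u k) := hgS.1 _ _
    rw [hgc, hgc, hu, hermForm_smul_left, hermForm_smul_right, hermForm_sum_left] at h4
    have h5 : ∑ j, hermForm 3 F 3 (A j i • u j) (∑ l, A l k • u l) = ε * ∑ j, A j i * A j k := by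
      rw [Finset.mul_sum]
      refine Finset.sum_congr rfl fun j _ => ?_
      rw [hermForm_smul_left, hermForm_sum_right hF, Finset.sum_eq_single j]
      · rw [hermForm_smul_right, hu, if_pos rfl, hreal _ (hA j k)]; ring
      · intro l _ hlj
        rw [hermForm_smul_right, hu, if_neg hlj.symm, mul_zero]
      · intro h; exact absurd (Finset.mem_univ _) h
    rw [h5] at h4
    apply mul_left_cancel₀ hε0
    rw [show ε * (c ^ 4 * ∑ j, A j i * A j k) = c * (c ^ 3 * (ε * ∑ j, A j i * A j k)) by ring, h4]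
    split_ifs <;> ring
  have hc4 : c ^ 4 = 1 := by
    have h4 : (c ^ 4) ^ 3 = c ^ 4 := norm_pow_q hF c
    rcases pm h4 with h5 | h5 | h5
    · exact absurd h5 (pow_ne_zero _ hc0)
    · exact h5
    · exfalso
      let M : Matrix (Fin 3) (Fin 3) F := Matrix.of A
      have h1 : (c ^ 4) • (M.transpose * M) = 1 := by
        ext i k
        rw [Matrix.smul_apply, Matrix.mul_apply, smul_eq_mul, Matrix.one_apply, ← hAA]
        rfl
      have h6 := congrArg Matrix.det h1
      rw [Matrix.det_smul, Matrix.det_mul, Matrix.det_transpose, Matrix.det_one, Fintype.card_fin,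
        h5] at h6
      have h7 : M.det ^ 3 = M.det := by
        have h6 := RingHom.map_det (conjHom hF) M
        change M.det ^ 3 = _ at h6
        rw [h6]
        congr 1
        ext i j
        exact hreal _ (hA i j)
      rcases pm h7 with h8 | h8 | h8 <;> rw [h8] at h6
      · norm_num at h6
      · apply two_ne hF; linear_combination -h6
      · apply two_ne hF; linear_combination -h6
  -- exactly one entry is non-zero
  have hcol := hAA i i
  rw [if_pos rfl, hc4, one_mul, Fin.sum_univ_three] at hcol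
  have hone : ∃ j, A j i ≠ 0 ∧ ∀ k, k ≠ j → A k i = 0 := by
    have n1 : (1 : F) ≠ 0 := one_ne_zero
    have n2 := two_ne hF
    have sq : ∀ j, A j i = 0 ∨ A j i * A j i = 1 := by
      intro j
      rcases pm (hreal _ (hA j i)) with h | h | h
      · exact Or.inl h
      · right; rw [h]; ring
      · right; rw [h]; ring
    have nz : ∀ j, A j i * A j i = 1 → A j i ≠ 0 := fun j h h0 => by
      rw [h0, mul_zero] at h; exact zero_ne_one h
    rcases sq 0 with h0 | h0 <;> rcases sq 1 with h1 | h1 <;> rcases sq 2 with h2 | h2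
    · rw [h0, h1, h2] at hcol; norm_num at hcol
    · refine ⟨2, nz 2 h2, fun k hk => ?_⟩
      fin_cases k
      · exact h0
      · exact h1
      · exact absurd rfl hk
    · refine ⟨1, nz 1 h1, fun k hk => ?_⟩
      fin_cases k
      · exact h0
      · exact absurd rfl hk
      · exact h2
    · exfalso; rw [h0, h1, h2] at hcol; apply n1; linear_combination hcol
    · refine ⟨0, nz 0 h0, fun k hk => ?_⟩
      fin_cases k
      · exact absurd rfl hk
      · exact h1
      · exact h2
    · exfalso; rw [h0, h1, h2] at hcol; apply n1; linear_combination hcol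
    · exfalso; rw [h0, h1, h2] at hcol; apply n1; linear_combination hcol
    · exfalso; rw [h0, h1, h2] at hcol; apply n2; linear_combination hcol
  obtain ⟨j, hj0, hj⟩ := hone
  refine ⟨j, ?_⟩
  have h6 : (g : Matrix (Fin 3) (Fin 3) F) *ᵥ v i = (c * A j i) • v j := by
    simp only [v]
    rw [Matrix.mulVec_smul, hgc, Finset.sum_eq_single j]
    · rw [smul_smul, smul_smul, smul_smul]
      congr 1
      ring
    · intro k _ hkj
      rw [hj k hkj, zero_smul]
    · intro h; exact absurd (Finset.mem_univ _) h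
  rw [h6]
  exact Submodule.span_singleton_smul_eq (IsUnit.mk0 _ (mul_ne_zero hc0 hj0)) _

end ST

end Cfsg.Agent.UCase
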