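import Mathlib
import Cfsg.Agent.UCase.Main
import Cfsg.Agent.UCase.Main6
import Cfsg.Agent.UCase.MonoFive
import Cfsg.Agent.UCase.SOFive
import Cfsg.Agent.UCase.SOThree
import Cfsg.Agent.UCase.FieldThreeB
import Cfsg.Agent.UCase.HessFiveD

set_option autoImplicit false
set_option linter.unusedSectionVars false
set_option linter.unusedVariables false

/-!
The list of maximal subgroups of `SU_3(q)`, from the containment theorem.
-/

namespace Cfsg.Agent.UCase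

open scoped Matrix
open Cfsg.Geo Cfsg.Agent.Uni Cfsg.Agent.AschCases
open Matrix (GeneralLinearGroup)

theorem su_cases_3 {F : Type*} [Field F] [Fintype F] (q : ℕ) (hF : Fintype.card F = q ^ 2) (hq : 3 ≤ q) (H : Subgroup (Matrix.GeneralLinearGroup (Fin 3) F)) (hH : Cfsg.Geo.IsMaximalIn (Cfsg.GU 3 F q ⊓ Cfsg.Geo.specialLinear (Fin 3) F) H)
    (h : UContain 3 F q H) :
    (∃ W : Submodule F (Fin 3 → F), W ≠ ⊥ ∧ Cfsg.Geo.IsTotallySingularFor (Cfsg.hermForm 3 F q) W ∧ H = Cfsg.Geo.subspaceStabilizer W ⊓ (Cfsg.GU 3 F q ⊓ Cfsg.Geo.specialLinear (Fin 3) F)) ∨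
    (∃ W : Submodule F (Fin 3 → F), W ≠ ⊥ ∧ Cfsg.Geo.IsNondegenerateOn (Cfsg.hermForm 3 F q) W ∧ 2 * Module.finrank F W < 3 ∧ H = Cfsg.Geo.subspaceStabilizer W ⊓ (Cfsg.GU 3 F q ⊓ Cfsg.Geo.specialLinear (Fin 3) F)) ∨
    (q ≠ 5 ∧ ∃ D : Fin 3 → Submodule F (Fin 3 → F), Cfsg.Geo.IsNondegenerateMDecomposition (Cfsg.hermForm 3 F q) 1 D ∧ H = Cfsg.Geo.decompositionStabilizer D ⊓ (Cfsg.GU 3 F q ⊓ Cfsg.Geo.specialLinear (Fin 3) F)) ∨
    (q ≠ 3 ∧ q ≠ 5 ∧ ∃ K : Subalgebra F (Matrix (Fin 3) (Fin 3) F), Cfsg.Geo.IsFieldSubalgebra 3 K ∧ Cfsg.Geo.IsAdjointClosedFor (Cfsg.hermForm 3 F q) K ∧ H = Cfsg.Geo.subalgebraNormalizer K ⊓ (Cfsg.GU 3 F q ⊓ Cfsg.Geo.specialLinear (Fin 3) F)) ∨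
    (∃ (F₀ : Subfield F) (r : ℕ) (P : Matrix.GeneralLinearGroup (Fin 3) F), r.Prime ∧ Odd r ∧ Fintype.card F = Nat.card F₀ ^ r ∧ Cfsg.Geo.IsFormRationalStructure (Cfsg.hermForm 3 F q) F₀ 1 P ∧ H = Cfsg.Geo.subfieldSubgroup F₀ P ⊓ (Cfsg.GU 3 F q ⊓ Cfsg.Geo.specialLinear (Fin 3) F)) ∨
    (Odd q ∧ 7 ≤ q ∧ ∃ (F₀ : Subfield F) (P : Matrix.GeneralLinearGroup (Fin 3) F), Fintype.card F = Nat.card F₀ ^ 2 ∧ Cfsg.Geo.IsFormRationalStructure (Cfsg.hermForm 3 F q) F₀ 1 P ∧ H = Cfsg.Geo.subfieldSubgroup F₀ P ⊓ (Cfsg.GU 3 F q ⊓ Cfsg.Geo.specialLinear (Fin 3) F)) ∨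
    (∃ (p : ℕ) (R : Subgroup (Matrix.GeneralLinearGroup (Fin 3) F)), p.Prime ∧ q = p ∧ p % 3 = 2 ∧ 11 ≤ p ∧ Cfsg.Geo.IsSymplecticTypeGroup 3 R ∧ Cfsg.Geo.ActsAbsolutelyIrreducibly (Cfsg.Geo.matrixSet R) ∧ R ≤ Cfsg.Geo.similarityGroup (Cfsg.hermForm 3 F q) ∧ Nat.card R = 27 ∧ Nat.card (Subgroup.center R) = 3 ∧ H = Cfsg.Geo.subgroupNormalizer R ⊓ (Cfsg.GU 3 F q ⊓ Cfsg.Geo.specialLinear (Fin 3) F)) ∨
    Cfsg.Geo.InUnitaryResidualClass H := by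
  have h32 : ¬ ((3 : ℕ) = 3 ∧ q = 2) := by omega
  rcases uEq_of_uContain hF (by norm_num) h32 hH h with
    ⟨W, h1, h2, hE⟩ | ⟨W, h1, h2, h3, hE⟩ | ⟨t, k, D, htk, ht, hk, hD, hE⟩ | ⟨k, D, h1, h2, h3, hE⟩ |
    ⟨r, K, h1, h2, h3, h4, h5, hE⟩ | ⟨n₁, n₂, e, P, f₁, f₂, h0, h1, h2, h3, h4, h5, hE⟩ |
    ⟨F₀, r, P, h1, h2, h3, h4, hE⟩ | ⟨F₀, P, h1, h2, h3, hE⟩ | ⟨F₀, P, ζ, h1, h2, h3, h4, h5, h6, hE⟩ |
    ⟨r, R, p, e, k, h1, h2, h3, h4, h5, h6, h7, hE⟩ |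
    ⟨k, t, e, P, f₁, h0, h1, h2, h3, h4, h5, hE⟩ | hres
  · exact Or.inl (⟨W, h1, h2, hE⟩)
  · exact Or.inr (Or.inl (⟨W, h1, h2, h3, hE⟩))
  · have hkl : k ≤ 1 := by nlinarith
    have hc : (t = 3 ∧ k = 1) := by
      interval_cases k <;> omega
    rcases hc with ⟨rfl, rfl⟩
    by_cases hq5 : q = 5
    · exfalso
      subst hq5
      obtain ⟨K', hK1, hK2⟩ := MF.mono_three_five hF hD
      rw [hE] at hH
      exact not_maximal_of_between hH hK1 hK2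
    · exact Or.inr (Or.inr (Or.inl (⟨hq5, D, hD, hE⟩)))
  · exfalso; omega
  · rcases odd_prime_cases_le_twelve h1 h2 ((Nat.le_of_dvd (by norm_num) h3).trans (by norm_num)) with rfl | rfl | rfl | rfl
    · by_cases hq' : q = 3 ∨ q = 5
      · exfalso
        obtain ⟨K', hK1, hK2⟩ := field_three hq' hF h4 h5
        rw [hE] at hH
        exact not_maximal_of_between hH hK1 hK2
      · push Not at hq'
        exact Or.inr (Or.inr (Or.inr (Or.inl (⟨hq'.1, hq'.2, K, h4, h5, hE⟩))))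
    · exact absurd h3 (by norm_num)
    · exact absurd h3 (by norm_num)
    · exact absurd h3 (by norm_num)
  · exfalso
    have hn1 : n₁ ≤ 1 := by nlinarith
    interval_cases n₁ <;> omega
  · exact Or.inr (Or.inr (Or.inr (Or.inr (Or.inl (⟨F₀, r, P, h1, h2, h3, h4, hE⟩)))))
  · by_cases hq7 : 7 ≤ q
    · exact Or.inr (Or.inr (Or.inr (Or.inr (Or.inr (Or.inl (⟨h1, hq7, F₀, P, h2, h3, hE⟩))))))
    · have hq35 : q = 3 ∨ q = 5 := by
        obtain ⟨m, hm⟩ := h1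
        omega
      rcases hq35 with rfl | rfl
      · obtain ⟨D, hD, hle⟩ := ST.so_three_three hF h2 h3
        have hle' : H ≤ decompositionStabilizer D := by
          rw [hE]; exact hle
        exact Or.inr (Or.inr (Or.inl (⟨by norm_num, D, hD, eq_inf_of_maximal hH hle'
          (not_le_decompositionStabilizer hF (by norm_num) h32 _ hD.decomp)⟩)))
      · exfalso
        obtain ⟨K', hK1, hK2⟩ := SF.so_three_five hF h2 h3
        rw [hE] at hH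
        exact not_maximal_of_between hH hK1 hK2
  · exfalso; revert h1; decide
  · obtain rfl := eq_of_prime_dvd h1.prime h7 (a := 3) (by norm_num) (by norm_num)
    have hk : k = 1 := Nat.pow_right_injective (a := 3) (by norm_num) (by change 3 ^ k = 3 ^ 1; rw [← h7])
    subst hk
    rcases h6 with ⟨-, hZ, -, hRc⟩ | ⟨h, -⟩
    · rw [hZ] at h5
      obtain ⟨hp, hqp, hmod⟩ := class6_uni_three hF h4 h5
      have hp11 : 11 ≤ p := by
        by_contra hlt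
        push Not at hlt
        have hq' : 3 ≤ p := hqp ▸ hq
        have hp5 : p = 5 := by
          interval_cases p <;> first | rfl | omega | (exfalso; revert hp; norm_num)
        subst hp5
        subst hqp
        obtain ⟨K', hK1, hK2⟩ := HF.hess_five hF h1 h2 h3 (by rw [hRc]; norm_num) hZ
        rw [hE] at hH
        exact not_maximal_of_between hH hK1 hK2
      exact Or.inr (Or.inr (Or.inr (Or.inr (Or.inr (Or.inr (Or.inl (⟨p, R, hp, hqp, hmod, hp11, h1, h2, h3, by rw [hRc]; norm_num, hZ, hE⟩)))))))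
    · exact absurd h (by norm_num)
  · exact absurd (pow_cases (by norm_num) h0 h1 h2).1 (by norm_num)
  · exact Or.inr (Or.inr (Or.inr (Or.inr (Or.inr (Or.inr (Or.inr (hres)))))))

end Cfsg.Agent.UCase
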