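import Mathlib
import Cfsg.Agent.UCase.Main
import Cfsg.Agent.UCase.TIFour

set_option autoImplicit false
set_option linter.unusedSectionVars false
set_option linter.unusedVariables false

/-!
The list of maximal subgroups of `SU_4(q)`, from the containment theorem.
-/

namespace Cfsg.Agent.UCase

open scoped Matrix
open Cfsg.Geo Cfsg.Agent.Uni Cfsg.Agent.AschCases
open Matrix (GeneralLinearGroup)

theorem su_cases_4 {F : Type*} [Field F] [Fintype F] (q : ℕ) (hF : Fintype.card F = q ^ 2) (H : Subgroup (Matrix.GeneralLinearGroup (Fin 4) F))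
    (hH : Cfsg.Geo.IsMaximalIn (Cfsg.GU 4 F q ⊓ Cfsg.Geo.specialLinear (Fin 4) F) H)
    (h : UContain 4 F q H) :
    (∃ W : Submodule F (Fin 4 → F), W ≠ ⊥ ∧ Cfsg.Geo.IsTotallySingularFor (Cfsg.hermForm 4 F q) W ∧ H = Cfsg.Geo.subspaceStabilizer W ⊓ (Cfsg.GU 4 F q ⊓ Cfsg.Geo.specialLinear (Fin 4) F)) ∨
    (∃ W : Submodule F (Fin 4 → F), W ≠ ⊥ ∧ Cfsg.Geo.IsNondegenerateOn (Cfsg.hermForm 4 F q) W ∧ 2 * Module.finrank F W < 4 ∧ H = Cfsg.Geo.subspaceStabilizer W ⊓ (Cfsg.GU 4 F q ⊓ Cfsg.Geo.specialLinear (Fin 4) F)) ∨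
    (q ≠ 3 ∧ ∃ D : Fin 4 → Submodule F (Fin 4 → F), Cfsg.Geo.IsNondegenerateMDecomposition (Cfsg.hermForm 4 F q) 1 D ∧ H = Cfsg.Geo.decompositionStabilizer D ⊓ (Cfsg.GU 4 F q ⊓ Cfsg.Geo.specialLinear (Fin 4) F)) ∨
    (3 ≤ q ∧ ∃ D : Fin 2 → Submodule F (Fin 4 → F), Cfsg.Geo.IsNondegenerateMDecomposition (Cfsg.hermForm 4 F q) 2 D ∧ H = Cfsg.Geo.decompositionStabilizer D ⊓ (Cfsg.GU 4 F q ⊓ Cfsg.Geo.specialLinear (Fin 4) F)) ∨
    (4 ≤ q ∧ ∃ D : Fin 2 → Submodule F (Fin 4 → F), Cfsg.Geo.IsMDecomposition 2 D ∧ (∀ i, Cfsg.Geo.IsTotallySingularFor (Cfsg.hermForm 4 F q) (D i)) ∧ H = Cfsg.Geo.decompositionStabilizer D ⊓ (Cfsg.GU 4 F q ⊓ Cfsg.Geo.specialLinear (Fin 4) F)) ∨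
    (∃ (F₀ : Subfield F) (r : ℕ) (P : Matrix.GeneralLinearGroup (Fin 4) F), r.Prime ∧ Odd r ∧ Fintype.card F = Nat.card F₀ ^ r ∧ Cfsg.Geo.IsFormRationalStructure (Cfsg.hermForm 4 F q) F₀ 1 P ∧ H = Cfsg.Geo.subfieldSubgroup F₀ P ⊓ (Cfsg.GU 4 F q ⊓ Cfsg.Geo.specialLinear (Fin 4) F)) ∨
    (∃ (F₀ : Subfield F) (P : Matrix.GeneralLinearGroup (Fin 4) F) (ζ : F), Fintype.card F = Nat.card F₀ ^ 2 ∧ ζ ≠ 0 ∧ ζ + ζ ^ q = 0 ∧ Cfsg.Geo.IsFormRationalStructure (Cfsg.hermForm 4 F q) F₀ ζ P ∧ (∀ u : Fin 4 → F, (∀ i, u i ∈ F₀) → (Cfsg.hermForm 4 F q) (Matrix.mulVec (P : Matrix (Fin 4) (Fin 4) F) u) (Matrix.mulVec (P : Matrix (Fin 4) (Fin 4) F) u) = 0) ∧ H = Cfsg.Geo.subfieldSubgroup F₀ P ⊓ (Cfsg.GU 4 F q ⊓ Cfsg.Geo.specialLinear (Fin 4) F)) ∨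
    (Odd q ∧ ∃ (F₀ : Subfield F) (P : Matrix.GeneralLinearGroup (Fin 4) F), Fintype.card F = Nat.card F₀ ^ 2 ∧ Cfsg.Geo.IsFormRationalStructure (Cfsg.hermForm 4 F q) F₀ 1 P ∧ H = Cfsg.Geo.subfieldSubgroup F₀ P ⊓ (Cfsg.GU 4 F q ⊓ Cfsg.Geo.specialLinear (Fin 4) F)) ∨
    (∃ (p : ℕ) (R : Subgroup (Matrix.GeneralLinearGroup (Fin 4) F)), p.Prime ∧ q = p ∧ p % 4 = 3 ∧ Cfsg.Geo.IsSymplecticTypeGroup 2 R ∧ Cfsg.Geo.ActsAbsolutelyIrreducibly (Cfsg.Geo.matrixSet R) ∧ R ≤ Cfsg.Geo.similarityGroup (Cfsg.hermForm 4 F q) ∧ Nat.card R = 64 ∧ Nat.card (Subgroup.center R) = 4 ∧ H = Cfsg.Geo.subgroupNormalizer R ⊓ (Cfsg.GU 4 F q ⊓ Cfsg.Geo.specialLinear (Fin 4) F)) ∨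
    Cfsg.Geo.InUnitaryResidualClass H := by
  rcases uEq_of_uContain hF (by norm_num) (by norm_num) hH h with
    ⟨W, h1, h2, hE⟩ | ⟨W, h1, h2, h3, hE⟩ | ⟨t, k, D, htk, ht, hk, hD, hE⟩ | ⟨k, D, h1, h2, h3, hE⟩ |
    ⟨r, K, h1, h2, h3, h4, h5, hE⟩ | ⟨n₁, n₂, e, P, f₁, f₂, h0, h1, h2, h3, h4, h5, hE⟩ |
    ⟨F₀, r, P, h1, h2, h3, h4, hE⟩ | ⟨F₀, P, h1, h2, h3, hE⟩ | ⟨F₀, P, ζ, h1, h2, h3, h4, h5, h6, hE⟩ |
    ⟨r, R, p, e, k, h1, h2, h3, h4, h5, h6, h7, hE⟩ |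
    ⟨k, t, e, P, f₁, h0, h1, h2, h3, h4, h5, hE⟩ | hres
  · exact Or.inl (⟨W, h1, h2, hE⟩)
  · exact Or.inr (Or.inl (⟨W, h1, h2, h3, hE⟩))
  · have hkl : k ≤ 2 := by nlinarith
    have hc : (t = 4 ∧ k = 1) ∨ (t = 2 ∧ k = 2) := by
      interval_cases k <;> omega
    rcases hc with ⟨rfl, rfl⟩ | ⟨rfl, rfl⟩
    · by_cases hq : q = 3
      · subst hq
        obtain ⟨R, r1, r2, r3, r4, r5, hle⟩ := LN.lines_nine_le hF hD
        have hle' : H ≤ subgroupNormalizer R := by rw [hE]; exact hle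
        exact Or.inr (Or.inr (Or.inr (Or.inr (Or.inr (Or.inr (Or.inr (Or.inr (Or.inl (⟨3, R, Nat.prime_three, rfl, by norm_num, r1, r2, r3, r4, r5,
          eq_inf_of_maximal hH hle' (not_le_subgroupNormalizer hF (by norm_num) (by norm_num) r1 r2 r3)⟩)))))))))
      · exact Or.inr (Or.inr (Or.inl (⟨hq, D, hD, hE⟩)))
    · by_cases hq : 3 ≤ q
      · exact Or.inr (Or.inr (Or.inr (Or.inl (⟨hq, D, hD, hE⟩))))
      · obtain rfl : q = 2 := by have := two_le_q hF; omega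
        obtain ⟨b, e, -, -, -, -, hdec, hle⟩ := planes_le_lines hF hD (by norm_num)
        have hle' : H ≤ decompositionStabilizer (fun j => Submodule.span F {b (e j).1 (e j).2}) := by
          rw [hE]; exact hle
        exact Or.inr (Or.inr (Or.inl (⟨by norm_num, _, hdec, eq_inf_of_maximal hH hle'
          (not_le_decompositionStabilizer hF (by norm_num) (by norm_num) _ hdec.decomp)⟩)))
  · obtain rfl : k = 2 := by omega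
    by_cases hq : 4 ≤ q
    · exact Or.inr (Or.inr (Or.inr (Or.inr (Or.inl (⟨hq, D, h2, h3, hE⟩)))))
    · have hq' : q = 2 ∨ q = 3 := by have := two_le_q hF; omega
      obtain ⟨F₀, P, ζ, z1, z2, z3, z4, z5, hle⟩ := ti_four_le hF hq' h2 h3
      have hle' : H ≤ subfieldSubgroup F₀ P := by rw [hE]; exact hle
      exact Or.inr (Or.inr (Or.inr (Or.inr (Or.inr (Or.inr (Or.inl (⟨F₀, P, ζ, z1, z2, z3, z4, z5,
        eq_inf_of_maximal hH hle' (not_le_subfieldSubgroup_two hF (by norm_num) (by norm_num) F₀ P z1)⟩)))))))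
  · rcases odd_prime_cases_le_twelve h1 h2 ((Nat.le_of_dvd (by norm_num) h3).trans (by norm_num)) with rfl | rfl | rfl | rfl
    · exact absurd h3 (by norm_num)
    · exact absurd h3 (by norm_num)
    · exact absurd h3 (by norm_num)
    · exact absurd h3 (by norm_num)
  · have hn1 : n₁ ≤ 3 := by nlinarith
    exfalso
    interval_cases n₁ <;> omega
  · exact Or.inr (Or.inr (Or.inr (Or.inr (Or.inr (Or.inl (⟨F₀, r, P, h1, h2, h3, h4, hE⟩))))))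
  · exact Or.inr (Or.inr (Or.inr (Or.inr (Or.inr (Or.inr (Or.inr (Or.inl (⟨h1, F₀, P, h2, h3, hE⟩))))))))
  · exact Or.inr (Or.inr (Or.inr (Or.inr (Or.inr (Or.inr (Or.inl (⟨F₀, P, ζ, h2, h3, h4, h5, h6, hE⟩)))))))
  · obtain rfl := eq_of_prime_dvd h1.prime h7 (a := 2) (by norm_num) (by norm_num)
    have hk : k = 2 := Nat.pow_right_injective (a := 2) (by norm_num) (by change 2 ^ k = 2 ^ 2; rw [← h7])
    subst hk
    rcases h6 with ⟨h, -⟩ | ⟨-, he, hZ, hRc⟩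
    · exact absurd h (by decide)
    · rw [hZ] at h5
      obtain ⟨hp, hq, hmod⟩ := class6_uni_two hF he h5
      exact Or.inr (Or.inr (Or.inr (Or.inr (Or.inr (Or.inr (Or.inr (Or.inr (Or.inl (⟨p, R, hp, hq, hmod, h1, h2, h3, hRc, hZ, hE⟩)))))))))
  · exact absurd (pow_cases (by norm_num) h0 h1 h2).1 (by norm_num)
  · exact Or.inr (Or.inr (Or.inr (Or.inr (Or.inr (Or.inr (Or.inr (Or.inr (Or.inr (hres)))))))))

end Cfsg.Agent.UCase
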