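import Mathlib
import Cfsg.Agent.UCase.Main
import Cfsg.Agent.UCase.Main6
import Cfsg.Agent.UCase.FieldFive

set_option autoImplicit false
set_option linter.unusedSectionVars false
set_option linter.unusedVariables false

/-!
The list of maximal subgroups of `SU_5(q)`, from the containment theorem.
-/

namespace Cfsg.Agent.UCase

open scoped Matrix
open Cfsg.Geo Cfsg.Agent.Uni Cfsg.Agent.AschCases
open Matrix (GeneralLinearGroup)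

theorem su_cases_5 {F : Type*} [Field F] [Fintype F] (q : ℕ) (hF : Fintype.card F = q ^ 2) (H : Subgroup (Matrix.GeneralLinearGroup (Fin 5) F))
    (hH : Cfsg.Geo.IsMaximalIn (Cfsg.GU 5 F q ⊓ Cfsg.Geo.specialLinear (Fin 5) F) H)
    (h : UContain 5 F q H) :
    (∃ W : Submodule F (Fin 5 → F), W ≠ ⊥ ∧ Cfsg.Geo.IsTotallySingularFor (Cfsg.hermForm 5 F q) W ∧ H = Cfsg.Geo.subspaceStabilizer W ⊓ (Cfsg.GU 5 F q ⊓ Cfsg.Geo.specialLinear (Fin 5) F)) ∨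
    (∃ W : Submodule F (Fin 5 → F), W ≠ ⊥ ∧ Cfsg.Geo.IsNondegenerateOn (Cfsg.hermForm 5 F q) W ∧ 2 * Module.finrank F W < 5 ∧ H = Cfsg.Geo.subspaceStabilizer W ⊓ (Cfsg.GU 5 F q ⊓ Cfsg.Geo.specialLinear (Fin 5) F)) ∨
    (∃ D : Fin 5 → Submodule F (Fin 5 → F), Cfsg.Geo.IsNondegenerateMDecomposition (Cfsg.hermForm 5 F q) 1 D ∧ H = Cfsg.Geo.decompositionStabilizer D ⊓ (Cfsg.GU 5 F q ⊓ Cfsg.Geo.specialLinear (Fin 5) F)) ∨
    (3 ≤ q ∧ ∃ K : Subalgebra F (Matrix (Fin 5) (Fin 5) F), Cfsg.Geo.IsFieldSubalgebra 5 K ∧ Cfsg.Geo.IsAdjointClosedFor (Cfsg.hermForm 5 F q) K ∧ H = Cfsg.Geo.subalgebraNormalizer K ⊓ (Cfsg.GU 5 F q ⊓ Cfsg.Geo.specialLinear (Fin 5) F)) ∨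
    (∃ (F₀ : Subfield F) (r : ℕ) (P : Matrix.GeneralLinearGroup (Fin 5) F), r.Prime ∧ Odd r ∧ Fintype.card F = Nat.card F₀ ^ r ∧ Cfsg.Geo.IsFormRationalStructure (Cfsg.hermForm 5 F q) F₀ 1 P ∧ H = Cfsg.Geo.subfieldSubgroup F₀ P ⊓ (Cfsg.GU 5 F q ⊓ Cfsg.Geo.specialLinear (Fin 5) F)) ∨
    (Odd q ∧ ∃ (F₀ : Subfield F) (P : Matrix.GeneralLinearGroup (Fin 5) F), Fintype.card F = Nat.card F₀ ^ 2 ∧ Cfsg.Geo.IsFormRationalStructure (Cfsg.hermForm 5 F q) F₀ 1 P ∧ H = Cfsg.Geo.subfieldSubgroup F₀ P ⊓ (Cfsg.GU 5 F q ⊓ Cfsg.Geo.specialLinear (Fin 5) F)) ∨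
    (∃ (p : ℕ) (R : Subgroup (Matrix.GeneralLinearGroup (Fin 5) F)), p.Prime ∧ CharP F p ∧ ((q = p ∧ p % 5 = 4) ∨ (q = p ^ 2 ∧ (p % 5 = 2 ∨ p % 5 = 3))) ∧ Cfsg.Geo.IsSymplecticTypeGroup 5 R ∧ Cfsg.Geo.ActsAbsolutelyIrreducibly (Cfsg.Geo.matrixSet R) ∧ R ≤ Cfsg.Geo.similarityGroup (Cfsg.hermForm 5 F q) ∧ Nat.card R = 125 ∧ Nat.card (Subgroup.center R) = 5 ∧ H = Cfsg.Geo.subgroupNormalizer R ⊓ (Cfsg.GU 5 F q ⊓ Cfsg.Geo.specialLinear (Fin 5) F)) ∨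
    Cfsg.Geo.InUnitaryResidualClass H := by
  rcases uEq_of_uContain hF (by norm_num) (by norm_num) hH h with
    ⟨W, h1, h2, hE⟩ | ⟨W, h1, h2, h3, hE⟩ | ⟨t, k, D, htk, ht, hk, hD, hE⟩ | ⟨k, D, h1, h2, h3, hE⟩ |
    ⟨r, K, h1, h2, h3, h4, h5, hE⟩ | ⟨n₁, n₂, e, P, f₁, f₂, h0, h1, h2, h3, h4, h5, hE⟩ |
    ⟨F₀, r, P, h1, h2, h3, h4, hE⟩ | ⟨F₀, P, h1, h2, h3, hE⟩ | ⟨F₀, P, ζ, h1, h2, h3, h4, h5, h6, hE⟩ |
    ⟨r, R, p, e, k, h1, h2, h3, h4, h5, h6, h7, hE⟩ |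
    ⟨k, t, e, P, f₁, h0, h1, h2, h3, h4, h5, hE⟩ | hres
  · exact Or.inl (⟨W, h1, h2, hE⟩)
  · exact Or.inr (Or.inl (⟨W, h1, h2, h3, hE⟩))
  · have hkl : k ≤ 2 := by nlinarith
    have hc : (t = 5 ∧ k = 1) := by
      interval_cases k <;> omega
    rcases hc with ⟨rfl, rfl⟩
    · exact Or.inr (Or.inr (Or.inl (⟨D, hD, hE⟩)))
  · exfalso; omega
  · rcases odd_prime_cases_le_twelve h1 h2 ((Nat.le_of_dvd (by norm_num) h3).trans (by norm_num)) with rfl | rfl | rfl | rfl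
    · exact absurd h3 (by norm_num)
    · by_cases hq : 3 ≤ q
      · exact Or.inr (Or.inr (Or.inr (Or.inl (⟨hq, K, h4, h5, hE⟩))))
      · exfalso
        obtain rfl : q = 2 := by have := two_le_q hF; omega
        obtain ⟨K', hK1, hK2⟩ := field_five hF h4 h5
        rw [hE] at hH
        exact not_maximal_of_between hH hK1 hK2
    · exact absurd h3 (by norm_num)
    · exact absurd h3 (by norm_num)
  · have hn1 : n₁ ≤ 2 := by nlinarith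
    exfalso
    interval_cases n₁ <;> omega
  · exact Or.inr (Or.inr (Or.inr (Or.inr (Or.inl (⟨F₀, r, P, h1, h2, h3, h4, hE⟩)))))
  · exact Or.inr (Or.inr (Or.inr (Or.inr (Or.inr (Or.inl (⟨h1, F₀, P, h2, h3, hE⟩))))))
  · exfalso; revert h1; decide
  · obtain rfl := eq_of_prime_dvd h1.prime h7 (a := 5) (by norm_num) (by norm_num)
    have hk : k = 1 := Nat.pow_right_injective (a := 5) (by norm_num) (by change 5 ^ k = 5 ^ 1; rw [← h7])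
    subst hk
    rcases h6 with ⟨-, hZ, -, hRc⟩ | ⟨h, -⟩
    · rw [hZ] at h5
      obtain ⟨hp, hchar, hcase⟩ := class6_uni_five hF h4 h5
      exact Or.inr (Or.inr (Or.inr (Or.inr (Or.inr (Or.inr (Or.inl (⟨p, R, hp, hchar, hcase, h1, h2, h3, hRc, hZ, hE⟩)))))))
    · exact absurd h (by norm_num)
  · exact absurd (pow_cases (by norm_num) h0 h1 h2).1 (by norm_num)
  · exact Or.inr (Or.inr (Or.inr (Or.inr (Or.inr (Or.inr (Or.inr (hres)))))))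

end Cfsg.Agent.UCase
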