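import Cfsg.Agent.AschCases.ProperSL

/-!
# Transvections do not lie in members of the tensor and extension field classes
-/

set_option autoImplicit false
set_option linter.unusedSectionVars false

namespace Cfsg.Agent.UCase

open scoped Matrix Kronecker
open Cfsg.Geo Cfsg.Agent.AschCases

variable {ι : Type} [Fintype ι] [DecidableEq ι] {F : Type*} [Field F]

/-- existence of a nonzero vector killed by two functionals -/
theorem exists_two_functionals (hn : 3 ≤ Fintype.card ι) (φ ψ : ι → F) :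
    ∃ x : ι → F, x ≠ 0 ∧ φ ⬝ᵥ x = 0 ∧ ψ ⬝ᵥ x = 0 := by
  let T : (ι → F) →ₗ[F] (Fin 2 → F) :=
    { toFun := fun x => ![φ ⬝ᵥ x, ψ ⬝ᵥ x]
      map_add' := fun x y => by simp [dotProduct_add]
      map_smul' := fun c x => by simp [dotProduct_smul] }
  have hker : LinearMap.ker T ≠ ⊥ := by
    apply LinearMap.ker_ne_bot_of_finrank_lt
    rw [Module.finrank_fin_fun, Module.finrank_fintype_fun_eq_card]
    omega
  obtain ⟨x, hx, hx0⟩ := (Submodule.ne_bot_iff _).1 hker
  rw [LinearMap.mem_ker] at hx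
  have h : (![φ ⬝ᵥ x, ψ ⬝ᵥ x] : Fin 2 → F) = 0 := hx
  exact ⟨x, hx0, by simpa using congrFun h 0, by simpa using congrFun h 1⟩

theorem exists_one_functional {κ : Type} [Fintype κ] (hn : 2 ≤ Fintype.card κ)
    (f : (κ → F) →ₗ[F] F) : ∃ x : κ → F, x ≠ 0 ∧ f x = 0 := by
  have hker : LinearMap.ker f ≠ ⊥ := by
    apply LinearMap.ker_ne_bot_of_finrank_lt
    rw [Module.finrank_self, Module.finrank_fintype_fun_eq_card]
    omega
  obtain ⟨x, hx, hx0⟩ := (Submodule.ne_bot_iff _).1 hker
  exact ⟨x, hx0, hx⟩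

/-- A subalgebra field of degree at least two contains a nonscalar element. -/
theorem exists_nonscalar [Nonempty ι] {r : ℕ} (hr : 2 ≤ r) {K : Subalgebra F (Matrix ι ι F)}
    (hK : IsFieldSubalgebra r K) : ∃ k ∈ K, ∀ c : F, k ≠ c • (1 : Matrix ι ι F) := by
  by_contra hcon
  push Not at hcon
  have h1 : (Subalgebra.toSubmodule K) ≤ Submodule.span F {(1 : Matrix ι ι F)} := by
    intro k hk
    obtain ⟨c, hc⟩ := hcon k hk
    rw [Submodule.mem_span_singleton]
    exact ⟨c, hc.symm⟩
  have h2 := Submodule.finrank_mono h1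
  have h3 : Module.finrank F (Subalgebra.toSubmodule K) = r := hK.finrank_eq
  have h4 := finrank_span_le_card (R := F) ({(1 : Matrix ι ι F)} : Set (Matrix ι ι F))
  simp at h4
  rw [h3] at h2
  omega

/-- Class 3. -/
theorem tv_not_mem_subalgebraNormalizer (hn : 3 ≤ Fintype.card ι) {r : ℕ} (hr : 2 ≤ r)
    (K : Subalgebra F (Matrix ι ι F)) (hK : IsFieldSubalgebra r K) (v φ : ι → F)
    (h : φ ⬝ᵥ v = 0) (hv : v ≠ 0) (hφ : φ ≠ 0) : tv v φ h ∉ subalgebraNormalizer K := by
  intro hmem
  have hne : Nonempty ι := Fintype.card_pos_iff.mp (by omega)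
  obtain ⟨k, hk, hks⟩ := exists_nonscalar hr hK
  -- the conjugate of `k`
  set t : GL ι F := tv v φ h with ht
  have hk' : (t : Matrix ι ι F) * k * ((t⁻¹ : GL ι F) : Matrix ι ι F) ∈ K := (hmem k).1 hk
  set k' := (t : Matrix ι ι F) * k * ((t⁻¹ : GL ι F) : Matrix ι ι F) with hk'def
  have hkt : k' * (t : Matrix ι ι F) = (t : Matrix ι ι F) * k := by
    rw [hk'def, Matrix.mul_assoc, ← Units.val_mul, inv_mul_cancel, Units.val_one, Matrix.mul_one]
  obtain ⟨x, hx0, hx1, hx2⟩ := exists_two_functionals hn φ (φ ᵥ* k)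
  rw [← Matrix.dotProduct_mulVec] at hx2
  have h1 : k' *ᵥ x = k *ᵥ x := by
    have h2 := congrArg (fun M => M *ᵥ x) hkt
    simp only [← Matrix.mulVec_mulVec] at h2
    rw [ht, tv_mulVec, tv_mulVec, hx1, hx2, zero_smul, add_zero, add_zero] at h2
    exact h2
  have hkk : k' = k := by
    by_contra hne'
    have h3 : k' - k ∈ K := K.sub_mem hk' hk
    obtain ⟨y, hy, hy1⟩ := hK.inv _ h3 (sub_ne_zero.2 hne')
    have h4 : y * (k' - k) = 1 := by rw [hK.comm y hy _ h3, hy1]
    have h5 : (y * (k' - k)) *ᵥ x = 0 := by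
      rw [← Matrix.mulVec_mulVec, Matrix.sub_mulVec, h1, sub_self, Matrix.mulVec_zero]
    rw [h4, Matrix.one_mulVec] at h5
    exact hx0 h5
  rw [hkk] at hkt
  -- `v` is an eigenvector
  obtain ⟨i, hi⟩ : ∃ i, φ i ≠ 0 := by
    by_contra hcon
    push Not at hcon
    exact hφ (funext hcon)
  have h6 := congrArg (fun M => M *ᵥ (Pi.single i (φ i)⁻¹ : ι → F)) hkt
  simp only [← Matrix.mulVec_mulVec] at h6
  rw [ht, tv_mulVec, tv_mulVec, dotProduct_single, mul_inv_cancel₀ hi, one_smul,
    Matrix.mulVec_add, add_right_inj] at h6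
  set c : F := φ ⬝ᵥ (k *ᵥ (Pi.single i (φ i)⁻¹ : ι → F)) with hc
  have h7 : k - c • (1 : Matrix ι ι F) ∈ K :=
    K.sub_mem hk (K.smul_mem K.one_mem c)
  have h8 : k - c • (1 : Matrix ι ι F) ≠ 0 := sub_ne_zero.2 (hks c)
  obtain ⟨y, hy, hy1⟩ := hK.inv _ h7 h8
  have h9 : y * (k - c • (1 : Matrix ι ι F)) = 1 := by rw [hK.comm y hy _ h7, hy1]
  have h10 : (y * (k - c • (1 : Matrix ι ι F))) *ᵥ v = 0 := by
    rw [← Matrix.mulVec_mulVec, Matrix.sub_mulVec, h6, Matrix.smul_mulVec, Matrix.one_mulVec,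
      sub_self, Matrix.mulVec_zero]
  rw [h9, Matrix.one_mulVec] at h10
  exact hv h10

/-- A matrix for which every vector is an eigenvector is scalar. -/
theorem eq_scalar_of_eigen {κ : Type} [Fintype κ] [DecidableEq κ] (A : Matrix κ κ F)
    (hA : ∀ x : κ → F, x ≠ 0 → A *ᵥ x ∈ Submodule.span F {x}) :
    ∃ c : F, A = c • (1 : Matrix κ κ F) := by
  by_contra hcon
  push Not at hcon
  obtain ⟨v, hv⟩ := exists_not_mem_span_of_not_scalar A hcon
  by_cases h0 : v = 0
  · subst h0
    rw [Matrix.mulVec_zero] at hv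
    exact hv (Submodule.zero_mem _)
  · exact hv (hA v h0)

/-- Transport of a transvection through a change of basis and a reindexing. -/
theorem exists_tvM_of_map {κ : Type} [Fintype κ] [DecidableEq κ] (e : ι ≃ κ) (P : GL ι F)
    (S : Subgroup (GL κ F)) (v φ : ι → F) (h : φ ⬝ᵥ v = 0) (hv : v ≠ 0) (hφ : φ ≠ 0)
    (hmem : tv v φ h ∈ (S.map (glReindex e.symm).toMonoidHom).map (MulAut.conj P).toMonoidHom) :
    ∃ k ∈ S, ∃ w ψ : κ → F, w ≠ 0 ∧ ψ ≠ 0 ∧ (k : Matrix κ κ F) = tvM w ψ := by
  obtain ⟨R, ⟨k, hk, hkR⟩, hR⟩ := hmem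
  refine ⟨k, hk, (((P⁻¹ : GL ι F) : Matrix ι ι F) *ᵥ v) ∘ e.symm,
    (φ ᵥ* (P : Matrix ι ι F)) ∘ e.symm, ?_, ?_, ?_⟩
  · intro h0
    apply hv
    have h1 : ((P⁻¹ : GL ι F) : Matrix ι ι F) *ᵥ v = 0 := by
      funext i
      have := congrFun h0 (e i)
      simpa using this
    have h2 := congrArg (fun z => (P : Matrix ι ι F) *ᵥ z) h1
    simp only [Matrix.mulVec_mulVec, ← Units.val_mul, mul_inv_cancel, Units.val_one,
      Matrix.one_mulVec, Matrix.mulVec_zero] at h2
    exact h2
  · intro h0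
    apply hφ
    have h1 : φ ᵥ* (P : Matrix ι ι F) = 0 := by
      funext i
      have := congrFun h0 (e i)
      simpa using this
    have h2 := congrArg (fun z => z ᵥ* ((P⁻¹ : GL ι F) : Matrix ι ι F)) h1
    simp only [Matrix.vecMul_vecMul, ← Units.val_mul, mul_inv_cancel, Units.val_one,
      Matrix.vecMul_one, Matrix.zero_vecMul] at h2
    exact h2
  · have h1 : (P : Matrix ι ι F) * (R : Matrix ι ι F) * ((P⁻¹ : GL ι F) : Matrix ι ι F) =
        tvM v φ := congrArg (fun x : GL ι F => (x : Matrix ι ι F)) hR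
    have hPP : ((P⁻¹ : GL ι F) : Matrix ι ι F) * (P : Matrix ι ι F) = 1 := by
      rw [← Units.val_mul, inv_mul_cancel, Units.val_one]
    have h2 : (R : Matrix ι ι F) = ((P⁻¹ : GL ι F) : Matrix ι ι F) * tvM v φ * (P : Matrix ι ι F) := by
      rw [← h1]
      calc (R : Matrix ι ι F) = (((P⁻¹ : GL ι F) : Matrix ι ι F) * (P : Matrix ι ι F)) * R *
            (((P⁻¹ : GL ι F) : Matrix ι ι F) * (P : Matrix ι ι F)) := by
            rw [hPP, Matrix.one_mul, Matrix.mul_one]
        _ = _ := by simp only [Matrix.mul_assoc]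
    have h3 : (R : Matrix ι ι F) = 1 + Matrix.vecMulVec (((P⁻¹ : GL ι F) : Matrix ι ι F) *ᵥ v)
        (φ ᵥ* (P : Matrix ι ι F)) := by
      rw [h2, tvM, Matrix.mul_add, Matrix.add_mul, Matrix.mul_one, hPP, Matrix.mul_vecMulVec,
        Matrix.vecMulVec_mul]
    ext a b
    have h4 : (R : Matrix ι ι F) (e.symm a) (e.symm b) = (k : Matrix κ κ F) a b := by
      rw [← hkR]
      change (glReindex e.symm k : Matrix ι ι F) (e.symm a) (e.symm b) = _
      rw [glReindex_apply]
      simp
    rw [← h4, h3, tvM_apply, Matrix.add_apply, Matrix.vecMulVec_apply, Matrix.one_apply]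
    simp

/-- A nontrivial rank one perturbation of the identity is not scalar. -/
theorem tvM_ne_scalar {κ : Type} [Fintype κ] [DecidableEq κ] (hn : 2 ≤ Fintype.card κ)
    (w ψ : κ → F) (hw : w ≠ 0) (hψ : ψ ≠ 0) (c : F) : tvM w ψ ≠ c • (1 : Matrix κ κ F) := by
  intro hs
  have h1 : ∀ i j, i ≠ j → w i * ψ j = 0 := by
    intro i j hij
    have := congrFun (congrFun hs i) j
    rw [tvM_apply, if_neg hij, zero_add, Matrix.smul_apply, Matrix.one_apply_ne hij,
      smul_zero] at this
    exact this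
  obtain ⟨i, hi⟩ := Function.ne_iff.1 hw
  obtain ⟨j, hj⟩ := Function.ne_iff.1 hψ
  have hij : i = j := by
    by_contra hij
    rcases mul_eq_zero.1 (h1 i j hij) with h | h
    · exact hi h
    · exact hj h
  subst hij
  obtain ⟨l, hl⟩ : ∃ l, l ≠ i := Fintype.exists_ne_of_one_lt_card (by omega) i
  have h2 : c = 1 := by
    have := congrFun (congrFun hs l) l
    rw [tvM_apply, if_pos rfl, Matrix.smul_apply, Matrix.one_apply_eq, smul_eq_mul, mul_one] at this
    have h3 : w l * ψ l = 0 := by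
      rcases mul_eq_zero.1 (h1 l i hl) with h | h
      · rw [h, zero_mul]
      · exact absurd h hj
    rw [h3, add_zero] at this
    exact this.symm
  have := congrFun (congrFun hs i) i
  rw [tvM_apply, if_pos rfl, Matrix.smul_apply, Matrix.one_apply_eq, smul_eq_mul, mul_one, h2,
    add_eq_left] at this
  rcases mul_eq_zero.1 this with h | h
  · exact hi h
  · exact hj h

/-- Class 4. -/
theorem tv_not_mem_tensorProductSubgroup {n₁ n₂ : ℕ} (h₁ : 2 ≤ n₁) (h₂ : 2 ≤ n₂)
    (e : ι ≃ Fin n₁ × Fin n₂) (P : GL ι F) (v φ : ι → F)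
    (h : φ ⬝ᵥ v = 0) (hv : v ≠ 0) (hφ : φ ≠ 0) : tv v φ h ∉ tensorProductSubgroup n₁ n₂ e P := by
  intro hmem
  obtain ⟨k, ⟨a, b, hab⟩, w, ψ, hw, hψ, hk⟩ := exists_tvM_of_map e P _ v φ h hv hφ hmem
  rw [hk] at hab
  -- pure tensors
  let A : Matrix (Fin n₁) (Fin n₁) F := a
  let B : Matrix (Fin n₂) (Fin n₂) F := b
  let pt : (Fin n₁ → F) → (Fin n₂ → F) → (Fin n₁ × Fin n₂ → F) := fun x y p => x p.1 * y p.2
  have hact : ∀ x y, pt (A *ᵥ x) (B *ᵥ y) = pt x y + (ψ ⬝ᵥ pt x y) • w := by
    intro x y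
    rw [← tvM_mulVec, hab]
    funext p
    simp only [Matrix.mulVec, dotProduct, pt, Fintype.sum_prod_type,
      Finset.sum_mul_sum]
    refine Finset.sum_congr rfl fun i _ => Finset.sum_congr rfl fun j _ => ?_
    change A p.1 i * x i * (B p.2 j * y j) = A p.1 i * B p.2 j * (x i * y j)
    ring
  have hinj1 : ∀ {x x' : Fin n₁ → F} {y y' : Fin n₂ → F}, x ≠ 0 → y ≠ 0 → pt x' y' = pt x y →
      x' ∈ Submodule.span F {x} ∧ y' ∈ Submodule.span F {y} := by
    intro x x' y y' hx hy hxy
    obtain ⟨i, hi⟩ := Function.ne_iff.1 hx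
    obtain ⟨j, hj⟩ := Function.ne_iff.1 hy
    have hij : x' i * y' j = x i * y j := congrFun hxy (i, j)
    have hx'i : x' i ≠ 0 := by
      intro h0; rw [h0, zero_mul] at hij; exact mul_ne_zero hi hj hij.symm
    have hy'j : y' j ≠ 0 := by
      intro h0; rw [h0, mul_zero] at hij; exact mul_ne_zero hi hj hij.symm
    constructor
    · rw [Submodule.mem_span_singleton]
      refine ⟨y j / y' j, ?_⟩
      funext i'
      have : x' i' * y' j = x i' * y j := congrFun hxy (i', j)
      rw [Pi.smul_apply, smul_eq_mul]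
      field_simp
      linear_combination -this
    · rw [Submodule.mem_span_singleton]
      refine ⟨x i / x' i, ?_⟩
      funext j'
      have : x' i * y' j' = x i * y j' := congrFun hxy (i, j')
      rw [Pi.smul_apply, smul_eq_mul]
      field_simp
      linear_combination -this
  have hA : ∃ c : F, A = c • (1 : Matrix (Fin n₁) (Fin n₁) F) := by
    apply eq_scalar_of_eigen
    intro x hx
    let f : (Fin n₂ → F) →ₗ[F] F :=
      { toFun := fun y => ψ ⬝ᵥ pt x y
        map_add' := fun y y' => by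
          rw [← dotProduct_add]; congr 1; funext p; simp only [pt, Pi.add_apply]; ring
        map_smul' := fun c y => by
          rw [RingHom.id_apply, ← dotProduct_smul]; congr 1; funext p
          simp only [pt, Pi.smul_apply, smul_eq_mul]; ring }
    obtain ⟨y, hy, hfy⟩ := exists_one_functional (by rw [Fintype.card_fin]; exact h₂) f
    have h1 := hact x y
    rw [show ψ ⬝ᵥ pt x y = 0 from hfy, zero_smul, add_zero] at h1
    exact (hinj1 hx hy h1).1
  have hB : ∃ c : F, B = c • (1 : Matrix (Fin n₂) (Fin n₂) F) := by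
    apply eq_scalar_of_eigen
    intro y hy
    let f : (Fin n₁ → F) →ₗ[F] F :=
      { toFun := fun x => ψ ⬝ᵥ pt x y
        map_add' := fun x x' => by
          rw [← dotProduct_add]; congr 1; funext p; simp only [pt, Pi.add_apply]; ring
        map_smul' := fun c x => by
          rw [RingHom.id_apply, ← dotProduct_smul]; congr 1; funext p
          simp only [pt, Pi.smul_apply, smul_eq_mul]; ring }
    obtain ⟨x, hx, hfx⟩ := exists_one_functional (by rw [Fintype.card_fin]; exact h₁) f
    have h1 := hact x y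
    rw [show ψ ⬝ᵥ pt x y = 0 from hfx, zero_smul, add_zero] at h1
    exact (hinj1 hx hy h1).2
  obtain ⟨c, hc⟩ := hA
  obtain ⟨d, hd⟩ := hB
  have hscal : tvM w ψ = (c * d) • (1 : Matrix (Fin n₁ × Fin n₂) (Fin n₁ × Fin n₂) F) := by
    rw [hab]
    change A ⊗ₖ B = _
    rw [hc, hd, Matrix.smul_kronecker, Matrix.kronecker_smul, Matrix.one_kronecker_one, smul_smul]
  exact tvM_ne_scalar (by
    rw [Fintype.card_prod, Fintype.card_fin, Fintype.card_fin]; nlinarith) w ψ hw hψ _ hscal

/-- the pure tensor -/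
def pureT {m t : ℕ} (x : Fin t → Fin m → F) (a : Fin t → Fin m) : F := ∏ i, x i (a i)

theorem pureT_ne_zero {m t : ℕ} {x : Fin t → Fin m → F} (hx : ∀ i, x i ≠ 0) :
    ∃ a : Fin t → Fin m, ∀ i, x i (a i) ≠ 0 := by
  choose a ha using fun i => Function.ne_iff.1 (hx i)
  exact ⟨a, ha⟩

theorem pureT_inj {m t : ℕ} {x x' : Fin t → Fin m → F} (hx : ∀ i, x i ≠ 0)
    (h : pureT x' = pureT x) (i : Fin t) : x' i ≠ 0 ∧ x' i ∈ Submodule.span F {x i} := by
  obtain ⟨a, ha⟩ := pureT_ne_zero hx
  have hupd : ∀ (y : Fin t → Fin m → F) (b : Fin m),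
      pureT y (Function.update a i b) = y i b * ∏ l ∈ Finset.univ.erase i, y l (a l) := by
    intro y b
    unfold pureT
    rw [← Finset.mul_prod_erase _ _ (Finset.mem_univ i), Function.update_self]
    congr 1
    refine Finset.prod_congr rfl fun l hl => ?_
    rw [Function.update_of_ne (Finset.ne_of_mem_erase hl)]
  have hX : (∏ l ∈ Finset.univ.erase i, x l (a l)) ≠ 0 :=
    Finset.prod_ne_zero_iff.2 fun l _ => ha l
  have heq : ∀ b, x' i b * (∏ l ∈ Finset.univ.erase i, x' l (a l)) =
      x i b * ∏ l ∈ Finset.univ.erase i, x l (a l) := by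
    intro b
    rw [← hupd, ← hupd, h]
  have hne : x' i (a i) * (∏ l ∈ Finset.univ.erase i, x' l (a l)) ≠ 0 := by
    rw [heq]
    exact mul_ne_zero (ha i) hX
  have hY := right_ne_zero_of_mul hne
  refine ⟨fun h0 => left_ne_zero_of_mul hne (by rw [h0]; rfl), ?_⟩
  rw [Submodule.mem_span_singleton]
  refine ⟨(∏ l ∈ Finset.univ.erase i, x l (a l)) / ∏ l ∈ Finset.univ.erase i, x' l (a l), ?_⟩
  funext b
  rw [Pi.smul_apply, smul_eq_mul]
  have := heq b
  field_simp
  linear_combination -this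

/-- the pure tensor is linear in each argument -/
def pureLin {m t : ℕ} (ψ : (Fin t → Fin m) → F) (x : Fin t → Fin m → F) (i : Fin t) :
    (Fin m → F) →ₗ[F] F where
  toFun z := ψ ⬝ᵥ pureT (Function.update x i z)
  map_add' z z' := by
    rw [← dotProduct_add]
    congr 1
    funext a
    simp only [pureT, Pi.add_apply]
    rw [← Finset.mul_prod_erase _ _ (Finset.mem_univ i), ← Finset.mul_prod_erase _ _ (Finset.mem_univ i),
      ← Finset.mul_prod_erase _ _ (Finset.mem_univ i), Function.update_self, Function.update_self,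
      Function.update_self]
    have e : ∀ y : Fin m → F, ∏ l ∈ Finset.univ.erase i, Function.update x i y l (a l) =
        ∏ l ∈ Finset.univ.erase i, x l (a l) := fun y => Finset.prod_congr rfl fun l hl => by
      rw [Function.update_of_ne (Finset.ne_of_mem_erase hl)]
    rw [e, e, e, Pi.add_apply]
    ring
  map_smul' c z := by
    rw [RingHom.id_apply, ← dotProduct_smul]
    congr 1
    funext a
    simp only [pureT, Pi.smul_apply, smul_eq_mul]
    rw [← Finset.mul_prod_erase _ _ (Finset.mem_univ i), ← Finset.mul_prod_erase _ _ (Finset.mem_univ i),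
      Function.update_self, Function.update_self]
    have e : ∀ y : Fin m → F, ∏ l ∈ Finset.univ.erase i, Function.update x i y l (a l) =
        ∏ l ∈ Finset.univ.erase i, x l (a l) := fun y => Finset.prod_congr rfl fun l hl => by
      rw [Function.update_of_ne (Finset.ne_of_mem_erase hl)]
    rw [e, e, Pi.smul_apply, smul_eq_mul]
    ring

/-- Class 7. -/
theorem tv_not_mem_tensorWreathSubgroup {m t : ℕ} (hm : 3 ≤ m) (ht : 2 ≤ t)
    (e : ι ≃ (Fin t → Fin m)) (P : GL ι F) (v φ : ι → F)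
    (h : φ ⬝ᵥ v = 0) (hv : v ≠ 0) (hφ : φ ≠ 0) : tv v φ h ∉ tensorWreathSubgroup m t e P := by
  intro hmem
  obtain ⟨k, hkS, w, ψ, hw, hψ, hk⟩ := exists_tvM_of_map e P _ v φ h hv hφ hmem
  obtain ⟨σ, A, hA⟩ := tensorWreathStandard_form m t k hkS
  rw [hk] at hA
  have hact : ∀ x : Fin t → Fin m → F, pureT (fun i => A i *ᵥ x (σ i)) =
      pureT x + (ψ ⬝ᵥ pureT x) • w := by
    intro x
    rw [← tvM_mulVec]
    funext a
    simp only [Matrix.mulVec, dotProduct]
    rw [Finset.sum_congr rfl fun y _ => by rw [hA a y]]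
    have h1 : ∀ y : Fin t → Fin m, (∏ i, A i (a i) (y (σ i))) * pureT x y =
        ∏ i, (A i (a i) (y (σ i)) * x (σ i) (y (σ i))) := by
      intro y
      rw [Finset.prod_mul_distrib]
      congr 1
      exact (Equiv.prod_comp σ fun j => x j (y j)).symm
    rw [Finset.sum_congr rfl fun y _ => h1 y]
    have h2 : ∑ y : Fin t → Fin m, ∏ i, (A i (a i) (y (σ i)) * x (σ i) (y (σ i))) =
        ∑ z : Fin t → Fin m, ∏ i, (A i (a i) (z i) * x (σ i) (z i)) :=
      Equiv.sum_comp (Equiv.arrowCongr σ.symm (Equiv.refl (Fin m)))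
        (fun z : Fin t → Fin m => ∏ i, (A i (a i) (z i) * x (σ i) (z i)))
    rw [h2]
    have h3 : ∀ i, (A i *ᵥ x (σ i)) (a i) = ∑ b, A i (a i) b * x (σ i) b := fun i => rfl
    change ∏ i, (A i *ᵥ x (σ i)) (a i) = _
    rw [Finset.prod_congr rfl fun i _ => h3 i, Finset.prod_univ_sum, Fintype.piFinset_univ]
  let e0 : Fin m → F := Pi.single ⟨0, by omega⟩ 1
  have he0 : e0 ≠ 0 := by
    intro h0
    have := congrFun h0 ⟨0, by omega⟩
    simp [e0] at this
  by_cases hσ : σ = 1
  · -- all components are scalar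
    have hsc : ∀ i, ∃ c : F, A i = c • (1 : Matrix (Fin m) (Fin m) F) := by
      intro i
      apply eq_scalar_of_eigen
      intro x hx
      obtain ⟨j, hj⟩ : ∃ j : Fin t, j ≠ i :=
        Fintype.exists_ne_of_one_lt_card (by rw [Fintype.card_fin]; omega) i
      obtain ⟨z, hz, hfz⟩ := exists_one_functional (by rw [Fintype.card_fin]; omega)
        (pureLin ψ (Function.update (fun _ => e0) i x) j)
      have hX : ∀ l, Function.update (Function.update (fun _ => e0) i x) j z l ≠ 0 := by
        intro l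
        by_cases hl : l = j
        · rw [hl, Function.update_self]; exact hz
        · rw [Function.update_of_ne hl]
          by_cases hl' : l = i
          · rw [hl', Function.update_self]; exact hx
          · rw [Function.update_of_ne hl']; exact he0
      have h1 := hact (Function.update (Function.update (fun _ => e0) i x) j z)
      rw [show ψ ⬝ᵥ pureT (Function.update (Function.update (fun _ => e0) i x) j z) = 0 from hfz,
        zero_smul, add_zero] at h1
      have h2 := (pureT_inj hX h1 i).2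
      have hσi : σ i = i := by rw [hσ]; rfl
      rw [hσi, Function.update_of_ne (Ne.symm hj), Function.update_self] at h2
      exact h2
    choose c hc using hsc
    have hscal : tvM w ψ = (∏ i, c i) • (1 : Matrix (Fin t → Fin m) (Fin t → Fin m) F) := by
      ext x y
      rw [hA, hσ, Matrix.smul_apply, Matrix.one_apply, smul_eq_mul]
      simp only [hc, Equiv.Perm.one_apply, Matrix.smul_apply, smul_eq_mul, Finset.prod_mul_distrib]
      congr 1
      by_cases hxy : x = y
      · rw [if_pos hxy, hxy]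
        exact Finset.prod_eq_one fun i _ => Matrix.one_apply_eq _
      · rw [if_neg hxy]
        obtain ⟨i, hi⟩ := Function.ne_iff.1 hxy
        exact Finset.prod_eq_zero (Finset.mem_univ i) (Matrix.one_apply_ne hi)
    refine tvM_ne_scalar ?_ w ψ hw hψ _ hscal
    rw [Fintype.card_fun, Fintype.card_fin, Fintype.card_fin]
    calc 2 ≤ m := by omega
      _ = m ^ 1 := (pow_one m).symm
      _ ≤ m ^ t := Nat.pow_le_pow_right (by omega) (by omega)
  · obtain ⟨i, hi⟩ : ∃ i, σ i ≠ i := by
      by_contra hcon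
      push Not at hcon
      exact hσ (Equiv.ext hcon)
    -- the functional
    have hker : 2 ≤ Module.finrank F (LinearMap.ker (pureLin ψ (fun _ => e0) i)) := by
      have h1 := LinearMap.finrank_range_add_finrank_ker (pureLin ψ (fun _ => e0) i)
      rw [Module.finrank_fin_fun] at h1
      have h2 : Module.finrank F (LinearMap.range (pureLin ψ (fun _ => e0) i)) ≤ 1 :=
        (Submodule.finrank_le _).trans_eq (Module.finrank_self F)
      omega
    have hz : ∀ z, z ≠ 0 → z ∈ LinearMap.ker (pureLin ψ (fun _ => e0) i) →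
        A i *ᵥ e0 ≠ 0 ∧ A i *ᵥ e0 ∈ Submodule.span F {z} := by
      intro z hz hzk
      have hX : ∀ l, Function.update (fun _ : Fin t => e0) i z l ≠ 0 := by
        intro l
        by_cases hl : l = i
        · rw [hl, Function.update_self]; exact hz
        · rw [Function.update_of_ne hl]; exact he0
      have h1 := hact (Function.update (fun _ => e0) i z)
      rw [show ψ ⬝ᵥ pureT (Function.update (fun _ => e0) i z) = 0 from hzk, zero_smul,
        add_zero] at h1
      have h2 := pureT_inj hX h1 i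
      simp only [Function.update_of_ne hi, Function.update_self] at h2
      exact h2
    obtain ⟨z, hzk, hz0⟩ := (Submodule.ne_bot_iff _).1 (show LinearMap.ker
      (pureLin ψ (fun _ => e0) i) ≠ ⊥ by
        intro h0
        rw [h0, finrank_bot] at hker
        omega)
    obtain ⟨h1, h2⟩ := hz z hz0 hzk
    have h3 : LinearMap.ker (pureLin ψ (fun _ => e0) i) ≤ Submodule.span F {A i *ᵥ e0} := by
      intro z' hz'
      by_cases h0 : z' = 0
      · rw [h0]; exact Submodule.zero_mem _
      obtain ⟨-, h4⟩ := hz z' h0 hz'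
      obtain ⟨c, hc⟩ := Submodule.mem_span_singleton.1 h4
      have hc0 : c ≠ 0 := by
        rintro rfl
        rw [zero_smul] at hc
        exact h1 hc.symm
      rw [Submodule.mem_span_singleton]
      exact ⟨c⁻¹, by rw [← hc, smul_smul, inv_mul_cancel₀ hc0, one_smul]⟩
    have h4 := Submodule.finrank_mono h3
    rw [finrank_span_singleton h1] at h4
    omega

end Cfsg.Agent.UCase
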